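import Cfsg.Agent.LieTori.Exceptional
import Cfsg.Agent.LieTori.RegularEigen
import Cfsg.Agent.LieTori.RankBoundInst
import Mathlib.RingTheory.Polynomial.Cyclotomic.Expand
import Mathlib.Analysis.Complex.Polynomial.Basic
import Mathlib.RingTheory.Polynomial.Basic

/-!
An element of `W(E6)` with a primitive twelfth root of unity as an eigenvalue has characteristic polynomial
`Φ₁₂ Φ₃`, its eigenvector is regular and has trivial stabiliser (owner: helper35).
-/

set_option autoImplicit false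
set_option linter.style.haveILetI false

namespace Cfsg.Agent.LieTori

open Cfsg.Lie Cfsg.Agent.ChevGrp Matrix Polynomial
open Cfsg.Agent.CoxTower (elemOfWord wordAct)

variable {l : ℕ}

theorem cyclotomic_twelve : cyclotomic 12 ℤ = X ^ 4 - X ^ 2 + 1 := by
  have h6 : cyclotomic 6 ℤ = X ^ 2 - X + 1 := by
    have h := cyclotomic_expand_eq_cyclotomic_mul (p := 2) (n := 3) Nat.prime_two (by norm_num) ℤ
    rw [show 3 * 2 = 6 from rfl, cyclotomic_three] at h
    simp only [map_add, map_pow, expand_X, map_one] at h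
    refine mul_right_cancel₀ (b := (X ^ 2 + X + 1 : ℤ[X])) ?_ ?_
    · rw [← cyclotomic_three]; exact cyclotomic_ne_zero 3 ℤ
    · rw [← h]; ring
  have h := cyclotomic_expand_eq_cyclotomic (p := 2) (n := 6) Nat.prime_two (by norm_num) ℤ
  rw [show 6 * 2 = 12 from rfl, h6] at h
  simp only [map_add, map_sub, map_pow, expand_X, map_one] at h
  rw [← h]; ring

theorem pairMod_aeval {r : ℕ} [Fact r.Prime] {M : Matrix (Fin l) (Fin l) ℤ} {ζ : ZMod r}
    {v : Fin l → ZMod r} (hv : v ∈ eigMod M ζ) (p : ℤ[X]) (c : Fin l → ℤ) :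
    pairMod v (aeval M p *ᵥ c) = p.eval₂ (Int.castRingHom (ZMod r)) ζ * pairMod v c := by
  induction p using Polynomial.induction_on generalizing c with
  | C a =>
    rw [aeval_C, Algebra.algebraMap_eq_smul_one, Matrix.smul_mulVec, Matrix.one_mulVec, pairMod_smul,
      eval₂_C]
    rfl
  | add a b ha hb => rw [map_add, Matrix.add_mulVec, pairMod_add, ha, hb, eval₂_add, add_mul]
  | monomial n a ih =>
    rw [show (C a * X ^ (n + 1) : ℤ[X]) = (C a * X ^ n) * X by rw [pow_succ, mul_assoc], map_mul, aeval_X,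
      ← Matrix.mulVec_mulVec, ih, (mem_eigMod_iff_pairMod _ _ _).1 hv c, eval₂_mul_X, mul_assoc]

theorem pairMod_ne {r : ℕ} {v : Fin l → ZMod r} (hv : v ≠ 0) : ∃ c, pairMod v c ≠ 0 := by
  obtain ⟨k, hk⟩ := Function.ne_iff.1 hv
  exact ⟨Pi.single k 1, by rwa [pairMod_single]⟩

theorem eval_cyclotomic_eq_zero {r d : ℕ} [Fact r.Prime] (hd : 0 < d) {ζ : ZMod r} (hζ : orderOf ζ = d) :
    (cyclotomic d ℤ).eval₂ (Int.castRingHom (ZMod r)) ζ = 0 := by
  rw [eval₂_eq_eval_map, map_cyclotomic]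
  exact (hζ ▸ IsPrimitiveRoot.orderOf ζ).isRoot_cyclotomic hd

theorem eq_zero_of_quad_zero {A B : Matrix (Fin l) (Fin l) ℤ} {c : ℤ} (hA : CartanFacts A B c)
    (hdet : A.det ≠ 0) {x : Fin l → ℤ} (hx : x ⬝ᵥ A *ᵥ x = 0) : x = 0 := by
  refine Matrix.eq_zero_of_mulVec_eq_zero hdet (funext fun j => ?_)
  have hsym : ∀ y : Fin l → ℤ, y ⬝ᵥ A *ᵥ x = x ⬝ᵥ A *ᵥ y := fun y => by
    rw [dotProduct_comm, ← Matrix.vecMul_transpose, ← Matrix.dotProduct_mulVec, hA.symA]
  have key : ∀ (k : ℤ) (y : Fin l → ℤ), 0 ≤ 2 * k * (x ⬝ᵥ A *ᵥ y) + y ⬝ᵥ A *ᵥ y := fun k y => by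
    obtain ⟨s, hs, e⟩ := hA.quad (k • x + y)
    simp only [Matrix.mulVec_add, Matrix.mulVec_smul, dotProduct_add, add_dotProduct, smul_dotProduct,
      dotProduct_smul, hx, smul_eq_mul, hsym y] at e
    linarith
  have h0 : x ⬝ᵥ A *ᵥ (Pi.single j 1) = 0 := by
    set y : Fin l → ℤ := Pi.single j 1
    set b := x ⬝ᵥ A *ᵥ y
    have h1 := key (-(b * (y ⬝ᵥ A *ᵥ y + 1))) y
    by_contra hb
    have hb2 : 1 ≤ b * b := by
      rcases lt_or_gt_of_ne hb with h | h <;> nlinarith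
    obtain ⟨s, hs, e⟩ := hA.quad y
    nlinarith
  rw [← hsym, single_dotProduct, one_mul] at h0
  exact h0

/-- No isometry congruent to one fixes, up to sign, the orthogonal complement of its twelfth-root part, if
short weights span. -/
theorem fixed_false_of_aeval {r : ℕ} [Fact r.Prime] {M A B N₀ Y : Matrix (Fin l) (Fin l) ℤ} {c : ℤ}
    (hA : CartanFacts A B c) (hc : 0 < c) (hdet : A.det ≠ 0) (hMA : M = 1 + A * N₀)
    (hMB : Mᵀ * B * M = B) (hY : Y.det ≠ 0) (hsmall : ∀ k, (fun i => Y i k) ⬝ᵥ B *ᵥ (fun i => Y i k) < 2 * c)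
    (h0 : aeval M (cyclotomic 12 ℤ * (X ^ 2 - 1)) = 0) {ζ : ZMod r} (hζ : orderOf ζ = 12)
    {v : Fin l → ZMod r} (hv : v ∈ eigMod M ζ) (hv0 : v ≠ 0) : False := by
  rw [cyclotomic_twelve] at h0
  have hrel : ∀ p p' k : ℤ[X], p = p' + (X ^ 4 - X ^ 2 + 1) * (X ^ 2 - 1) * k → aeval M p = aeval M p' :=
    fun p p' k e => by rw [e, map_add, map_mul, h0, zero_mul, add_zero]
  set P := aeval M (X ^ 4 - X ^ 2 + 1 : ℤ[X]) with hP
  have hPP : P * P = P := by
    rw [hP, ← map_mul]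
    exact hrel _ _ (X ^ 2) (by ring)
  have h12 : M ^ 12 = 1 := by
    have := hrel (X ^ 12) 1 ((X ^ 2 + 1) * (X ^ 4 + X ^ 2 + 1)) (by ring)
    simpa using this
  have hadj : ∀ k : ℕ, (Mᵀ) ^ k * B = B * M ^ (11 * k) := by
    intro k
    induction k with
    | zero => simp
    | succ k ih =>
      have e1 : Mᵀ * B = B * M ^ 11 := by
        calc Mᵀ * B = Mᵀ * B * M ^ 12 := by rw [h12, mul_one]
          _ = Mᵀ * B * M * M ^ 11 := by rw [pow_succ' M 11]; simp only [mul_assoc]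
          _ = B * M ^ 11 := by rw [hMB]
      rw [pow_succ, mul_assoc, e1, ← mul_assoc, ih, mul_assoc, ← pow_add, mul_add, mul_one]
  have hPB : Pᵀ * B = B * P := by
    have e : Pᵀ = (Mᵀ) ^ 4 - (Mᵀ) ^ 2 + 1 := by simp [hP, Matrix.transpose_pow]
    have h44 : M ^ 44 - M ^ 22 + 1 = P := by
      have h1 : M ^ 44 = M ^ 8 := by rw [show 44 = 12 * 3 + 8 from rfl, pow_add, pow_mul, h12, one_pow, one_mul]
      have h2 : M ^ 22 = M ^ 10 := by rw [show 22 = 12 + 10 from rfl, pow_add, h12, one_mul]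
      have h3 := hrel (X ^ 8 - X ^ 10 + 1) (X ^ 4 - X ^ 2 + 1) (-(X ^ 2 * (X ^ 2 + 1))) (by ring)
      rw [h1, h2, hP, ← h3]
      simp
    rw [e, add_mul, sub_mul, hadj, hadj, one_mul, ← h44, mul_add, mul_sub, mul_one]
  obtain ⟨N₁, hN₁⟩ := exists_aeval_eq hMA (1 - (X ^ 4 - X ^ 2 + 1) : ℤ[X])
  rw [map_sub, map_one, ← hP] at hN₁
  simp only [eval_sub, eval_add, eval_pow, eval_X, eval_one, one_pow, sub_self, zero_add, zero_smul] at hN₁
  have hQY : (1 - P) * Y = 0 := by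
    ext i k
    set y : Fin l → ℤ := fun i => Y i k with hy
    have hpsd : ∀ z : Fin l → ℤ, 0 ≤ z ⬝ᵥ B *ᵥ z := fun z => by
      obtain ⟨s, hs, e⟩ := hA.quad (B *ᵥ z)
      rw [Matrix.mulVec_mulVec, hA.mulAB, Matrix.smul_mulVec, Matrix.one_mulVec, dotProduct_smul,
        dotProduct_comm, smul_eq_mul] at e
      exact nonneg_of_mul_nonneg_right (e ▸ mul_nonneg two_pos.le hs) hc
    have hform : ∀ R : Matrix (Fin l) (Fin l) ℤ, Rᵀ * B * R = B * R →
        (R *ᵥ y) ⬝ᵥ B *ᵥ (R *ᵥ y) = y ⬝ᵥ (B * R) *ᵥ y := fun R hR => by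
      conv_rhs => rw [← hR, mul_assoc, ← Matrix.mulVec_mulVec, Matrix.dotProduct_mulVec, Matrix.vecMul_transpose]
      rw [Matrix.mulVec_mulVec]
    have e1 := hform P (by rw [hPB, mul_assoc, hPP])
    have e2 := hform (1 - P) (by
      rw [Matrix.transpose_sub, Matrix.transpose_one, sub_mul, one_mul, hPB, mul_sub, mul_one, sub_mul, mul_assoc,
        hPP, sub_self, sub_zero, mul_sub, mul_one])
    have hsum : y ⬝ᵥ (B * P) *ᵥ y + y ⬝ᵥ (B * (1 - P)) *ᵥ y = y ⬝ᵥ B *ᵥ y := by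
      rw [← dotProduct_add, ← Matrix.add_mulVec, ← mul_add, add_sub_cancel, mul_one]
    obtain ⟨s, hs, es⟩ := hA.quad (N₁ *ᵥ y)
    have hQ : (1 - P) *ᵥ y = A *ᵥ (N₁ *ᵥ y) := by rw [hN₁, Matrix.mulVec_mulVec]
    have hnorm : ((1 - P) *ᵥ y) ⬝ᵥ B *ᵥ ((1 - P) *ᵥ y) = c * (2 * s) := by
      rw [hQ, Matrix.mulVec_mulVec _ B A, hA.mulBA, Matrix.smul_mulVec, Matrix.one_mulVec, dotProduct_smul,
        dotProduct_comm, es, smul_eq_mul]
    have hlt := hsmall k
    have := hpsd (P *ᵥ y)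
    have hs0 : s = 0 := by
      rcases hs.lt_or_eq with h | h
      · exfalso
        have h1 : c * 2 ≤ c * (2 * s) := mul_le_mul_of_nonneg_left (by omega) hc.le
        linarith
      · exact h.symm
    have hz := eq_zero_of_quad_zero hA hdet (x := N₁ *ᵥ y) (by rw [es, hs0, mul_zero])
    rw [Matrix.zero_apply]
    have h2 := congrFun hQ i
    rw [hz, Matrix.mulVec_zero] at h2
    simpa [Matrix.mul_apply, Matrix.mulVec, dotProduct, hy] using h2
  have hP1 : P = 1 := by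
    have h := congrArg (· * Y.adjugate) hQY
    simp only [mul_assoc, Matrix.mul_adjugate, mul_smul_comm, mul_one, zero_mul] at h
    exact (sub_eq_zero.1 ((smul_eq_zero.1 h).resolve_left hY)).symm
  obtain ⟨c', hc'⟩ := pairMod_ne hv0
  have h := pairMod_aeval hv (X ^ 4 - X ^ 2 + 1) c'
  rw [← hP, hP1, Matrix.one_mulVec, ← cyclotomic_twelve, eval_cyclotomic_eq_zero (by norm_num) hζ,
    zero_mul] at h
  exact hc' h

theorem fixed_false {r : ℕ} [Fact r.Prime] {M A B N₀ Y : Matrix (Fin l) (Fin l) ℤ} {c : ℤ}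
    (hA : CartanFacts A B c) (hc : 0 < c) (hdet : A.det ≠ 0) (hMA : M = 1 + A * N₀)
    (hMB : Mᵀ * B * M = B) (hY : Y.det ≠ 0) (hsmall : ∀ k, (fun i => Y i k) ⬝ᵥ B *ᵥ (fun i => Y i k) < 2 * c)
    {N : ℕ} (hN : N ≠ 0) (hM : M ^ N = 1) {n : ℕ}
    (hchar : M.charpoly ∣ (cyclotomic 12 ℤ * (X ^ 2 - 1)) ^ n) {ζ : ZMod r} (hζ : orderOf ζ = 12)
    {v : Fin l → ZMod r} (hv : v ∈ eigMod M ζ) (hv0 : v ≠ 0) : False :=
  fixed_false_of_aeval hA hc hdet hMA hMB hY hsmall
    (aeval_eq_zero_of_dvd_pow hN hM M.aeval_self_charpoly hchar) hζ hv hv0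

/-- The characteristic polynomial of the element. -/
theorem e6_charpoly {r N : ℕ} [Fact r.Prime] {M N₀ : Matrix (Fin 6) (Fin 6) ℤ} (hM : M ^ N = 1)
    (hrN : ¬ r ∣ N) (hMA : M = 1 + cartE6 * N₀) (hMB : Mᵀ * invE6 * M = invE6) {ζ : ZMod r}
    (hζ : orderOf ζ = 12) {v : Fin 6 → ZMod r} (hv : v ∈ eigMod M ζ) (hv0 : v ≠ 0) :
    M.charpoly = cyclotomic 12 ℤ * cyclotomic 3 ℤ := by
  have hN : N ≠ 0 := fun h => hrN (h ▸ dvd_zero r)
  obtain ⟨g, hg⟩ : cyclotomic 12 ℤ ∣ M.charpoly := by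
    refine (dvd_pow_self _ ?_).trans (cyclotomic_pow_dvd_charpoly hM hrN (by norm_num) hζ)
    exact fun h => hv0 ((Submodule.mem_bot _).1 (Submodule.finrank_eq_zero.1 h ▸ hv))
  have hgm : g.Monic := (cyclotomic.monic 12 ℤ).of_mul_monic_left (hg ▸ M.charpoly_monic)
  have hgd : g.natDegree = 2 := by
    have h := congrArg natDegree hg
    rw [M.charpoly_natDegree_eq_dim, Fintype.card_fin, (cyclotomic.monic 12 ℤ).natDegree_mul hgm,
      natDegree_cyclotomic, show Nat.totient 12 = 4 by decide +kernel] at h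
    omega
  set a := g.coeff 1
  set b := g.coeff 0
  have hge : g = X ^ 2 + C a * X + C b := by
    conv_lhs => rw [hgm.as_sum]
    rw [hgd]
    simp [Finset.sum_range_succ, a, b]
    ring
  have hroot : ∀ z : ℂ, z ^ 2 + (a : ℂ) * z + (b : ℂ) = 0 → ‖z‖ = 1 := fun z hz => by
    refine Complex.norm_eq_one_of_pow_eq_one ?_ hN
    have h1 : g.eval₂ (Int.castRingHom ℂ) z = 0 := by
      rw [hge, eval₂_add, eval₂_add, eval₂_mul, eval₂_pow, eval₂_X, eval₂_C, eval₂_C]
      exact hz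
    have h2 := eval₂_eq_zero_of_dvd_of_eval₂_eq_zero (Int.castRingHom ℂ) z
      ((dvd_of_mul_left_eq _ hg.symm).trans (charpoly_dvd_pow M hM)) h1
    rw [eval₂_pow, eval₂_sub, eval₂_pow, eval₂_X, eval₂_one] at h2
    exact sub_eq_zero.1 (eq_zero_of_pow_eq_zero h2)
  obtain ⟨z, hz⟩ : ∃ z : ℂ, z ^ 2 + (a : ℂ) * z + (b : ℂ) = 0 := by
    obtain ⟨z, hz⟩ := IsAlgClosed.exists_root (g.map (Int.castRingHom ℂ)) (by
      rw [degree_map_eq_of_injective Int.cast_injective, degree_eq_natDegree hgm.ne_zero, hgd]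
      norm_num)
    exact ⟨z, by simpa [hge, IsRoot] using hz⟩
  have hz' := hroot (-(a : ℂ) - z) (by linear_combination hz)
  have hz1 := hroot z hz
  have hab : |b| = 1 := by
    have h : ‖((b : ℤ) : ℂ)‖ = 1 := by
      rw [show ((b : ℤ) : ℂ) = z * (-(a : ℂ) - z) by linear_combination hz, norm_mul, hz1, hz', one_mul]
    rw [Complex.norm_intCast] at h
    exact_mod_cast h
  have haa : |a| ≤ 2 := by
    have h : ‖((a : ℤ) : ℂ)‖ ≤ 2 := by
      rw [show ((a : ℤ) : ℂ) = -z + -(-(a : ℂ) - z) by ring]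
      refine (norm_add_le _ _).trans ?_
      rw [norm_neg, norm_neg, hz1, hz']
      norm_num
    rw [Complex.norm_intCast] at h
    exact_mod_cast h
  have h3 : (3 : ℤ) ∣ 1 + a + b := by
    refine ⟨(-N₀).det, ?_⟩
    rw [← detE6, ← Matrix.det_mul, mul_neg, show -(cartE6 * N₀) = 1 - M by rw [hMA]; abel]
    have e := M.eval_charpoly 1
    rw [map_one] at e
    rw [← e, hg, eval_mul, hge, cyclotomic_twelve]
    simp
  rw [abs_le] at haa
  have hb : b = 1 ∨ b = -1 := (abs_eq (by norm_num)).1 hab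
  have hcases : (a = 1 ∧ b = 1) ∨ (a = -2 ∧ b = 1) ∨ (a = 0 ∧ b = -1) := by omega
  have hkill : ∀ k : ℤ[X], (X ^ 2 - 1) ^ 2 = g * k → False := fun k hk => by
    refine fixed_false (M := M) (Y := !![1, -1, 0, 0, 0, 0; 0, 0, 0, 1, -1, 1; 0, 1, -1, 0, 0, 0;
      0, 0, 1, -1, 0, 0; 0, 0, 0, 1, 1, -1; 0, 0, 0, 0, 0, 1]) (n := 2) factsE6 (by norm_num)
      (by rw [detE6]; norm_num) hMA hMB ?_ (by decide +kernel) hN hM ?_ hζ hv hv0
    · exact det_ne_zero_of_mul (c := 2) (by norm_num) (B := !![2, 1, 2, 2, 1, 0; 0, 1, 2, 2, 1, 0; 0, 1, 0, 2, 1, 0;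
        0, 1, 0, 0, 1, 0; 0, -1, 0, 0, 1, 2; 0, 0, 0, 0, 0, 2]) (by decide +kernel)
    · rw [hg, mul_pow, hk]
      exact mul_dvd_mul (dvd_pow_self _ (by norm_num)) (dvd_mul_right _ _)
  rcases hcases with ⟨ha, hb⟩ | ⟨ha, hb⟩ | ⟨ha, hb⟩
  · rw [hg, hge, ha, hb, cyclotomic_three]
    simp
  · refine (hkill ((X + 1) ^ 2) ?_).elim
    rw [hge, ha, hb]
    simp only [map_neg, map_ofNat, map_one]
    ring
  · refine (hkill (X ^ 2 - 1) ?_).elim
    rw [hge, ha, hb]
    simp only [map_neg, map_zero, map_one]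
    ring

variable {D : ChevalleyDatum} {len : ℕ → ℕ}

/-- No root annihilates the eigenvector, the characteristic polynomial being determined. -/
theorem pairMod_col_ne_zero_of_charpoly (hR : RootTable D len) {r : ℕ} [Fact r.Prime] {ζ : ZMod r} {P : ℤ[X]}
    (hchar : ∀ (w : List (Fin D.rank)) (v : Fin D.rank → ZMod r), v ∈ eigMod (wMat (cartanMat D) w) ζ → v ≠ 0 →
      (wMat (cartanMat D) w).charpoly = P)
    {w : List (Fin D.rank)} {v : Fin D.rank → ZMod r} (hv : v ∈ eigMod (wMat (cartanMat D) w) ζ) (hv0 : v ≠ 0)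
    {s : ℕ} (hs : s < D.nroots) : pairMod v (col D s) ≠ 0 := by
  intro h0
  obtain ⟨u, k, rfl⟩ := hR.exists_act_simple hs
  set A := cartanMat D
  set W := wMat A u
  set R := W * (reflMat A k * wMat A u.reverse) with hR'
  have hRc : ∀ c, pairMod v (R *ᵥ c) = pairMod v c := by
    intro c
    set z := wMat A u.reverse *ᵥ c
    have e1 : R *ᵥ c = W *ᵥ z - z k • col D (act D u (D.simple k)) := by
      rw [hR', ← Matrix.mulVec_mulVec, ← Matrix.mulVec_mulVec, reflMat, Matrix.sub_mulVec, Matrix.one_mulVec,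
        Matrix.mulVec_sub, col_act hR u (hR.simple_lt k k.2), ← Matrix.mulVec_smul]
      congr 2
      funext j
      simp [A, col, cartanMat, Matrix.mulVec, dotProduct, Matrix.mul_apply, Matrix.single_apply, ite_and,
        mul_comm, z]
    have e2 : W *ᵥ z = c := by
      rw [Matrix.mulVec_mulVec, wMat_mul_reverse A (cartanMat_self hR), Matrix.one_mulVec]
    rw [e1, e2, pairMod_sub, pairMod_smul, h0, mul_zero, sub_zero]
  let u' := u ++ k :: u.reverse
  have hu' : wMat A u' = R := by rw [hR', wMat_append, wMat_cons]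
  have hv' : v ∈ eigMod (wMat A (u' ++ w)) ζ := by
    rw [mem_eigMod_iff_pairMod]
    intro c
    rw [wMat_append, hu', ← Matrix.mulVec_mulVec, hRc, (mem_eigMod_iff_pairMod _ _ _).1 hv]
  have h3 : (wMat A (u' ++ w)).det = (wMat A w).det := by
    rw [Matrix.det_eq_sign_charpoly_coeff, Matrix.det_eq_sign_charpoly_coeff, hchar w v hv hv0,
      hchar (u' ++ w) v hv' hv0]
  have h4 : R.det = -1 := by
    have h := congrArg Matrix.det (wMat_mul_reverse A (cartanMat_self hR) u)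
    rw [Matrix.det_mul, Matrix.det_one] at h
    rw [hR', Matrix.det_mul, Matrix.det_mul, det_reflMat A (cartanMat_self hR k)]
    linear_combination -h
  rw [wMat_append, Matrix.det_mul, hu', h4] at h3
  have h5 : (wMat A w).det = 0 := by linarith
  have h6 := congrArg Matrix.det (wMat_mul_reverse A (cartanMat_self hR) w)
  rw [Matrix.det_mul, h5, zero_mul, Matrix.det_one] at h6
  exact zero_ne_one h6

theorem eq_zero_of_aeval_mulVec {Mq : Matrix (Fin l) (Fin l) ℚ} {f p : ℚ[X]} {x : Fin l → ℚ}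
    (hf : Irreducible f) (hdeg : p.degree < f.degree) (hfx : aeval Mq f *ᵥ x = 0)
    (hpx : aeval Mq p *ᵥ x = 0) (hx : x ≠ 0) : p = 0 := by
  by_contra hp
  obtain ⟨a, b, hab⟩ := hf.coprime_iff_not_dvd.2 fun h => absurd (degree_le_of_dvd h hp) (not_le.2 hdeg)
  have h := congrArg (fun q : ℚ[X] => aeval Mq q *ᵥ x) hab
  simp only [map_add, map_mul, map_one, Matrix.add_mulVec, ← Matrix.mulVec_mulVec, hfx, hpx,
    Matrix.mulVec_zero, add_zero, Matrix.one_mulVec] at h
  exact hx h.symm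

/-- A commuting projection does not split a component of multiplicity one. -/
theorem split_false {Mq P : Matrix (Fin l) (Fin l) ℚ} {n : ℚ} (hn : n ≠ 0) {f h : ℚ[X]}
    (hfi : Irreducible f) (hhi : Irreducible h) (hcop : IsCoprime f h) (hdim : l < 2 * f.natDegree + h.natDegree)
    (hz : aeval Mq (f * h) = 0) (hcomm : P * Mq = Mq * P) (hPP : P * P = n • P)
    (h1 : P * aeval Mq h ≠ 0) (h2 : (n • 1 - P) * aeval Mq h ≠ 0) (h3 : aeval Mq f ≠ 0) : False := by
  have hexv : ∀ {T : Matrix (Fin l) (Fin l) ℚ}, T ≠ 0 → ∃ u, T *ᵥ u ≠ 0 := fun {T} hT => by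
    by_contra hall
    push Not at hall
    refine hT (Matrix.ext fun i k => ?_)
    simpa using congrFun (hall (Pi.single k 1)) i
  obtain ⟨u₁, hu₁⟩ := hexv h1
  obtain ⟨u₂, hu₂⟩ := hexv h2
  obtain ⟨u₃, hu₃⟩ := hexv h3
  set x := (P * aeval Mq h) *ᵥ u₁ with hx
  set y := ((n • 1 - P) * aeval Mq h) *ᵥ u₂ with hy
  set z := aeval Mq f *ᵥ u₃ with hz'
  have hc : ∀ p : ℚ[X], P * aeval Mq p = aeval Mq p * P := fun p =>
    ((Algebra.commute_of_mem_adjoin_singleton_of_commute (aeval_mem_adjoin_singleton ℚ Mq) hcomm).eq :)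
  have hc2 : ∀ p : ℚ[X], (n • 1 - P) * aeval Mq p = aeval Mq p * (n • 1 - P) := fun p => by
    rw [sub_mul, mul_sub, hc, smul_mul_assoc, one_mul, mul_smul_comm, mul_one]
  have hfh : aeval Mq f * aeval Mq h = 0 := by rw [← map_mul, hz]
  have hhf : aeval Mq h * aeval Mq f = 0 := by rw [← map_mul, mul_comm, hz]
  have hfx : aeval Mq f *ᵥ x = 0 := by
    rw [hx, Matrix.mulVec_mulVec, ← mul_assoc, ← hc, mul_assoc, hfh, mul_zero, Matrix.zero_mulVec]
  have hfy : aeval Mq f *ᵥ y = 0 := by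
    rw [hy, Matrix.mulVec_mulVec, ← mul_assoc, ← hc2, mul_assoc, hfh, mul_zero, Matrix.zero_mulVec]
  have hhz : aeval Mq h *ᵥ z = 0 := by rw [hz', Matrix.mulVec_mulVec, hhf, Matrix.zero_mulVec]
  have hPx : P *ᵥ x = n • x := by
    rw [hx, Matrix.mulVec_mulVec, ← mul_assoc, hPP, smul_mul_assoc, Matrix.smul_mulVec]
  have hPy : P *ᵥ y = 0 := by
    rw [hy, Matrix.mulVec_mulVec, ← mul_assoc, mul_sub, hPP, mul_smul_comm, mul_one, sub_self, zero_mul,
      Matrix.zero_mulVec]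
  let a := f.natDegree
  let b := h.natDegree
  let ev : (Fin l → ℚ) → ℚ[X] →ₗ[ℚ] (Fin l → ℚ) := fun v =>
    { toFun := fun p => aeval Mq p *ᵥ v
      map_add' := fun p q => by rw [map_add, Matrix.add_mulVec]
      map_smul' := fun c p => by rw [map_smul, Matrix.smul_mulVec, RingHom.id_apply] }
  let Λ : (degreeLT ℚ a × degreeLT ℚ a) × degreeLT ℚ b →ₗ[ℚ] (Fin l → ℚ) :=
    (((ev x).comp (degreeLT ℚ a).subtype).coprod ((ev y).comp (degreeLT ℚ a).subtype)).coprod
      ((ev z).comp (degreeLT ℚ b).subtype)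
  have hΛ : Function.Injective Λ := by
    rw [← LinearMap.ker_eq_bot, LinearMap.ker_eq_bot']
    rintro ⟨⟨⟨p₁, hp₁⟩, ⟨p₂, hp₂⟩⟩, ⟨p₃, hp₃⟩⟩ h0
    replace h0 : aeval Mq p₁ *ᵥ x + aeval Mq p₂ *ᵥ y + aeval Mq p₃ *ᵥ z = 0 := h0
    have hd₁ : p₁.degree < f.degree := by
      rw [degree_eq_natDegree hfi.ne_zero]; exact mem_degreeLT.1 hp₁
    have hd₂ : p₂.degree < f.degree := by
      rw [degree_eq_natDegree hfi.ne_zero]; exact mem_degreeLT.1 hp₂
    have hd₃ : p₃.degree < h.degree := by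
      rw [degree_eq_natDegree hhi.ne_zero]; exact mem_degreeLT.1 hp₃
    have e3 : aeval Mq p₃ *ᵥ z = 0 := by
      have hswap : ∀ p q : ℚ[X], ∀ v, aeval Mq p *ᵥ (aeval Mq q *ᵥ v) = aeval Mq q *ᵥ (aeval Mq p *ᵥ v) :=
        fun p q v => by rw [Matrix.mulVec_mulVec, Matrix.mulVec_mulVec, ← map_mul, ← map_mul, mul_comm]
      have e := congrArg (aeval Mq f *ᵥ ·) h0
      simp only [Matrix.mulVec_add, Matrix.mulVec_zero, hswap f, hfx, hfy, add_zero, zero_add] at e
      obtain ⟨c₁, c₂, hc12⟩ := hcop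
      have e' := congrArg (fun q : ℚ[X] => aeval Mq q *ᵥ (aeval Mq p₃ *ᵥ z)) hc12
      simp only [map_add, map_mul, map_one, Matrix.add_mulVec, ← Matrix.mulVec_mulVec, Matrix.one_mulVec,
        hswap f p₃, hswap h p₃, hhz, Matrix.mulVec_zero, e, add_zero] at e'
      exact e'.symm
    rw [e3, add_zero] at h0
    have e := congrArg (P *ᵥ ·) h0
    simp only [Matrix.mulVec_add, Matrix.mulVec_mulVec, Matrix.mulVec_zero, hc] at e
    simp only [← Matrix.mulVec_mulVec, hPx, hPy, Matrix.mulVec_zero, add_zero, Matrix.mulVec_smul,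
      smul_eq_zero, hn, false_or] at e
    rw [e, zero_add] at h0
    have := eq_zero_of_aeval_mulVec hfi hd₁ hfx e hu₁
    have := eq_zero_of_aeval_mulVec hfi hd₂ hfy h0 hu₂
    have := eq_zero_of_aeval_mulVec hhi hd₃ hhz e3 hu₃
    subst p₁ p₂ p₃
    rfl
  have hle := LinearMap.finrank_le_finrank_of_injective hΛ
  rw [Module.finrank_prod, Module.finrank_prod, (degreeLTEquiv ℚ a).finrank_eq, (degreeLTEquiv ℚ b).finrank_eq, Module.finrank_fin_fun, Module.finrank_fin_fun,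
    Module.finrank_fin_fun] at hle
  omega

/-- Only the identity fixes the eigenvector. -/
theorem wMat_eq_one_of_fix_e6 (hR : RootTable D len) (h6 : D.rank = 6) {r N : ℕ} [Fact r.Prime]
    (hW : WeylOrder D N) (hdet : ((cartanMat D).det).natAbs ≠ 1) (hdet0 : (cartanMat D).det ≠ 0) (hrN : ¬ r ∣ N)
    {ζ : ZMod r} (hζ : orderOf ζ = 12)
    (hchar : ∀ (w : List (Fin D.rank)) (v : Fin D.rank → ZMod r), v ∈ eigMod (wMat (cartanMat D) w) ζ → v ≠ 0 →
      (wMat (cartanMat D) w).charpoly = cyclotomic 12 ℤ * cyclotomic 3 ℤ)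
    {w : List (Fin D.rank)} {v : Fin D.rank → ZMod r} (hv : v ∈ eigMod (wMat (cartanMat D) w) ζ) (hv0 : v ≠ 0)
    {w' : List (Fin D.rank)} (hfix : v ∈ eigMod (wMat (cartanMat D) w') 1) : wMat (cartanMat D) w' = 1 := by
  classical
  obtain ⟨Mc, hcard, hC⟩ := hW
  haveI : Finite Mc.Group := Nat.finite_of_card_ne_zero fun h => hrN (by rw [← hcard, h]; exact dvd_zero r)
  obtain ⟨ρ, hρ⟩ := exists_rep hR hdet0 hC
  let St : Subgroup Mc.Group :=
    { carrier := {g | ∀ c, pairMod v (ρ g *ᵥ c) = pairMod v c}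
      one_mem' := fun c => by simp
      mul_mem' := fun {a b} ha hb c => by rw [map_mul, ← Matrix.mulVec_mulVec, ha, hb]
      inv_mem' := fun {a} ha c => by
        conv_rhs => rw [show c = ρ a *ᵥ (ρ a⁻¹ *ᵥ c) by
          rw [Matrix.mulVec_mulVec, ← map_mul, mul_inv_cancel, map_one, Matrix.one_mulVec]]
        rw [ha] }
  haveI : Fintype St := Fintype.ofFinite _
  set u := Chev.cElem Mc w
  have hu : ∀ c, pairMod v (ρ u *ᵥ c) = ζ * pairMod v c := by
    intro c; rw [hρ]; exact (mem_eigMod_iff_pairMod _ _ _).1 hv c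
  let E := ∑ g : St, ρ g
  set n : ℕ := Fintype.card St with hn
  have hgE : ∀ g : St, ρ g * E = E := fun g => by
    rw [Finset.mul_sum]
    simp only [← map_mul]
    exact (Equiv.mulLeft g).bijective.sum_comp (fun g : St => ρ g)
  have hEE : E * E = (n : ℤ) • E := by
    conv_lhs => rw [Finset.sum_mul]
    rw [Finset.sum_congr rfl fun g _ => hgE g, Finset.sum_const, Finset.card_univ, natCast_zsmul]
  -- every element carrying the eigenvector to its multiple
  have key : ∀ g : Mc.Group, (∀ c, pairMod v (ρ g *ᵥ c) = ζ * pairMod v c) →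
      ρ g * E = E * ρ g ∧ ((n : ℤ) • 1 - E) * (ρ g * ρ g + ρ g + 1) = 0 := by
    intro g hg
    obtain ⟨wg, hwg⟩ : ∃ wg, Chev.cElem Mc wg = g := Mc.toCoxeterSystem.wordProd_surjective g
    have hwg' : ρ g = wMat (cartanMat D) wg := by rw [← hwg, hρ]
    have hveig : v ∈ eigMod (wMat (cartanMat D) wg) ζ := by
      rw [mem_eigMod_iff_pairMod, ← hwg']; exact hg
    have hnorm : ∀ x : Mc.Group, x ∈ St → g * x * g⁻¹ ∈ St := fun x hx c => by
      have h2 : c = ρ g *ᵥ (ρ g⁻¹ *ᵥ c) := by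
        rw [Matrix.mulVec_mulVec, ← map_mul, mul_inv_cancel, map_one, Matrix.one_mulVec]
      rw [map_mul, map_mul, ← Matrix.mulVec_mulVec, ← Matrix.mulVec_mulVec, hg, hx, ← hg, ← h2]
    let conjMap : St → St := fun x => ⟨g * x * g⁻¹, hnorm x x.2⟩
    have hbij : Function.Bijective conjMap := Finite.injective_iff_bijective.1 fun a b h =>
      Subtype.ext (by simpa [conjMap] using congrArg Subtype.val h)
    have hcomm : ρ g * E = E * ρ g := by
      calc ρ g * E = ∑ x : St, ρ (conjMap x) * ρ g := by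
            rw [Finset.mul_sum]
            exact Finset.sum_congr rfl fun x _ => by rw [← map_mul, ← map_mul]; simp [conjMap]
        _ = E * ρ g := by
            rw [Finset.sum_mul]
            exact hbij.sum_comp (fun x : St => ρ x * ρ g)
    refine ⟨hcomm, ?_⟩
    set M := ρ g with hMdef
    have hchar' : M.charpoly = cyclotomic 12 ℤ * cyclotomic 3 ℤ := by rw [hwg']; exact hchar wg v hveig hv0
    have hvM : v ∈ eigMod M ζ := by rw [hwg']; exact hveig
    let φ := Int.castRingHom ℚ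
    let toQ : Matrix (Fin D.rank) (Fin D.rank) ℤ →+* Matrix (Fin D.rank) (Fin D.rank) ℚ := φ.mapMatrix
    have hinj : Function.Injective toQ := Matrix.map_injective Int.cast_injective
    have hq : ∀ p : ℤ[X], aeval (toQ M) (p.map φ) = toQ (aeval M p) := fun p => by
      rw [show φ = algebraMap ℤ ℚ from rfl, aeval_map_algebraMap]
      exact aeval_algHom_apply toQ.toIntAlgHom M p
    have hM3 : aeval M (cyclotomic 3 ℤ) = M * M + M + 1 := by simp [cyclotomic_three, sq]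
    by_contra hne
    rw [← hM3] at hne
    obtain ⟨c, hc⟩ := pairMod_ne hv0
    have h3ne : (cyclotomic 3 ℤ).eval₂ (Int.castRingHom (ZMod r)) ζ ≠ 0 := fun h0 => by
      have h1 : ζ ^ 3 = 1 := by
        rw [cyclotomic_three] at h0
        simp at h0
        linear_combination (ζ - 1) * h0
      have h2 := Nat.le_of_dvd (by norm_num) (orderOf_dvd_of_pow_eq_one h1)
      omega
    refine split_false (Mq := toQ M) (P := toQ E) (n := (n : ℚ)) ?_ (f := cyclotomic 12 ℚ)
      (h := cyclotomic 3 ℚ) (cyclotomic.irreducible_rat (by norm_num)) (cyclotomic.irreducible_rat (by norm_num))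
      (cyclotomic.isCoprime_rat (by norm_num)) ?_ ?_ ?_ ?_ ?_ ?_ ?_
    · exact Nat.cast_ne_zero.2 Fintype.card_ne_zero
    · rw [natDegree_cyclotomic, natDegree_cyclotomic, h6]; decide +kernel
    · rw [← map_cyclotomic 12 φ, ← map_cyclotomic 3 φ, ← Polynomial.map_mul, hq, ← hchar',
        Matrix.aeval_self_charpoly, map_zero]
    · rw [← map_mul, ← map_mul, hcomm]
    · rw [← map_mul, hEE, map_zsmul, natCast_zsmul, Nat.cast_smul_eq_nsmul]
    · rw [← map_cyclotomic 3 φ, hq, ← map_mul, Ne, map_eq_zero_iff _ hinj]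
      intro h0
      have h1 : pairMod v ((E * aeval M (cyclotomic 3 ℤ)) *ᵥ c) =
          (n : ZMod r) * ((cyclotomic 3 ℤ).eval₂ (Int.castRingHom (ZMod r)) ζ * pairMod v c) := by
        rw [← Matrix.mulVec_mulVec, Matrix.sum_mulVec, pairMod_sum,
          Finset.sum_congr rfl fun g _ => g.2 _, Finset.sum_const, Finset.card_univ, nsmul_eq_mul,
          pairMod_aeval hvM]
      rw [h0, Matrix.zero_mulVec, show pairMod v 0 = (0 : ZMod r) by simp [pairMod]] at h1
      have h4 : (n : ZMod r) ≠ 0 := by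
        rw [Ne, ZMod.natCast_eq_zero_iff, hn, ← Nat.card_eq_fintype_card]
        exact fun h => hrN (hcard ▸ h.trans St.card_subgroup_dvd_card)
      exact mul_ne_zero h4 (mul_ne_zero h3ne hc) h1.symm
    · rw [← map_cyclotomic 3 φ, hq, show ((n : ℚ) • (1 : Matrix (Fin D.rank) (Fin D.rank) ℚ) - toQ E) =
        toQ ((n : ℤ) • 1 - E) by rw [map_sub, map_zsmul, map_one, Nat.cast_smul_eq_nsmul, natCast_zsmul],
        ← map_mul, Ne, map_eq_zero_iff _ hinj]
      exact hne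
    · rw [← map_cyclotomic 12 φ, hq, Ne, map_eq_zero_iff _ hinj]
      intro h0
      obtain ⟨N₀, hN₀⟩ := exists_wMat_eq (cartanMat D) wg
      refine false_of_aeval_eq_zero (hwg'.trans hN₀) h0 ?_
      rw [cyclotomic_twelve]
      simp only [eval_add, eval_sub, eval_pow, eval_X, eval_one, one_pow, sub_self, zero_add]
      exact fun h => hdet (Int.natAbs_of_isUnit (isUnit_of_dvd_one h))
  -- the sum over the stabiliser is a scalar
  set M := ρ u with hMdef
  set Mi := ρ u⁻¹ with hMidef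
  have hEM : M * E = E * M := (key u hu).1
  have hMiM : Mi * M = 1 := by rw [hMidef, hMdef, ← map_mul, inv_mul_cancel, map_one]
  have hMMi : M * Mi = 1 := by rw [hMidef, hMdef, ← map_mul, mul_inv_cancel, map_one]
  have hEMi : Mi * E = E * Mi := by
    calc Mi * E = Mi * E * (M * Mi) := by rw [hMMi, mul_one]
      _ = Mi * (M * E) * Mi := by rw [hEM]; simp only [mul_assoc]
      _ = E * Mi := by rw [← mul_assoc Mi M E, hMiM, one_mul]
  have hg : ∀ g : St, ((n : ℤ) • 1 - E) * (ρ g * M + 1 + Mi * ρ ↑g⁻¹) = 0 := fun g => by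
    have hgu : ∀ c, pairMod v (ρ (↑g * u) *ᵥ c) = ζ * pairMod v c := fun c => by
      rw [map_mul, ← Matrix.mulVec_mulVec, g.2, hu]
    have h := congrArg (· * ρ (↑g * u)⁻¹) (key _ hgu).2
    rw [zero_mul, mul_assoc, add_mul, add_mul, one_mul, mul_assoc] at h
    rw [show ρ (↑g * u) * ρ (↑g * u)⁻¹ = 1 by rw [← map_mul, mul_inv_cancel, map_one], mul_one] at h
    rw [_root_.mul_inv_rev, map_mul, map_mul, ← hMdef, ← hMidef] at h
    exact h
  have hsum := Finset.sum_congr (s₁ := (Finset.univ : Finset St)) rfl fun g _ => hg g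
  rw [← Finset.mul_sum, Finset.sum_const_zero] at hsum
  have hinvE : ∑ g : St, ρ ↑g⁻¹ = E := (Equiv.inv St).bijective.sum_comp (fun g : St => ρ g)
  rw [Finset.sum_add_distrib, Finset.sum_add_distrib, ← Finset.sum_mul, ← Finset.mul_sum, hinvE, Finset.sum_const,
    Finset.card_univ, mul_add, mul_add, hEMi, ← mul_assoc, ← mul_assoc] at hsum
  rw [show ((n : ℤ) • 1 - E) * E = 0 by rw [sub_mul, hEE, smul_mul_assoc, one_mul, sub_self], zero_mul,
    zero_mul, zero_add, add_zero, mul_smul_comm, mul_one, ← natCast_zsmul, smul_eq_zero] at hsum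
  have hEn : E = (n : ℤ) • 1 := (sub_eq_zero.1 (hsum.resolve_left (Nat.cast_ne_zero.2 Fintype.card_ne_zero))).symm
  have hmem : Chev.cElem Mc w' ∈ St := fun c => by
    rw [hρ, (mem_eigMod_iff_pairMod _ _ _).1 hfix, one_mul]
  have h := hgE ⟨_, hmem⟩
  rw [hEn, mul_smul_comm, mul_one, hρ] at h
  exact smul_right_injective _ (Nat.cast_ne_zero.2 (Fintype.card_ne_zero (α := St)) : (n : ℤ) ≠ 0) h

end Cfsg.Agent.LieTori
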