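import Cfsg.Agent.LieTori.KernelCyclic

/-!
The kernel of `q - M` modulo `q ^ d - 1` when the characteristic polynomial `P` of `M` divides `X ^ d - 1`
and no prime divisor of `d` divides `P(q)` twice: it is cyclic of order `P(q)` (owner: helper35).
-/

set_option autoImplicit false
set_option linter.style.haveILetI false

namespace Cfsg.Agent.LieTori

open Polynomial Matrix

variable {l : ℕ}

theorem finrank_ker_le_rootMultiplicity {q : ℕ} {M : Matrix (Fin l) (Fin l) ℤ} {s : ℕ} [Fact s.Prime] :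
    Module.finrank (ZMod s) (LinearMap.ker (Matrix.toLin'
      (((q : ℤ) • (1 : Matrix (Fin l) (Fin l) ℤ) - M).map (Int.castRingHom (ZMod s))))) ≤
      (M.charpoly.map (Int.castRingHom (ZMod s))).rootMultiplicity (q : ZMod s) := by
  let Mp : Matrix (Fin l) (Fin l) (ZMod s) := M.map (Int.castRingHom (ZMod s))
  have hle : LinearMap.ker (Matrix.toLin'
      (((q : ℤ) • (1 : Matrix (Fin l) (Fin l) ℤ) - M).map (Int.castRingHom (ZMod s)))) ≤
      Module.End.eigenspace (Matrix.toLin' Mp) (q : ZMod s) := by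
    intro x hx
    rw [Module.End.mem_eigenspace_iff, Matrix.toLin'_apply]
    rw [LinearMap.mem_ker, Matrix.toLin'_apply] at hx
    funext a
    have h := congrFun hx a
    simp only [Matrix.mulVec, dotProduct, Matrix.map_apply, Matrix.sub_apply, map_sub, sub_mul,
      Finset.sum_sub_distrib, Pi.zero_apply, sub_eq_zero] at h
    rw [Pi.smul_apply, smul_eq_mul]
    refine h.symm.trans ?_
    rw [Finset.sum_eq_single a (fun b _ hb => by simp [Matrix.one_apply_ne hb.symm]) (by simp)]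
    simp
  refine (Submodule.finrank_mono hle).trans ((LinearMap.finrank_eigenspace_le _ _).trans ?_)
  rw [Matrix.charpoly_toLin', Matrix.charpoly_map]

theorem finrank_ker_le_one_of_not_dvd {d q : ℕ} {P : ℤ[X]} (hPd : P ∣ X ^ d - 1) {M : Matrix (Fin l) (Fin l) ℤ}
    (hM : M.charpoly = P) {s : ℕ} [Fact s.Prime] (hsd : ¬ s ∣ d) :
    Module.finrank (ZMod s) (LinearMap.ker (Matrix.toLin'
      (((q : ℤ) • (1 : Matrix (Fin l) (Fin l) ℤ) - M).map (Int.castRingHom (ZMod s))))) ≤ 1 := by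
  haveI : NeZero (d : ZMod s) := ⟨fun h => hsd ((ZMod.natCast_eq_zero_iff d s).1 h)⟩
  refine finrank_ker_le_rootMultiplicity.trans ?_
  rw [hM]
  refine rootMultiplicity_le_one_of_separable
    (Polynomial.Separable.of_dvd (separable_X_pow_sub_C (1 : ZMod s) (n := d) (NeZero.ne _) one_ne_zero) ?_) _
  simpa using Polynomial.map_dvd (Int.castRingHom (ZMod s)) hPd

theorem finrank_ker_le_one_of_dvd {d q : ℕ} {P : ℤ[X]} (hPd : P ∣ X ^ d - 1)
    (hsq : ∀ s : ℕ, s.Prime → s ∣ d → ¬ (s : ℤ) ^ 2 ∣ P.eval (q : ℤ)) {M : Matrix (Fin l) (Fin l) ℤ}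
    (hM : M.charpoly = P) {s : ℕ} [Fact s.Prime] :
    Module.finrank (ZMod s) (LinearMap.ker (Matrix.toLin'
      (((q : ℤ) • (1 : Matrix (Fin l) (Fin l) ℤ) - M).map (Int.castRingHom (ZMod s))))) ≤ 1 := by
  by_contra hlt
  push Not at hlt
  have hdet : ((q : ℤ) • (1 : Matrix (Fin l) (Fin l) ℤ) - M).det = P.eval (q : ℤ) := by
    rw [← hM, Matrix.eval_charpoly, Matrix.scalar_apply, Matrix.smul_one_eq_diagonal]
  have h2 := sq_dvd_det_of_two_le_finrank_ker _ hlt
  by_cases hsd : s ∣ d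
  · rw [hdet] at h2
    exact hsq s Fact.out hsd h2
  · exact absurd (finrank_ker_le_one_of_not_dvd (q := q) hPd hM hsd) (not_le.2 hlt)

theorem kerMod_facts_of_finrank {d q : ℕ} (hd : 0 < d) (hq : 1 < q) {P : ℤ[X]} (hPd : P ∣ X ^ d - 1)
    {M : Matrix (Fin l) (Fin l) ℤ} (hM : M.charpoly = P)
    (hfin : ∀ (s : ℕ) [Fact s.Prime], Module.finrank (ZMod s) (LinearMap.ker (Matrix.toLin'
      (((q : ℤ) • (1 : Matrix (Fin l) (Fin l) ℤ) - M).map (Int.castRingHom (ZMod s))))) ≤ 1) :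
    IsCyclic (kerMod ((q : ℤ) • 1 - M) (q ^ d - 1)) ∧
      Nat.card (kerMod ((q : ℤ) • 1 - M) (q ^ d - 1)) = (P.eval (q : ℤ)).natAbs := by
  set m := q ^ d - 1
  have hm : m ≠ 0 := Nat.sub_ne_zero_of_lt (Nat.one_lt_pow (by omega) hq)
  haveI : NeZero m := ⟨hm⟩
  have hMd : M ^ d = 1 := by
    obtain ⟨p, hp⟩ := hPd
    have h := congrArg (aeval M) hp
    rw [map_mul, ← hM, Matrix.aeval_self_charpoly, zero_mul, map_sub, map_pow, aeval_X, map_one,
      sub_eq_zero] at h
    exact h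
  set S := ∑ i ∈ Finset.range d, ((q : ℤ) • (1 : Matrix (Fin l) (Fin l) ℤ)) ^ i * M ^ (d - 1 - i)
  have hcomm : Commute ((q : ℤ) • (1 : Matrix (Fin l) (Fin l) ℤ)) M := (Commute.one_left M).smul_left _
  have hpow : ((q : ℤ) • (1 : Matrix (Fin l) (Fin l) ℤ)) ^ d - M ^ d = (m : ℤ) • 1 := by
    rw [hMd, _root_.smul_pow, one_pow, Nat.cast_sub (Nat.one_le_pow _ _ (by omega)), Nat.cast_pow, Nat.cast_one,
      sub_smul, one_smul]
  have h1 : ((q : ℤ) • 1 - M) * S = (m : ℤ) • 1 := (hcomm.mul_geom_sum₂ d).trans hpow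
  have h2 : S * ((q : ℤ) • 1 - M) = (m : ℤ) • 1 := (hcomm.geom_sum₂_mul d).trans hpow
  refine ⟨isCyclic_of_prime_torsion fun s hs => ?_, ?_⟩
  · haveI := Fact.mk hs
    by_cases hsm : s ∣ m
    · obtain ⟨t, ht⟩ := hsm
      let V := LinearMap.ker (Matrix.toLin'
        (((q : ℤ) • (1 : Matrix (Fin l) (Fin l) ℤ) - M).map (Int.castRingHom (ZMod s))))
      have hex : ∀ z : ZMod m, (s : ZMod m) * z = 0 → ∃ u : ℕ, z = (t * u : ℕ) := fun z hz => by
        have : m ∣ s * z.val := by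
          rw [← ZMod.natCast_eq_zero_iff]
          push_cast
          rw [ZMod.natCast_zmod_val]
          exact hz
        replace this := (Nat.mul_dvd_mul_iff_left hs.pos).1 ((dvd_of_eq ht.symm).trans this)
        obtain ⟨u, hu⟩ := this
        exact ⟨u, by rw [← hu, ZMod.natCast_zmod_val]⟩
      choose u hu using hex
      have hs0 : ∀ (y : (powMonoidHom s : kerMod ((q : ℤ) • 1 - M) m →* _).ker) b,
          (s : ZMod m) * Multiplicative.toAdd (y.1.1 b) = 0 := fun y b => by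
        have h : (y.1.1 b) ^ s = 1 := congrFun (congrArg Subtype.val (MonoidHom.mem_ker.1 y.2)) b
        have h' := congrArg Multiplicative.toAdd h
        rwa [toAdd_pow, toAdd_one, nsmul_eq_mul] at h'
      have hmem : ∀ y : (powMonoidHom s : kerMod ((q : ℤ) • 1 - M) m →* _).ker,
          (fun b => (u _ (hs0 y b) : ZMod s)) ∈ V := fun y => by
        rw [LinearMap.mem_ker, Matrix.toLin'_apply]
        funext a
        have h := y.1.2 a
        rw [Finset.sum_congr rfl fun b _ => by rw [hu _ (hs0 y b)]] at h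
        have h2 : (m : ℤ) ∣ (t : ℤ) * ∑ b, ((q : ℤ) • (1 : Matrix (Fin l) (Fin l) ℤ) - M) a b * u _ (hs0 y b) := by
          rw [← ZMod.intCast_zmod_eq_zero_iff_dvd, ← h, Int.cast_mul, Int.cast_sum, Finset.mul_sum]
          refine Finset.sum_congr rfl fun b _ => ?_
          push_cast
          ring
        have hm2 : (m : ℤ) = (t : ℤ) * s := by rw [← Nat.cast_mul]; exact congrArg Nat.cast (ht.trans (mul_comm s t))
        replace h2 := (mul_dvd_mul_iff_left (show (t : ℤ) ≠ 0 by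
          intro h0; apply hm; rw [ht, Int.natCast_eq_zero.1 h0, mul_zero])).1 ((dvd_of_eq hm2.symm).trans h2)
        rw [← ZMod.intCast_zmod_eq_zero_iff_dvd] at h2
        simp only [Matrix.mulVec, dotProduct, Matrix.map_apply, Pi.zero_apply, eq_intCast]
        rw [← h2, Int.cast_sum]
        simp
      refine (Nat.card_le_card_of_injective (fun y => (⟨_, hmem y⟩ : V)) fun y y' e => ?_).trans ?_
      · refine Subtype.ext (Subtype.ext (funext fun b => Multiplicative.toAdd.injective ?_))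
        have e' : (u _ (hs0 y b) : ZMod s) = u _ (hs0 y' b) := congrFun (congrArg Subtype.val e) b
        rw [hu _ (hs0 y b), hu _ (hs0 y' b), ZMod.natCast_eq_natCast_iff]
        exact ((Nat.ModEq.mul_left' t ((ZMod.natCast_eq_natCast_iff _ _ _).1 e')).of_dvd
          (dvd_of_eq (ht.trans (mul_comm s t))))
      · rw [Module.natCard_eq_pow_finrank (K := ZMod s), Nat.card_zmod]
        exact (Nat.pow_le_pow_right hs.pos (hfin s)).trans_eq (pow_one s)
    · refine le_trans (le_of_eq ?_) hs.one_le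
      rw [Subgroup.card_eq_one, eq_bot_iff]
      intro y hy
      rw [Subgroup.mem_bot]
      refine Subtype.ext (funext fun b => ?_)
      have h : (y.1 b) ^ s = 1 := congrFun (congrArg Subtype.val (MonoidHom.mem_ker.1 hy)) b
      have h' := congrArg Multiplicative.toAdd h
      rw [toAdd_pow, toAdd_one, nsmul_eq_mul] at h'
      have hu : IsUnit (s : ZMod m) := (ZMod.isUnit_iff_coprime s m).2 ((hs.coprime_iff_not_dvd).2 hsm)
      exact Multiplicative.toAdd.injective (hu.mul_right_eq_zero.1 h')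
  · rw [card_kerMod hm h1 h2, ← hM, Matrix.eval_charpoly, Matrix.scalar_apply, Matrix.smul_one_eq_diagonal]

theorem kerMod_facts_of_dvd {d q : ℕ} (hd : 0 < d) (hq : 1 < q) {P : ℤ[X]} (hPd : P ∣ X ^ d - 1)
    (hsq : ∀ s : ℕ, s.Prime → s ∣ d → ¬ (s : ℤ) ^ 2 ∣ P.eval (q : ℤ)) {M : Matrix (Fin l) (Fin l) ℤ}
    (hM : M.charpoly = P) :
    IsCyclic (kerMod ((q : ℤ) • 1 - M) (q ^ d - 1)) ∧
      Nat.card (kerMod ((q : ℤ) • 1 - M) (q ^ d - 1)) = (P.eval (q : ℤ)).natAbs :=
  kerMod_facts_of_finrank hd hq hPd hM fun _ _ => finrank_ker_le_one_of_dvd hPd hsq hM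

end Cfsg.Agent.LieTori
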