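import Cfsg.Agent.LieTori.RegularTorusUniv
import Cfsg.Agent.LieTori.KernelDvd
import Cfsg.Agent.LieTori.E6Spec
import Cfsg.Agent.LieTori.SylowInst
import Cfsg.Agent.CentralExt.EmbedE6

/-! The cyclic self-centralising torus of order `Φ₁₂(q)Φ₃(q)/gcd(3, q - 1)` in `E6(q)` (owner: helper35). -/

set_option autoImplicit false
set_option linter.style.haveILetI false

namespace Cfsg.Agent.LieTori

open Cfsg.Lie Cfsg.Agent.ChevGrp Matrix Polynomial

theorem tau_injective_of_embed {D D' : ChevalleyDatum} {K : Type*} [Field K] [Finite K] (hS : Rules D K)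
    (hS' : Rules D' K) {ι : ℕ → ℕ} {σ : Fin D.rank → Fin D'.rank} (hE : CentralExt.Embed.EmbedOK D D' ι σ)
    (hM : ∃ M : Fin D'.rank → Fin D.rank → ℤ, ∀ i j : Fin D.rank,
      ∑ k : Fin D'.rank, D'.cartan (σ j) (D'.simple k) * M k i = if j = i then 1 else 0)
    {len : ℕ → ℕ} (hR : RootTable D len) :
    Function.Injective ((stSys hS).tau hS hR (stSys_HMul hS hR)) := by
  obtain ⟨e⟩ := CentralExt.Embed.center_equiv_rootKer hS hS' hE hM
  set T := (stSys hS).tau hS hR (stSys_HMul hS hR)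
  let φ : rootKer D K → Subgroup.center (D.SteinbergGroup K) := fun c =>
    ⟨T c, by rw [center_le_tau_rootKer hS hR]; exact ⟨c, c.2, rfl⟩⟩
  have hφ : Function.Surjective φ := fun z => by
    obtain ⟨c, hc, e⟩ := (center_le_tau_rootKer hS hR).le z.2
    exact ⟨⟨c, hc⟩, Subtype.ext e⟩
  have hb : Function.Bijective φ :=
    (Nat.bijective_iff_surjective_and_card φ).2 ⟨hφ, Nat.card_congr e.toEquiv⟩
  refine (injective_iff_map_eq_one _).2 fun c hc => ?_
  have hk : c ∈ rootKer D K :=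
    ((stSys hS).θ_tau_eq_one_iff hS hR (stSys_HMul hS hR) c).1
      ((congrArg (stSys hS).θ hc).trans (map_one _))
  exact congrArg Subtype.val (hb.1 (a₁ := ⟨c, hk⟩) (a₂ := 1) (Subtype.ext (hc.trans (map_one T).symm)))

theorem e6_spec {r : ℕ} [Fact r.Prime] (hr : ¬ r ∣ [2, 5, 6, 8, 9, 12].prod) {ζ : ZMod r}
    (hζ : orderOf ζ = 12) (w : List (Fin chevE6.rank)) {v : Fin chevE6.rank → ZMod r}
    (hv : v ∈ eigMod (wMat (cartanMat chevE6) w) ζ) (hv0 : v ≠ 0) :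
    (∀ s < chevE6.nroots, pairMod v (col chevE6 s) ≠ 0) ∧
    (∀ u : List (Fin chevE6.rank), v ∈ eigMod (wMat (cartanMat chevE6) u) 1 →
      wMat (cartanMat chevE6) u = 1) ∧
    (wMat (cartanMat chevE6) w).charpoly = cyclotomic 12 ℤ * cyclotomic 3 ℤ := by
  obtain ⟨len, hR⟩ := (rules chevE6 (by simp) : Rules chevE6 ℚ).root
  have h0 : (cartanMat chevE6).det ≠ 0 := by rw [detE6']; norm_num
  have hchar : ∀ (w : List (Fin chevE6.rank)) (v : Fin chevE6.rank → ZMod r),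
      v ∈ eigMod (wMat (cartanMat chevE6) w) ζ → v ≠ 0 →
        (wMat (cartanMat chevE6) w).charpoly = cyclotomic 12 ℤ * cyclotomic 3 ℤ := by
    intro w v hv hv0
    have hA : (cartanMat chevE6 : Matrix (Fin 6) (Fin 6) ℤ) = cartE6 := eqE6
    obtain ⟨N₀, hN₀⟩ := exists_wMat_eq (l := 6) cartE6 w
    have hM := wMat_pow_eq_one hR weylE6 h0 w
    have h := e6_charpoly (M := wMat (l := 6) cartE6 w) (N := [2, 5, 6, 8, 9, 12].prod)
      (by rw [← hA]; exact hM) hr hN₀ (wMat_preserves preserveE6 w) hζ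
      (v := v) (by rw [← hA]; exact hv) hv0
    rw [← hA] at h
    exact h
  exact ⟨fun s hs => pairMod_col_ne_zero_of_charpoly hR hchar hv hv0 hs,
    fun u hu => wMat_eq_one_of_fix_e6 hR rfl weylE6 (by rw [detE6']; decide +kernel) h0 hr hζ hchar hv hv0 hu,
    hchar w v hv hv0⟩

theorem e6_poly_dvd : cyclotomic 12 ℤ * cyclotomic 3 ℤ ∣ X ^ 12 - 1 := by
  rw [cyclotomic_twelve, cyclotomic_three]
  exact ⟨(X ^ 2 + 1) * (X + 1) * (X - 1) * (X ^ 2 - X + 1), by ring⟩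

theorem e6_poly_eval (q : ℕ) :
    (cyclotomic 12 ℤ * cyclotomic 3 ℤ).eval (q : ℤ) = ((q : ℤ) ^ 4 - (q : ℤ) ^ 2 + 1) * ((q : ℤ) ^ 2 + q + 1) := by
  rw [cyclotomic_twelve, cyclotomic_three]
  simp

theorem e6_not_sq_dvd (q : ℕ) : ∀ s : ℕ, s.Prime → s ∣ 12 →
    ¬ (s : ℤ) ^ 2 ∣ (cyclotomic 12 ℤ * cyclotomic 3 ℤ).eval (q : ℤ) := by
  intro s hs h12 h
  have hs' : s = 2 ∨ s = 3 := by
    rcases (Nat.Prime.dvd_mul hs).1 (show s ∣ 4 * 3 from h12) with h | h
    · exact Or.inl ((Nat.prime_dvd_prime_iff_eq hs Nat.prime_two).1 (hs.dvd_of_dvd_pow (show s ∣ 2 ^ 2 from h)))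
    · exact Or.inr ((Nat.prime_dvd_prime_iff_eq hs Nat.prime_three).1 h)
  rw [e6_poly_eval] at h
  rcases hs' with rfl | rfl
  · have h' := (ZMod.intCast_zmod_eq_zero_iff_dvd _ 2).2 ((dvd_pow_self ((2 : ℕ) : ℤ) two_ne_zero).trans h)
    push_cast at h'
    have key : ∀ x : ZMod 2, (x ^ 4 - x ^ 2 + 1) * (x ^ 2 + x + 1) ≠ 0 := by decide +kernel
    exact key _ h'
  · have h' := (ZMod.intCast_zmod_eq_zero_iff_dvd _ 9).2 (show ((9 : ℕ) : ℤ) ∣ _ by norm_num at h ⊢; exact h)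
    push_cast at h'
    have key : ∀ x : ZMod 9, (x ^ 4 - x ^ 2 + 1) * (x ^ 2 + x + 1) ≠ 0 := by decide +kernel
    exact key _ h'

theorem e6_self_centralizing {F : Type*} [Field F] [Fintype F] {q : ℕ} (hq : Fintype.card F = q) :
    ∃ H : Subgroup ↥(chevE6.group F), IsCyclic ↥H ∧
      Nat.card ↥H = (q ^ 4 - q ^ 2 + 1) * (q ^ 2 + q + 1) / Nat.gcd 3 (q - 1) ∧
      Subgroup.centralizer (H : Set ↥(chevE6.group F)) = H := by
  have hq1 : 1 < q := hq ▸ Fintype.one_lt_card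
  obtain ⟨H, h1, h2, h3⟩ := exists_self_centralizing_univ (D := chevE6) (L := [2, 5, 6, 8, 9, 12]) (d := 12)
    (by simp) detE6' weylE6 (by decide +kernel) (by norm_num) ⟨12, by simp, dvd_rfl⟩
    (fun r hr h => by
      obtain ⟨e, he, hre⟩ := (Prime.dvd_prod_iff hr.prime).1 h
      simp only [List.mem_cons, List.not_mem_nil, or_false] at he
      exact (Nat.le_of_dvd (by omega) hre).trans (by omega))
    hq (orderE6 F) (fun K _ _ => orderE6 K) (by decide +kernel) (by decide +kernel) (by norm_num)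
    (fun K _ _ hS len hR => tau_injective_of_embed hS (Chev.rules_of_mem K (by simp : chevE7 ∈ _))
      CentralExt.Embed.embedOK_E6 CentralExt.Embed.leftInverse_E6 hR)
    (fun r _ hr ζ hζ w v hv hv0 => e6_spec hr hζ w hv hv0)
    (fun M hM => kerMod_facts_of_dvd (by norm_num) hq1 e6_poly_dvd (e6_not_sq_dvd q) hM)
  refine ⟨H, h1, ?_, h3⟩
  rw [(CentralExt.Embed.rootKer_cyclic CentralExt.Embed.kerCert_E6).2, Nat.card_eq_fintype_card (α := F), hq,
    e6_poly_eval, show (q : ℤ) ^ 4 - (q : ℤ) ^ 2 + 1 = ((q ^ 4 - q ^ 2 + 1 : ℕ) : ℤ) by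
      rw [Nat.cast_add, Nat.cast_sub (Nat.pow_le_pow_right (by omega) (by norm_num))]
      push_cast
      rfl,
    show (q : ℤ) ^ 2 + q + 1 = ((q ^ 2 + q + 1 : ℕ) : ℤ) by push_cast; rfl, ← Nat.cast_mul,
    Int.natAbs_natCast] at h2
  rw [← h2, Nat.mul_div_cancel _ (Nat.gcd_pos_of_pos_left _ (by norm_num))]

end Cfsg.Agent.LieTori
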