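import Cfsg.Agent.LieTori.E6Spec

/-!
Integral matrices congruent to one with a primitive twelfth root of unity as an eigenvalue, in dimension
seven: the characteristic polynomial, and the kernel of the complementary factor (owner: helper35).
-/

set_option autoImplicit false
set_option linter.style.haveILetI false

namespace Cfsg.Agent.LieTori

open Matrix Polynomial

variable {l : ℕ}

theorem e7_charpoly {r N : ℕ} [Fact r.Prime] {M N₀ : Matrix (Fin 7) (Fin 7) ℤ} (hM : M ^ N = 1)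
    (hrN : ¬ r ∣ N) (hMA : M = 1 + cartE7 * N₀) (hMB : Mᵀ * invE7 * M = invE7) {ζ : ZMod r}
    (hζ : orderOf ζ = 12) {v : Fin 7 → ZMod r} (hv : v ∈ eigMod M ζ) (hv0 : v ≠ 0) :
    ∃ c a : ℤ, (c = 1 ∨ c = -1) ∧ (a = 1 ∨ a = 0 ∨ a = -1) ∧
      M.charpoly = cyclotomic 12 ℤ * ((X - C c) * (X ^ 2 + C a * X + 1)) := by
  have hN : N ≠ 0 := fun h => hrN (h ▸ dvd_zero r)
  obtain ⟨g, hg⟩ : cyclotomic 12 ℤ ∣ M.charpoly := by
    refine (dvd_pow_self _ ?_).trans (cyclotomic_pow_dvd_charpoly hM hrN (by norm_num) hζ)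
    exact fun h => hv0 ((Submodule.mem_bot _).1 (Submodule.finrank_eq_zero.1 h ▸ hv))
  have hgm : g.Monic := (cyclotomic.monic 12 ℤ).of_mul_monic_left (hg ▸ M.charpoly_monic)
  have hgd : g.natDegree = 3 := by
    have h := congrArg natDegree hg
    rw [M.charpoly_natDegree_eq_dim, Fintype.card_fin, (cyclotomic.monic 12 ℤ).natDegree_mul hgm,
      natDegree_cyclotomic, show Nat.totient 12 = 4 by decide +kernel] at h
    omega
  have hroot : ∀ z : ℂ, g.eval₂ (Int.castRingHom ℂ) z = 0 → ‖z‖ = 1 := fun z hz => by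
    refine Complex.norm_eq_one_of_pow_eq_one ?_ hN
    have h2 := eval₂_eq_zero_of_dvd_of_eval₂_eq_zero (Int.castRingHom ℂ) z
      ((dvd_of_mul_left_eq _ hg.symm).trans (charpoly_dvd_pow M hM)) hz
    rw [eval₂_pow, eval₂_sub, eval₂_pow, eval₂_X, eval₂_one] at h2
    exact sub_eq_zero.1 (eq_zero_of_pow_eq_zero h2)
  obtain ⟨c, hc, hcroot⟩ : ∃ c : ℤ, (c = 1 ∨ c = -1) ∧ g.IsRoot c := by
    set b₂ := g.coeff 2
    set b₁ := g.coeff 1
    set b₀ := g.coeff 0
    have hge : g = X ^ 3 + C b₂ * X ^ 2 + C b₁ * X + C b₀ := by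
      conv_lhs => rw [hgm.as_sum]
      rw [hgd]
      simp [Finset.sum_range_succ, b₀, b₁, b₂]
      ring
    have hev : ∀ z : ℂ, g.eval₂ (Int.castRingHom ℂ) z =
        z ^ 3 + (b₂ : ℂ) * z ^ 2 + (b₁ : ℂ) * z + (b₀ : ℂ) := fun z => by
      rw [hge, eval₂_add, eval₂_add, eval₂_add, eval₂_mul, eval₂_mul, eval₂_pow, eval₂_pow, eval₂_X, eval₂_C,
        eval₂_C, eval₂_C]
      rfl
    obtain ⟨x, hx⟩ : ∃ x : ℂ, g.eval₂ (Int.castRingHom ℂ) x = 0 ∧ x.im = 0 := by
      obtain ⟨z, hz⟩ := IsAlgClosed.exists_root (g.map (Int.castRingHom ℂ)) (by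
        rw [degree_map_eq_of_injective Int.cast_injective, degree_eq_natDegree hgm.ne_zero, hgd]
        norm_num)
      rw [IsRoot, eval_map] at hz
      rcases eq_or_ne z.im 0 with h | h
      · exact ⟨z, hz, h⟩
      · rw [hev] at hz
        have hz' : (starRingEnd ℂ) z ^ 3 + (b₂ : ℂ) * (starRingEnd ℂ) z ^ 2 +
            (b₁ : ℂ) * (starRingEnd ℂ) z + (b₀ : ℂ) = 0 := by
          have := congrArg (starRingEnd ℂ) hz
          simpa using this
        set w := (starRingEnd ℂ) z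
        have hne : z - w ≠ 0 := fun h0 => h (Complex.conj_eq_iff_im.1 (sub_eq_zero.1 h0).symm)
        have hL : z ^ 2 + z * w + w ^ 2 + (b₂ : ℂ) * (z + w) + (b₁ : ℂ) = 0 :=
          (mul_eq_zero.1 (show (z - w) * (z ^ 2 + z * w + w ^ 2 + (b₂ : ℂ) * (z + w) + (b₁ : ℂ)) = 0 by
            linear_combination hz - hz')).resolve_left hne
        refine ⟨-(b₂ : ℂ) - z - w, ?_, by simp [w]⟩
        rw [hev]
        linear_combination hz + (-(b₂ : ℂ) - 2 * z - w) * hL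
    have h1 : x = 1 ∨ x = -1 := by
      have h2 := hroot x hx.1
      have hre : x = (x.re : ℂ) := Complex.ext (by simp) (by simp [hx.2])
      rw [hre, Complex.norm_real, Real.norm_eq_abs] at h2
      rcases (abs_eq zero_le_one).1 h2 with h | h
      · left; rw [hre, h]; norm_num
      · right; rw [hre, h]; norm_num
    have hint : ∀ c : ℤ, g.eval₂ (Int.castRingHom ℂ) (c : ℂ) = 0 → g.IsRoot c := fun c h => by
      have e := hom_eval₂ g (RingHom.id ℤ) (Int.castRingHom ℂ) c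
      rw [RingHom.comp_id, eq_intCast, eq_intCast, h, Int.cast_eq_zero] at e
      exact e
    rcases h1 with rfl | rfl
    · exact ⟨1, Or.inl rfl, hint 1 (by simpa using hx.1)⟩
    · exact ⟨-1, Or.inr rfl, hint (-1) (by simpa using hx.1)⟩
  obtain ⟨Q, hQ⟩ := dvd_iff_isRoot.2 hcroot
  have hQm : Q.Monic := (monic_X_sub_C c).of_mul_monic_left (hQ ▸ hgm)
  have hQd : Q.natDegree = 2 := by
    have h := congrArg natDegree hQ
    rw [hgd, (monic_X_sub_C c).natDegree_mul hQm, natDegree_X_sub_C] at h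
    omega
  set a := Q.coeff 1
  set b := Q.coeff 0
  have hQe : Q = X ^ 2 + C a * X + C b := by
    conv_lhs => rw [hQm.as_sum]
    rw [hQd]
    simp [Finset.sum_range_succ, a, b]
    ring
  have hQroot : ∀ z : ℂ, z ^ 2 + (a : ℂ) * z + (b : ℂ) = 0 → ‖z‖ = 1 := fun z hz => hroot z (by
    rw [hQ, eval₂_mul, show Q.eval₂ (Int.castRingHom ℂ) z = 0 by
      rw [hQe, eval₂_add, eval₂_add, eval₂_mul, eval₂_pow, eval₂_X, eval₂_C, eval₂_C]; exact hz, mul_zero])
  obtain ⟨z, hz⟩ : ∃ z : ℂ, z ^ 2 + (a : ℂ) * z + (b : ℂ) = 0 := by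
    obtain ⟨z, hz⟩ := IsAlgClosed.exists_root (Q.map (Int.castRingHom ℂ)) (by
      rw [degree_map_eq_of_injective Int.cast_injective, degree_eq_natDegree hQm.ne_zero, hQd]
      norm_num)
    exact ⟨z, by simpa [hQe, IsRoot] using hz⟩
  have hz' := hQroot (-(a : ℂ) - z) (by linear_combination hz)
  have hz1 := hQroot z hz
  have hbz : ((b : ℤ) : ℂ) = z * (-(a : ℂ) - z) := by linear_combination hz
  have hab : |b| = 1 := by
    have h : ‖((b : ℤ) : ℂ)‖ = 1 := by rw [hbz, norm_mul, hz1, hz', one_mul]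
    rw [Complex.norm_intCast] at h
    exact_mod_cast h
  have haa : |a| ≤ 2 := by
    have h : ‖((a : ℤ) : ℂ)‖ ≤ 2 := by
      rw [show ((a : ℤ) : ℂ) = -z + -(-(a : ℂ) - z) by ring]
      refine (norm_add_le _ _).trans ?_
      rw [norm_neg, norm_neg, hz1, hz']
      norm_num
    rw [Complex.norm_intCast] at h
    exact_mod_cast h
  have hneg : b = -1 → a = 0 := fun hb => by
    have hconj : z * (starRingEnd ℂ) z = 1 := by
      rw [Complex.mul_conj, Complex.normSq_eq_norm_sq, hz1]; norm_num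
    have hz0 : z ≠ 0 := fun h => by simp [h] at hz1
    have h2 : z * ((starRingEnd ℂ) z + (-(a : ℂ) - z)) = 0 := by
      rw [mul_add, hconj, ← hbz, hb]; norm_num
    have h3 := congrArg Complex.re ((mul_eq_zero.1 h2).resolve_left hz0)
    simp at h3
    exact_mod_cast h3
  rw [abs_le] at haa
  have hb : b = 1 ∨ b = -1 := (abs_eq (by norm_num)).1 hab
  have hcases : (b = 1 ∧ (a = 1 ∨ a = 0 ∨ a = -1)) ∨ (b = 1 ∧ a = 2) ∨ (b = 1 ∧ a = -2) ∨ (b = -1 ∧ a = 0) := by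
    rcases hb with hb | hb
    · omega
    · exact Or.inr (Or.inr (Or.inr ⟨hb, hneg hb⟩))
  have hkill : g ∣ (X ^ 2 - 1) ^ 3 → False := fun hk => by
    refine fixed_false (M := M) (Y := !![0, 0, 0, 0, 0, 0, 1; 0, 0, 0, 0, 1, -1, 1; 0, 0, 0, 0, 1, 1, -1;
      0, 0, 0, 1, -1, 0, 0; 0, 0, 1, -1, 0, 0, 0; 0, 1, -1, 0, 0, 0, 0; 1, -1, 0, 0, 0, 0, 0]) (n := 3)
      factsE7 (by norm_num) (by rw [detE7]; norm_num) hMA hMB ?_ (by decide +kernel) hN hM ?_ hζ hv hv0
    · exact det_ne_zero_of_mul (c := 2) (by norm_num) (B := !![0, 1, 1, 2, 2, 2, 2; 0, 1, 1, 2, 2, 2, 0;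
        0, 1, 1, 2, 2, 0, 0; 0, 1, 1, 2, 0, 0, 0; 0, 1, 1, 0, 0, 0, 0; 2, -1, 1, 0, 0, 0, 0;
        2, 0, 0, 0, 0, 0, 0]) (by decide +kernel)
    · rw [hg, mul_pow]
      exact mul_dvd_mul (dvd_pow_self _ (by norm_num)) hk
  have hlin : ∀ e : ℤ, (e = 1 ∨ e = -1) → (X - C e : ℤ[X]) ∣ X ^ 2 - 1 := by
    rintro e (rfl | rfl)
    · exact ⟨X + 1, by simp; ring⟩
    · exact ⟨X - 1, by simp; ring⟩
  rcases hcases with ⟨hb, ha⟩ | ⟨hb, ha⟩ | ⟨hb, ha⟩ | ⟨hb, ha⟩
  · exact ⟨c, a, hc, ha, by rw [hg, hQ, hQe, hb, map_one]⟩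
  all_goals
    refine (hkill ?_).elim
    rw [hQ, hQe, hb, ha, pow_succ' _ 2]
    refine mul_dvd_mul (hlin c hc) ?_
  · exact ⟨(X - 1) ^ 2, by simp only [map_ofNat, map_one]; ring⟩
  · exact ⟨(X + 1) ^ 2, by simp only [map_neg, map_ofNat, map_one]; ring⟩
  · exact ⟨X ^ 2 - 1, by simp only [map_neg, map_zero, map_one]; ring⟩

/-- A commuting projection does not split a component of multiplicity one, three factors. -/
theorem split_false₃ {Mq P : Matrix (Fin l) (Fin l) ℚ} {n : ℚ} (hn : n ≠ 0) {f h k : ℚ[X]}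
    (hfi : Irreducible f) (hhi : Irreducible h) (hcop : IsCoprime f h) (hdim : l < 2 * f.natDegree + h.natDegree)
    (hz : aeval Mq (f * h * k) = 0) (hcomm : P * Mq = Mq * P) (hPP : P * P = n • P)
    (h1 : P * aeval Mq (h * k) ≠ 0) (h2 : (n • 1 - P) * aeval Mq (h * k) ≠ 0) (h3 : aeval Mq (f * k) ≠ 0) :
    False := by
  have hexv : ∀ {T : Matrix (Fin l) (Fin l) ℚ}, T ≠ 0 → ∃ u, T *ᵥ u ≠ 0 := fun {T} hT => by
    by_contra hall
    push Not at hall
    refine hT (Matrix.ext fun i k => ?_)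
    simpa using congrFun (hall (Pi.single k 1)) i
  obtain ⟨u₁, hu₁⟩ := hexv h1
  obtain ⟨u₂, hu₂⟩ := hexv h2
  obtain ⟨u₃, hu₃⟩ := hexv h3
  set x := (P * aeval Mq (h * k)) *ᵥ u₁ with hx
  set y := ((n • 1 - P) * aeval Mq (h * k)) *ᵥ u₂ with hy
  set z := aeval Mq (f * k) *ᵥ u₃ with hz'
  have hc : ∀ p : ℚ[X], P * aeval Mq p = aeval Mq p * P := fun p =>
    ((Algebra.commute_of_mem_adjoin_singleton_of_commute (aeval_mem_adjoin_singleton ℚ Mq) hcomm).eq :)
  have hc2 : ∀ p : ℚ[X], (n • 1 - P) * aeval Mq p = aeval Mq p * (n • 1 - P) := fun p => by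
    rw [sub_mul, mul_sub, hc, smul_mul_assoc, one_mul, mul_smul_comm, mul_one]
  have hfh : aeval Mq f * aeval Mq (h * k) = 0 := by rw [← map_mul, ← mul_assoc, hz]
  have hhf : aeval Mq h * aeval Mq (f * k) = 0 := by rw [← map_mul, mul_left_comm, ← mul_assoc, hz]
  have hfx : aeval Mq f *ᵥ x = 0 := by
    rw [hx, Matrix.mulVec_mulVec, ← mul_assoc, ← hc, mul_assoc, hfh, mul_zero, Matrix.zero_mulVec]
  have hfy : aeval Mq f *ᵥ y = 0 := by
    rw [hy, Matrix.mulVec_mulVec, ← mul_assoc, ← hc2, mul_assoc, hfh, mul_zero, Matrix.zero_mulVec]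
  have hhz : aeval Mq h *ᵥ z = 0 := by rw [hz', Matrix.mulVec_mulVec, hhf, Matrix.zero_mulVec]
  have hPx : P *ᵥ x = n • x := by
    rw [hx, Matrix.mulVec_mulVec, ← mul_assoc, hPP, smul_mul_assoc, Matrix.smul_mulVec]
  have hPy : P *ᵥ y = 0 := by
    rw [hy, Matrix.mulVec_mulVec, ← mul_assoc, mul_sub, hPP, mul_smul_comm, mul_one, sub_self, zero_mul,
      Matrix.zero_mulVec]
  let a := f.natDegree
  let b := h.natDegree
  let ev : (Fin l → ℚ) → ℚ[X] →ₗ[ℚ] (Fin l → ℚ) := fun v =>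
    { toFun := fun p => aeval Mq p *ᵥ v
      map_add' := fun p q => by rw [map_add, Matrix.add_mulVec]
      map_smul' := fun c p => by rw [map_smul, Matrix.smul_mulVec, RingHom.id_apply] }
  let Λ : (degreeLT ℚ a × degreeLT ℚ a) × degreeLT ℚ b →ₗ[ℚ] (Fin l → ℚ) :=
    (((ev x).comp (degreeLT ℚ a).subtype).coprod ((ev y).comp (degreeLT ℚ a).subtype)).coprod
      ((ev z).comp (degreeLT ℚ b).subtype)
  have hΛ : Function.Injective Λ := by
    rw [← LinearMap.ker_eq_bot, LinearMap.ker_eq_bot']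
    rintro ⟨⟨⟨p₁, hp₁⟩, ⟨p₂, hp₂⟩⟩, ⟨p₃, hp₃⟩⟩ h0
    replace h0 : aeval Mq p₁ *ᵥ x + aeval Mq p₂ *ᵥ y + aeval Mq p₃ *ᵥ z = 0 := h0
    have hd₁ : p₁.degree < f.degree := by
      rw [degree_eq_natDegree hfi.ne_zero]; exact mem_degreeLT.1 hp₁
    have hd₂ : p₂.degree < f.degree := by
      rw [degree_eq_natDegree hfi.ne_zero]; exact mem_degreeLT.1 hp₂
    have hd₃ : p₃.degree < h.degree := by
      rw [degree_eq_natDegree hhi.ne_zero]; exact mem_degreeLT.1 hp₃
    have hswap : ∀ p q : ℚ[X], ∀ v, aeval Mq p *ᵥ (aeval Mq q *ᵥ v) = aeval Mq q *ᵥ (aeval Mq p *ᵥ v) :=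
      fun p q v => by rw [Matrix.mulVec_mulVec, Matrix.mulVec_mulVec, ← map_mul, ← map_mul, mul_comm]
    have e3 : aeval Mq p₃ *ᵥ z = 0 := by
      have e := congrArg (aeval Mq f *ᵥ ·) h0
      simp only [Matrix.mulVec_add, Matrix.mulVec_zero, hswap f, hfx, hfy, add_zero, zero_add] at e
      obtain ⟨c₁, c₂, hc12⟩ := hcop
      have e' := congrArg (fun q : ℚ[X] => aeval Mq q *ᵥ (aeval Mq p₃ *ᵥ z)) hc12
      simp only [map_add, map_mul, map_one, Matrix.add_mulVec, ← Matrix.mulVec_mulVec, Matrix.one_mulVec,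
        hswap f p₃, hswap h p₃, hhz, Matrix.mulVec_zero, e, add_zero] at e'
      exact e'.symm
    rw [e3, add_zero] at h0
    have e := congrArg (P *ᵥ ·) h0
    simp only [Matrix.mulVec_add, Matrix.mulVec_mulVec, Matrix.mulVec_zero, hc] at e
    simp only [← Matrix.mulVec_mulVec, hPx, hPy, Matrix.mulVec_zero, add_zero, Matrix.mulVec_smul,
      smul_eq_zero, hn, false_or] at e
    rw [e, zero_add] at h0
    have := eq_zero_of_aeval_mulVec hfi hd₁ hfx e hu₁
    have := eq_zero_of_aeval_mulVec hfi hd₂ hfy h0 hu₂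
    have := eq_zero_of_aeval_mulVec hhi hd₃ hhz e3 hu₃
    subst p₁ p₂ p₃
    rfl
  have hle := LinearMap.finrank_le_finrank_of_injective hΛ
  rw [Module.finrank_prod, Module.finrank_prod, (degreeLTEquiv ℚ a).finrank_eq, (degreeLTEquiv ℚ b).finrank_eq,
    Module.finrank_fin_fun, Module.finrank_fin_fun, Module.finrank_fin_fun] at hle
  omega

/-- A vector killed by the complementary factor is determined by an orthogonal basis of that kernel. -/
theorem eq_zero_of_orth {M B : Matrix (Fin l) (Fin l) ℤ} (hB : Bᵀ = B) (hBdef : ∀ z, z ⬝ᵥ B *ᵥ z = 0 → z = 0)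
    {g : ℤ[X]} {d : ℕ} (hd : 0 < d) (hgd : IsCoprime (cyclotomic d ℚ) (g.map (Int.castRingHom ℚ)))
    (hz : aeval M (cyclotomic d ℤ * g) = 0) (hg0 : aeval M g ≠ 0) {k : ℕ} (hdim : l < d.totient + (k + 1))
    {γ : Fin k → Fin l → ℤ} (hγ : ∀ i, aeval M g *ᵥ γ i = 0) (hγn : ∀ i, γ i ≠ 0)
    (horth : ∀ i j, i ≠ j → γ i ⬝ᵥ B *ᵥ γ j = 0) {y : Fin l → ℤ} (hy : aeval M g *ᵥ y = 0)
    (hyo : ∀ i, γ i ⬝ᵥ B *ᵥ y = 0) : y = 0 := by
  classical
  by_contra hy0
  let φ := Int.castRingHom ℚ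
  let toQ : Matrix (Fin l) (Fin l) ℤ →+* Matrix (Fin l) (Fin l) ℚ := φ.mapMatrix
  have hq : ∀ p : ℤ[X], aeval (toQ M) (p.map φ) = toQ (aeval M p) := fun p => by
    rw [show φ = algebraMap ℤ ℚ from rfl, aeval_map_algebraMap]
    exact aeval_algHom_apply toQ.toIntAlgHom M p
  have hvec : ∀ (T : Matrix (Fin l) (Fin l) ℤ) (x : Fin l → ℤ),
      toQ T *ᵥ (fun i => (x i : ℚ)) = fun i => ((T *ᵥ x) i : ℚ) := fun T x => by
    funext i
    simp [toQ, φ, Matrix.mulVec, dotProduct]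
  let vs : Fin (k + 1) → Fin l → ℤ := Fin.snoc γ y
  have hsym : ∀ a b : Fin l → ℤ, a ⬝ᵥ B *ᵥ b = b ⬝ᵥ B *ᵥ a := fun a b => by
    rw [dotProduct_comm, ← Matrix.vecMul_transpose, ← Matrix.dotProduct_mulVec, hB]
  have hvs : ∀ i, aeval M g *ᵥ vs i = 0 := fun i => by
    refine Fin.lastCases ?_ (fun j => ?_) i
    · simpa [vs] using hy
    · simpa [vs] using hγ j
  have hvn : ∀ i, vs i ≠ 0 := fun i => by
    refine Fin.lastCases ?_ (fun j => ?_) i
    · simpa [vs] using hy0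
    · simpa [vs] using hγn j
  have hvo : ∀ i j, i ≠ j → vs i ⬝ᵥ B *ᵥ vs j = 0 := fun i => by
    refine Fin.lastCases ?_ (fun i' => ?_) i
    · intro j
      refine Fin.lastCases ?_ (fun j' => ?_) j
      · exact fun h => absurd rfl h
      · intro _
        simpa [vs, hsym y] using hyo j'
    · intro j
      refine Fin.lastCases ?_ (fun j' => ?_) j
      · intro _
        simpa [vs] using hyo i'
      · intro h
        simpa [vs] using horth i' j' fun e => h (congrArg Fin.castSucc e)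
  obtain ⟨u, hu⟩ : ∃ u, aeval M g *ᵥ u ≠ 0 := by
    by_contra hall
    push Not at hall
    refine hg0 (Matrix.ext fun i k => ?_)
    simpa using congrFun (hall (Pi.single k 1)) i
  let x : Fin l → ℚ := fun i => ((aeval M g *ᵥ u) i : ℚ)
  have hx : x ≠ 0 := fun h => hu (funext fun i => Int.cast_injective (α := ℚ) (by simpa [x] using congrFun h i))
  have hfx : aeval (toQ M) (cyclotomic d ℚ) *ᵥ x = 0 := by
    rw [← map_cyclotomic d φ, hq, hvec, Matrix.mulVec_mulVec, ← map_mul, hz, Matrix.zero_mulVec]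
    funext i; simp
  let a := (cyclotomic d ℚ).natDegree
  let Λ : degreeLT ℚ a × (Fin (k + 1) → ℚ) →ₗ[ℚ] (Fin l → ℚ) :=
    { toFun := fun p => aeval (toQ M) (p.1 : ℚ[X]) *ᵥ x + ∑ i, p.2 i • (fun j => (vs i j : ℚ))
      map_add' := fun p q => by
        simp only [Prod.fst_add, Prod.snd_add, Submodule.coe_add, map_add, Matrix.add_mulVec, Pi.add_apply,
          add_smul, Finset.sum_add_distrib]
        abel
      map_smul' := fun c p => by
        simp only [Prod.smul_fst, Prod.smul_snd, Submodule.coe_smul, map_smul, Matrix.smul_mulVec,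
          Pi.smul_apply, smul_add, Finset.smul_sum, smul_smul, smul_eq_mul, RingHom.id_apply] }
  have hΛ : Function.Injective Λ := by
    rw [← LinearMap.ker_eq_bot, LinearMap.ker_eq_bot']
    rintro ⟨⟨p, hp⟩, e⟩ h0
    replace h0 : aeval (toQ M) p *ᵥ x + ∑ i, e i • (fun j => (vs i j : ℚ)) = 0 := h0
    have hpd : p.degree < (cyclotomic d ℚ).degree := by
      rw [degree_eq_natDegree (cyclotomic_ne_zero d ℚ)]; exact mem_degreeLT.1 hp
    have hswap : ∀ p q : ℚ[X], ∀ v, aeval (toQ M) p *ᵥ (aeval (toQ M) q *ᵥ v) =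
        aeval (toQ M) q *ᵥ (aeval (toQ M) p *ᵥ v) :=
      fun p q v => by rw [Matrix.mulVec_mulVec, Matrix.mulVec_mulVec, ← map_mul, ← map_mul, mul_comm]
    have hgx : aeval (toQ M) (g.map φ) *ᵥ (aeval (toQ M) p *ᵥ x) = 0 := by
      have h1 := congrArg (aeval (toQ M) (g.map φ) *ᵥ ·) h0
      simp only [Matrix.mulVec_add, Matrix.mulVec_zero, Matrix.mulVec_sum, Matrix.mulVec_smul, hq, hvec, hvs]
        at h1 ⊢
      simpa [← Pi.zero_def] using h1
    have hpx : aeval (toQ M) p *ᵥ x = 0 := by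
      obtain ⟨c₁, c₂, hc12⟩ := hgd
      have e' := congrArg (fun q : ℚ[X] => aeval (toQ M) q *ᵥ (aeval (toQ M) p *ᵥ x)) hc12
      simp only [map_add, map_mul, map_one, Matrix.add_mulVec, ← Matrix.mulVec_mulVec, Matrix.one_mulVec,
        hswap _ p x, hfx, Matrix.mulVec_zero, zero_add] at e'
      rw [← hswap _ p x, hgx, Matrix.mulVec_zero] at e'
      exact e'.symm
    have hp0 := eq_zero_of_aeval_mulVec (cyclotomic.irreducible_rat hd) hpd hfx hpx hx
    rw [hpx, zero_add] at h0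
    have he : e = 0 := funext fun j => by
      have h1 := congrArg ((fun i => (vs j i : ℚ)) ⬝ᵥ toQ B *ᵥ ·) h0
      simp only [Matrix.mulVec_sum, Matrix.mulVec_smul, hvec, dotProduct_sum, dotProduct_smul, Matrix.mulVec_zero,
        dotProduct_zero] at h1
      have hcast : ∀ i, ((fun m => (vs j m : ℚ)) ⬝ᵥ fun m => ((B *ᵥ vs i) m : ℚ)) =
          ((vs j ⬝ᵥ B *ᵥ vs i : ℤ) : ℚ) := fun i => by simp [dotProduct]
      simp only [hcast] at h1
      rw [Finset.sum_eq_single j (fun i _ hij => by rw [hvo j i hij.symm, Int.cast_zero, smul_zero]) (by simp),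
        smul_eq_mul, mul_eq_zero, Int.cast_eq_zero] at h1
      exact h1.resolve_right fun h => hvn j (hBdef _ h)
    subst hp0 he
    rfl
  have hle := LinearMap.finrank_le_finrank_of_injective hΛ
  rw [Module.finrank_prod, (degreeLTEquiv ℚ a).finrank_eq, Module.finrank_fin_fun, Module.finrank_fin_fun,
    Module.finrank_fin_fun] at hle
  have : a = d.totient := natDegree_cyclotomic d ℚ
  omega

end Cfsg.Agent.LieTori
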