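import Cfsg.Agent.LieTori.E7Spec
import Cfsg.Agent.LieTori.RegularTorus
import Mathlib.GroupTheory.Perm.Cycle.Basic

/-!
The triple of orthogonal roots moved cyclically, up to sign, by an element of `W(E7)` with a primitive twelfth
root of unity as eigenvalue (owner: helper35).
-/

set_option autoImplicit false
set_option linter.style.haveILetI false

namespace Cfsg.Agent.LieTori.E7

open Cfsg.Lie Cfsg.Agent.ChevGrp Matrix Polynomial

theorem dvd_card_of_scale {r n d : ℕ} [Fact r.Prime] (π : Equiv.Perm (Fin n)) (f : Fin n → ZMod r)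
    {ζ : ZMod r} (hd : 0 < d) (hζ : orderOf ζ = d) (h : ∀ s, f (π s) = ζ * f s) :
    d ∣ (Finset.univ.filter fun s => f s ≠ 0).card := by
  classical
  have hζu : IsUnit ζ := IsUnit.of_pow_eq_one (hζ ▸ pow_orderOf_eq_one ζ) hd.ne'
  set z : (ZMod r)ˣ := hζu.unit
  have hz : orderOf z = d := by rw [← orderOf_units, IsUnit.unit_spec, hζ]
  set H := Subgroup.zpowers z
  let T := Finset.univ.filter fun s : Fin n => ∃ hs : f s ≠ 0,
    Units.mk0 (f s) hs = Quotient.out (QuotientGroup.mk (Units.mk0 (f s) hs) : (ZMod r)ˣ ⧸ H)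
  have hpow : ∀ (k : ℕ) (s : Fin n), f ((π ^ k) s) = ζ ^ k * f s := fun k s => by
    induction k with
    | zero => simp
    | succ k ih => rw [pow_succ', Equiv.Perm.mul_apply, h, ih, pow_succ', mul_assoc]
  refine ⟨T.card, ?_⟩
  rw [← Fintype.card_coe, ← Fintype.card_coe T, ← Fintype.card_fin d, ← Fintype.card_prod]
  refine (Fintype.card_congr (Equiv.ofBijective (fun p : Fin d × T => (⟨(π ^ (p.1 : ℕ)) p.2.1, ?_⟩ :
    ↥(Finset.univ.filter fun s => f s ≠ 0))) ⟨?_, ?_⟩)).symm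
  · obtain ⟨hs, -⟩ := (Finset.mem_filter.1 p.2.2).2
    refine Finset.mem_filter.2 ⟨Finset.mem_univ _, ?_⟩
    rw [hpow]
    exact mul_ne_zero (pow_ne_zero _ hζu.ne_zero) hs
  · rintro ⟨k, s, hs⟩ ⟨k', s', hs'⟩ e
    have e' : (π ^ (k : ℕ)) s = (π ^ (k' : ℕ)) s' := congrArg Subtype.val e
    obtain ⟨h1, h1'⟩ := (Finset.mem_filter.1 hs).2
    obtain ⟨h2, h2'⟩ := (Finset.mem_filter.1 hs').2
    have e2 : z ^ (k : ℕ) * Units.mk0 (f s) h1 = z ^ (k' : ℕ) * Units.mk0 (f s') h2 := Units.ext (by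
      simp only [Units.val_mul, Units.val_pow_eq_pow_val, Units.val_mk0, z, IsUnit.unit_spec, ← hpow, e'])
    have e3 : (QuotientGroup.mk (Units.mk0 (f s) h1) : (ZMod r)ˣ ⧸ H) = QuotientGroup.mk (Units.mk0 (f s') h2) := by
      have hk : ∀ j : ℕ, (QuotientGroup.mk (z ^ j) : (ZMod r)ˣ ⧸ H) = 1 := fun j =>
        (QuotientGroup.eq_one_iff _).2 ⟨j, by simp⟩
      have := congrArg (QuotientGroup.mk : (ZMod r)ˣ → (ZMod r)ˣ ⧸ H) e2
      rwa [QuotientGroup.mk_mul, QuotientGroup.mk_mul, hk, hk, one_mul, one_mul] at this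
    have e4 : Units.mk0 (f s) h1 = Units.mk0 (f s') h2 := by rw [h1', e3, ← h2']
    rw [e4, mul_left_inj] at e2
    have hkk : k = k' := Fin.ext (pow_injOn_Iio_orderOf (by simp [hz]) (by simp [hz]) e2)
    subst hkk
    obtain rfl : s = s' := (π ^ (k : ℕ)).injective e'
    rfl
  · rintro ⟨s, hs⟩
    have hs0 : f s ≠ 0 := (Finset.mem_filter.1 hs).2
    set u := Units.mk0 (f s) hs0
    set o := Quotient.out (QuotientGroup.mk u : (ZMod r)ˣ ⧸ H)
    have hmem : o⁻¹ * u ∈ H := QuotientGroup.eq.1 (QuotientGroup.out_eq' _)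
    obtain ⟨k, hk, hko⟩ : ∃ k < d, z ^ k = o⁻¹ * u := by
      have h1 := ((isOfFinOrder_of_finite z).mem_zpowers_iff_mem_range_orderOf).1 hmem
      rw [hz] at h1
      obtain ⟨k, hk, e⟩ := Finset.mem_image.1 h1
      exact ⟨k, Finset.mem_range.1 hk, e⟩
    set t := (π ^ k).symm s
    have ht : ζ ^ k * f t = f s := by rw [← hpow, Equiv.apply_symm_apply]
    have ht0 : f t ≠ 0 := fun e => hs0 (by rw [← ht, e, mul_zero])
    have hto : Units.mk0 (f t) ht0 = o := by
      have e1 : z ^ k * Units.mk0 (f t) ht0 = u := Units.ext (by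
        simp only [Units.val_mul, Units.val_pow_eq_pow_val, Units.val_mk0, z, IsUnit.unit_spec, ht, u])
      rw [hko, mul_comm (o⁻¹) u, mul_assoc, mul_eq_left, inv_mul_eq_one] at e1
      exact e1.symm
    have htT : t ∈ T := Finset.mem_filter.2 ⟨Finset.mem_univ _, ht0, by
      rw [hto, show (QuotientGroup.mk o : (ZMod r)ˣ ⧸ H) = QuotientGroup.mk u from QuotientGroup.out_eq' _]⟩
    exact ⟨(⟨k, hk⟩, ⟨t, htT⟩), Subtype.ext (Equiv.apply_symm_apply _ _)⟩

variable {len : ℕ → ℕ} {r : ℕ} [Fact r.Prime] {ζ : ZMod r}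

theorem eq_of_fixed {M : Matrix (Fin chevE7.rank) (Fin chevE7.rank) ℤ} {R : ℤ[X]}
    (hchar : M.charpoly = (X - C 1) * R) (hR1 : R.eval 1 ≠ 0) {x y : V} (hx : M *ᵥ x = x) (hy : M *ᵥ y = y)
    (hxn : ip x x = 4) (hyn : ip y y = 4) : y = x ∨ y = -x := by
  classical
  let φ := Int.castRingHom ℚ
  let E : Submodule ℚ (Fin chevE7.rank → ℚ) := Module.End.eigenspace (Matrix.toLin' (M.map φ)) (1 : ℚ)
  have hmem : ∀ {z : V}, M *ᵥ z = z → (fun i => (z i : ℚ)) ∈ E := fun {z} hz => by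
    rw [Module.End.mem_eigenspace_iff, Matrix.toLin'_apply, one_smul]
    funext i
    have h := congrArg (fun u : ℤ => (u : ℚ)) (congrFun hz i)
    simpa [Matrix.mulVec, dotProduct, φ] using h
  have hE : Module.finrank ℚ E ≤ 1 := by
    refine (LinearMap.finrank_eigenspace_le _ _).trans ?_
    rw [Matrix.charpoly_toLin', Matrix.charpoly_map, hchar, show (1 : ℚ) = φ 1 from (map_one φ).symm,
      ← Polynomial.eq_rootMultiplicity_map (f := φ) Int.cast_injective,
      rootMultiplicity_mul (mul_ne_zero (X_sub_C_ne_zero _) fun h => hR1 (by simp [h])),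
      rootMultiplicity_X_sub_C_self, rootMultiplicity_eq_zero hR1]
  obtain ⟨e, he⟩ := finrank_le_one_iff.1 hE
  obtain ⟨α, hα⟩ := he ⟨_, hmem hx⟩
  obtain ⟨β, hβ⟩ := he ⟨_, hmem hy⟩
  have hα0 : α ≠ 0 := fun h => by
    rw [h, zero_smul] at hα
    have : x = 0 := funext fun i => Int.cast_injective (α := ℚ)
      (by simpa using (congrFun (congrArg Subtype.val hα) i).symm)
    rw [this] at hxn
    simp [ip] at hxn
  have key : (4 : ℤ) • y = ip x y • x := by
    have hq : ∀ i, (y i : ℚ) = β / α * x i := fun i => by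
      have h1 : (y i : ℚ) = β * (e : Fin chevE7.rank → ℚ) i := (congrFun (congrArg Subtype.val hβ) i).symm
      have h2 : (x i : ℚ) = α * (e : Fin chevE7.rank → ℚ) i := (congrFun (congrArg Subtype.val hα) i).symm
      rw [h1, h2]; field_simp
    have hip : ∀ a b : V, (ip a b : ℚ) = ∑ i, (a i : ℚ) * ∑ j, (B7 i j : ℚ) * b j := fun a b => by
      simp [ip, dotProduct, Matrix.mulVec]
    have h4 : (ip x y : ℚ) = β / α * 4 := by
      rw [show (4 : ℚ) = ((ip x x : ℤ) : ℚ) by rw [hxn]; norm_num, hip, hip]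
      simp only [hq, Finset.mul_sum]
      exact Finset.sum_congr rfl fun i _ => Finset.sum_congr rfl fun j _ => by ring
    funext i
    apply Int.cast_injective (α := ℚ)
    simp only [Pi.smul_apply, smul_eq_mul, Int.cast_mul, h4, hq]
    push_cast
    ring
  have h1 := congrArg (ip y) key
  rw [ip_smul_right, ip_smul_right, hyn, ip_comm y x] at h1
  obtain ⟨-, -, he4, hem4⟩ := ip_le hxn hyn
  rcases eq_or_eq_neg_of_sq_eq_sq (ip x y) 4 (by linarith) with h | h
  · exact Or.inl (he4 h).symm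
  · exact Or.inr (hem4 h)

theorem mulVec_pow_succ (M : Matrix (Fin chevE7.rank) (Fin chevE7.rank) ℤ) (k : ℕ) (x : V) :
    M *ᵥ (M ^ k *ᵥ x) = M ^ (k + 1) *ᵥ x := by
  rw [Matrix.mulVec_mulVec, pow_succ']

theorem aeval_mulVec_of_fixed {M : Matrix (Fin chevE7.rank) (Fin chevE7.rank) ℤ} {y : V} (hy : M *ᵥ y = y)
    (p : ℤ[X]) : aeval M p *ᵥ y = p.eval 1 • y := by
  induction p using Polynomial.induction_on' with
  | add p q hp hq => rw [map_add, Matrix.add_mulVec, hp, hq, eval_add, add_smul]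
  | monomial k a =>
    have hk : M ^ k *ᵥ y = y := by
      induction k with
      | zero => rw [pow_zero, Matrix.one_mulVec]
      | succ k ih => rw [← mulVec_pow_succ, ih, hy]
    rw [aeval_monomial, Algebra.algebraMap_eq_smul_one, smul_mul_assoc, one_mul, Matrix.smul_mulVec, hk,
      eval_monomial, one_pow, mul_one]

/-- The triple. -/
theorem exists_triple (hr : ¬ r ∣ [2, 6, 8, 10, 12, 14, 18].prod) (hR : RootTable chevE7 len)
    (hζ : orderOf ζ = 12) {w : List (Fin chevE7.rank)} {v : Fin chevE7.rank → ZMod r}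
    (hv : v ∈ eigMod (wMat A7 w) ζ) (hv0 : v ≠ 0) :
    ∃ (s₀ : ℕ) (ε : ℤ), s₀ < chevE7.nroots ∧ (ε = 1 ∨ ε = -1) ∧
      (wMat A7 w).charpoly = cyclotomic 12 ℤ * (X ^ 3 - C ε) ∧
      pairMod v (col chevE7 s₀) = 0 ∧
      wMat A7 w ^ 3 *ᵥ col chevE7 s₀ = ε • col chevE7 s₀ ∧
      (∀ i j : Fin 3, i ≠ j →
        ip (wMat A7 w ^ (i : ℕ) *ᵥ col chevE7 s₀) (wMat A7 w ^ (j : ℕ) *ᵥ col chevE7 s₀) = 0) ∧
      (∀ s < chevE7.nroots, pairMod v (col chevE7 s) = 0 → ∃ i : Fin 3,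
        col chevE7 s = wMat A7 w ^ (i : ℕ) *ᵥ col chevE7 s₀ ∨
          col chevE7 s = -(wMat A7 w ^ (i : ℕ) *ᵥ col chevE7 s₀)) := by
  classical
  set P : V → Prop := fun x => ∃ s < chevE7.nroots, col chevE7 s = x ∧ pairMod v x = 0 with hPdef
  have hPneg : ∀ {x : V}, P x → P (-x) := fun {x} ⟨s, hs, e, h0⟩ =>
    ⟨chevE7.neg s, hR.neg_lt s hs, by rw [col_neg hR hs, e], by
      rw [show -x = (-1 : ℤ) • x from (neg_one_zsmul x).symm, pairMod_smul, h0, mul_zero]⟩
  have hPnorm : ∀ {x : V}, P x → ip x x = 4 := fun {x} ⟨s, hs, e, _⟩ => e ▸ root_norm ⟨s, hs⟩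
  have hPht : ∀ {x : V}, P x → ip (fun _ => 1) x ≠ 0 := fun {x} ⟨s, hs, e, _⟩ => e ▸ root_ht ⟨s, hs⟩
  choose us hus using fun (s : ℕ) (hs : s < chevE7.nroots) => exists_refl hR hs
  let uo : {s : ℕ // s < chevE7.nroots ∧ pairMod v (col chevE7 s) = 0} → List (Fin chevE7.rank) := fun s =>
    us s.1 s.2.1
  -- products of reflections in the annihilating roots
  let Ws : Set (List (Fin chevE7.rank)) :=
    {u | ∃ L : List {s : ℕ // s < chevE7.nroots ∧ pairMod v (col chevE7 s) = 0},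
      u = (L.map uo).flatten}
  have hWfix : ∀ u ∈ Ws, v ∈ eigMod (wMat A7 u) 1 := by
    rintro u ⟨L, rfl⟩
    rw [mem_eigMod_iff_pairMod]
    induction L with
    | nil => intro c; simp [wMat]
    | cons s L ih =>
      intro c
      rw [List.map_cons, List.flatten_cons, wMat_append, ← Matrix.mulVec_mulVec]
      obtain ⟨m, -, hm⟩ := hus s.1 s.2.1 (wMat A7 (L.map uo).flatten *ᵥ c)
      rw [show uo s = us s.1 s.2.1 from rfl, hm, pairMod_sub, pairMod_smul, s.2.2, mul_zero, sub_zero, ih]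
  obtain ⟨Mc, hcard, hC⟩ := weylE7
  haveI : Finite Mc.Group := Nat.finite_of_card_ne_zero fun h => hr (by rw [← hcard, h]; exact dvd_zero r)
  obtain ⟨ρ, hρ⟩ := exists_rep hR det_ne hC
  set Xs : Set (Matrix (Fin chevE7.rank) (Fin chevE7.rank) ℤ) := (fun u => wMat A7 u) '' Ws
  have hXfin : Xs.Finite := (Set.finite_range ρ).subset (by
    rintro _ ⟨u, -, rfl⟩
    exact ⟨Chev.cElem Mc u, hρ u⟩)
  obtain ⟨Y, ⟨u₀, hu₀, rfl⟩, hmax⟩ := Set.exists_max_image Xs
    (fun Y => ip (fun _ => 1) ((Y * wMat A7 w) *ᵥ fun _ => 1)) hXfin ⟨_, [], ⟨[], rfl⟩, rfl⟩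
  set w' := u₀ ++ w with hw'
  set M' := wMat A7 w' with hM'
  have hMM' : M' = wMat A7 u₀ * wMat A7 w := wMat_append _ _ _
  have hv' : v ∈ eigMod M' ζ := by
    rw [mem_eigMod_iff_pairMod]
    intro c
    rw [hMM', ← Matrix.mulVec_mulVec, (mem_eigMod_iff_pairMod _ _ _).1 (hWfix u₀ hu₀), one_mul,
      (mem_eigMod_iff_pairMod _ _ _).1 hv]
  have hPM : ∀ {x : V}, P x → P (M' *ᵥ x) := fun {x} ⟨s, hs, e, h0⟩ =>
    ⟨act chevE7 w' s, hR.act_lt _ hs, by rw [col_act hR w' hs, e], by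
      rw [(mem_eigMod_iff_pairMod _ _ _).1 hv', h0, mul_zero]⟩
  have hpos : ∀ {x : V}, P x → 0 < ip (fun _ => 1) x → 0 < ip (fun _ => 1) (M' *ᵥ x) := fun {x} hx h1 => by
    obtain ⟨s, hs, e, h0⟩ := hPM hx
    obtain ⟨m, hm, hxm⟩ := hus s hs (M' *ᵥ fun _ => 1)
    have h2 := hmax (wMat A7 (us s hs ++ u₀))
      ⟨us s hs ++ u₀, by
        obtain ⟨L, hL⟩ := hu₀
        exact ⟨⟨s, hs, e ▸ h0⟩ :: L, by rw [List.map_cons, List.flatten_cons, ← hL]⟩, rfl⟩
    rw [wMat_append, mul_assoc, ← Matrix.mulVec_mulVec, ← hMM', hxm, ip_sub_right, ip_smul_right, e] at h2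
    rw [e, ip_wMat, ip_comm] at hm
    have h3 : 0 < m := by omega
    have hne := hPht (hPM hx)
    rcases lt_or_gt_of_ne hne with h | h
    · have := mul_neg_of_pos_of_neg h3 h
      linarith
    · exact h
  have hiter : ∀ {x : V}, P x → 0 < ip (fun _ => 1) x →
      ∀ k : ℕ, P (M' ^ k *ᵥ x) ∧ 0 < ip (fun _ => 1) (M' ^ k *ᵥ x) := fun {x} hx h1 k => by
    induction k with
    | zero => rw [pow_zero, Matrix.one_mulVec]; exact ⟨hx, h1⟩
    | succ k ih => rw [← mulVec_pow_succ]; exact ⟨hPM ih.1, hpos ih.1 ih.2⟩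
  obtain ⟨c, a, hc, ha, hchar'⟩ := exists_charpoly hr hR hζ hv' hv0
  set G : ℤ[X] := (X - C c) * (X ^ 2 + C a * X + 1) with hG
  have hGP : ∀ {x : V}, P x → aeval M' G *ᵥ x = 0 := fun {x} ⟨s, hs, e, h0⟩ =>
    e ▸ kill_root hr hR hζ hv' hv0 hc ha hchar' hs (e ▸ h0)
  have h12 : ∀ {x : V}, P x → M' ^ 12 *ᵥ x = x := fun {x} hx => by
    obtain ⟨K, hK⟩ : G ∣ X ^ 12 - 1 := by
      have h1 : ∀ e : ℤ, (e = 1 ∨ e = -1) → (X - C e : ℤ[X]) ∣ X ^ 2 - 1 := by
        rintro e (rfl | rfl)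
        · exact ⟨X + 1, by simp; ring⟩
        · exact ⟨X - 1, by simp; ring⟩
      rcases ha with rfl | rfl | rfl
      · exact (mul_dvd_mul (h1 c hc) dvd_rfl).trans ⟨(X ^ 2 - X + 1) * (X ^ 6 + 1), by simp; ring⟩
      · exact (mul_dvd_mul (h1 c hc) dvd_rfl).trans ⟨X ^ 8 + X ^ 4 + 1, by simp; ring⟩
      · exact (mul_dvd_mul (h1 c hc) dvd_rfl).trans ⟨(X ^ 2 + X + 1) * (X ^ 6 + 1), by simp; ring⟩
    have h := congrArg (fun p => aeval M' p *ᵥ x) hK
    simp only [map_sub, map_pow, aeval_X, map_one, Matrix.sub_mulVec, Matrix.one_mulVec] at h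
    rw [mul_comm G, map_mul, ← Matrix.mulVec_mulVec, hGP hx, Matrix.mulVec_zero, sub_eq_zero] at h
    exact h
  let Sx : V → V := fun x => ∑ k ∈ Finset.range 12, M' ^ k *ᵥ x
  have hSfix : ∀ {x : V}, P x → Sx (M' *ᵥ x) = Sx x ∧ M' *ᵥ Sx x = Sx x := fun {x} hx => by
    have e : ∑ k ∈ Finset.range 12, M' ^ (k + 1) *ᵥ x = Sx x := by
      have h := (Finset.sum_range_succ (fun k => M' ^ k *ᵥ x) 12).symm.trans
        (Finset.sum_range_succ' (fun k => M' ^ k *ᵥ x) 12)
      simp only [h12 hx, pow_zero, Matrix.one_mulVec] at h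
      exact (add_right_cancel h).symm
    refine ⟨?_, ?_⟩
    · refine (Finset.sum_congr rfl fun k _ => ?_).trans e
      rw [Matrix.mulVec_mulVec, ← pow_succ]
    · show M' *ᵥ (∑ k ∈ Finset.range 12, M' ^ k *ᵥ x) = _
      rw [Matrix.mulVec_sum]
      exact (Finset.sum_congr rfl fun k _ => mulVec_pow_succ M' k x).trans e
  have hSpos : ∀ {x : V}, P x → 0 < ip (fun _ => 1) x → 0 < ip (fun _ => 1) (Sx x) := fun {x} hx h1 => by
    show 0 < ip _ (∑ k ∈ Finset.range 12, M' ^ k *ᵥ x)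
    rw [ip_sum_right]
    exact Finset.sum_pos (fun k _ => (hiter hx h1 k).2) ⟨0, by simp⟩
  have hSne : ∀ {x : V}, P x → Sx x ≠ 0 := fun {x} hx h0 => by
    rcases lt_or_gt_of_ne (hPht hx) with h | h
    · have h2 := hSpos (hPneg hx) (by rw [ip_neg_right]; linarith)
      have e : Sx (-x) = -Sx x := by simp [Sx, Matrix.mulVec_neg]
      rw [e, h0, neg_zero, ip_zero_right] at h2
      exact lt_irrefl _ h2
    · have h2 := hSpos hx h
      rw [h0, ip_zero_right] at h2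
      exact lt_irrefl _ h2
  have hiso : ∀ (x y : V), ip (M' *ᵥ x) (M' *ᵥ y) = ip x y := ip_wMat w'
  -- each positive root is fixed or lies in an orthogonal triple
  have horbit : ∀ {x : V}, P x → 0 < ip (fun _ => 1) x → c = 1 ∧ (M' *ᵥ x = x ∨
      (a = 1 ∧ ip x (M' *ᵥ x) = 0 ∧ ip x (M' ^ 2 *ᵥ x) = 0)) := fun {x} hx hx1 => by
    have hc1 : c = 1 := by
      by_contra hne
      refine hSne hx ?_
      have hfix := (hSfix hx).2
      have hGS : aeval M' G *ᵥ Sx x = G.eval 1 • Sx x := aeval_mulVec_of_fixed hfix G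
      have hzero : aeval M' G *ᵥ Sx x = 0 := by
        show aeval M' G *ᵥ (∑ k ∈ Finset.range 12, M' ^ k *ᵥ x) = 0
        rw [Matrix.mulVec_sum]
        exact Finset.sum_eq_zero fun k _ => hGP (hiter hx hx1 k).1
      rw [hzero] at hGS
      refine (smul_eq_zero.1 hGS.symm).resolve_left ?_
      rcases hc with rfl | rfl
      · exact absurd rfl hne
      · rcases ha with rfl | rfl | rfl <;> simp [hG]
    refine ⟨hc1, ?_⟩
    subst hc1
    have hxn := hPnorm hx
    obtain ⟨hP1, hp1⟩ := hiter hx hx1 1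
    obtain ⟨hP2, hp2⟩ := hiter hx hx1 2
    rw [pow_one] at hP1 hp1
    obtain ⟨hle1, hge1, heq1, hneq1⟩ := ip_le hxn (hPnorm hP1)
    obtain ⟨hle2, hge2, -, hneq2⟩ := ip_le hxn (hPnorm hP2)
    obtain ⟨s, hs, es, hs0⟩ := hP1
    obtain ⟨m, hm, hxm⟩ := hus s hs x
    rw [es, ip_comm] at hm
    obtain ⟨s', hs', es', hs0'⟩ := hP2
    obtain ⟨m', hm', -⟩ := hus s' hs' x
    rw [es', ip_comm] at hm'
    have hne1 : m ≠ 1 := fun h => by
      rw [es, h, one_smul] at hxm
      obtain ⟨sx, hsx, ex, hx0⟩ := hx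
      have hPd : P (x - M' *ᵥ x) := ⟨act chevE7 (us s hs) sx, hR.act_lt _ hsx,
        by rw [col_act hR _ hsx, ex, hxm], by rw [pairMod_sub, hx0, hs0, sub_zero]⟩
      refine hSne hPd ?_
      have e : Sx (x - M' *ᵥ x) = Sx x - Sx (M' *ᵥ x) := by
        simp [Sx, Matrix.mulVec_sub, Finset.sum_sub_distrib]
      rw [e, (hSfix ⟨sx, hsx, ex, hx0⟩).1, sub_self]
    have hrec : ip x (M' ^ 2 *ᵥ x) = (2 - a) * ip x (M' *ᵥ x) - 4 * (1 - a) := by
      have h := congrArg (ip (M' *ᵥ x)) (hGP hx)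
      have hev : aeval M' G = M' ^ 3 + (a - 1) • M' ^ 2 + (1 - a) • M' - 1 := by
        rw [hG, show ((X - C 1) * (X ^ 2 + C a * X + 1) : ℤ[X]) =
          X ^ 3 + C (a - 1) * X ^ 2 + C (1 - a) * X - 1 by simp; ring, map_sub, map_add, map_add, map_mul, map_mul,
          aeval_C, aeval_C, map_pow, map_pow, aeval_X, map_one]
        simp only [Algebra.algebraMap_eq_smul_one, smul_mul_assoc, one_mul]
      rw [hev, ip_zero_right, Matrix.sub_mulVec, Matrix.add_mulVec, Matrix.add_mulVec, Matrix.smul_mulVec,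
        Matrix.smul_mulVec, Matrix.one_mulVec, ip_sub_right, ip_add_right, ip_add_right, ip_smul_right,
        ip_smul_right, hiso, hxn, ← mulVec_pow_succ M' 2, hiso] at h
      rw [show M' ^ 2 *ᵥ x = M' *ᵥ (M' *ᵥ x) by rw [Matrix.mulVec_mulVec, pow_two]] at h ⊢
      rw [hiso, ip_comm (M' *ᵥ x) x] at h
      linarith
    have hk : m = -2 ∨ m = -1 ∨ m = 0 ∨ m = 2 := by omega
    rcases hk with hk | hk | hk | hk
    · have := hneq1 (by omega)
      rw [this, ip_neg_right] at hp1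
      linarith
    · have h4 : m' ≠ -2 := fun h => by
        have := hneq2 (by omega)
        rw [this, ip_neg_right] at hp2
        linarith
      rcases ha with rfl | rfl | rfl
      · exfalso
        have hT : ip (x + M' *ᵥ x + M' ^ 2 *ᵥ x) (x + M' *ᵥ x + M' ^ 2 *ᵥ x) = 0 := by
          have e12 : ip (M' *ᵥ x) (M' ^ 2 *ᵥ x) = ip x (M' *ᵥ x) := by
            rw [← mulVec_pow_succ M' 1, pow_one, hiso]
          have h22 : ip (M' ^ 2 *ᵥ x) (M' ^ 2 *ᵥ x) = 4 := hPnorm ⟨s', hs', es', hs0'⟩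
          rw [ip_add_right, ip_add_right, ip_comm (_ + _) x, ip_comm (_ + _) (M' *ᵥ x),
            ip_comm (_ + _) (M' ^ 2 *ᵥ x), ip_add_right, ip_add_right, ip_add_right, ip_add_right,
            ip_add_right, ip_add_right, hiso, hxn, h22, ip_comm (M' *ᵥ x) x, ip_comm (M' ^ 2 *ᵥ x) x,
            ip_comm (M' ^ 2 *ᵥ x) (M' *ᵥ x), e12, hrec]
          omega
        have h0 := congrArg (ip (fun _ => 1)) (ip_def hT)
        rw [ip_add_right, ip_add_right, ip_zero_right] at h0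
        linarith
      · omega
      · omega
    · rcases ha with rfl | rfl | rfl
      · exact Or.inr ⟨rfl, by omega, by omega⟩
      · have := hneq2 (by omega)
        rw [this, ip_neg_right] at hp2
        linarith
      · omega
    · exact Or.inl (heq1 (by omega)).symm
  -- there is a moving root
  obtain ⟨x, hx, hx1, hmove⟩ : ∃ x, P x ∧ 0 < ip (fun _ => 1) x ∧ M' *ᵥ x ≠ x := by
    by_contra hall
    push Not at hall
    let f : Fin chevE7.nroots → ZMod r := fun s => pairMod v (col chevE7 s)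
    have hπ : Function.Bijective (hR.actF w') := by
      refine Finite.injective_iff_bijective.1 fun s t h => Fin.ext ?_
      have h' : act chevE7 w' s = act chevE7 w' t := congrArg Fin.val h
      rw [← hR.act_reverse_act w' s.2, h', hR.act_reverse_act w' t.2]
    have h12' := dvd_card_of_scale (Equiv.ofBijective _ hπ) f (by norm_num) hζ fun s => by
      show pairMod v (col chevE7 (act chevE7 w' s)) = _
      rw [col_act hR w' s.2, (mem_eigMod_iff_pairMod _ _ _).1 hv']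
    have hsum := Finset.card_filter_add_card_filter_not
      (s := (Finset.univ : Finset (Fin chevE7.nroots))) (fun s => f s ≠ 0)
    set Z := Finset.univ.filter fun s : Fin chevE7.nroots => ¬ f s ≠ 0 with hZ
    have hZcard : 6 ≤ Z.card := by
      simp only [Finset.card_univ, Fintype.card_fin] at hsum
      have : chevE7.nroots = 126 := by decide +kernel
      omega
    have hinjc : ∀ s t : Fin chevE7.nroots, col chevE7 s = col chevE7 t → s = t := fun s t e =>
      Fin.ext (col_inj hR det_ne s.2 t.2 e)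
    obtain ⟨z, hzZ⟩ : Z.Nonempty := Finset.card_pos.1 (by omega)
    have hPz : ∀ s ∈ Z, P (col chevE7 s) := fun s hs =>
      ⟨s, s.2, rfl, not_not.1 (Finset.mem_filter.1 hs).2⟩
    have habs : ∀ s ∈ Z, ∃ y, (col chevE7 s = y ∨ col chevE7 s = -y) ∧ P y ∧ 0 < ip (fun _ => 1) y := by
      intro s hs
      rcases lt_or_gt_of_ne (hPht (hPz s hs)) with h | h
      · exact ⟨-col chevE7 s, Or.inr (neg_neg _).symm, hPneg (hPz s hs), by rw [ip_neg_right]; linarith⟩
      · exact ⟨col chevE7 s, Or.inl rfl, hPz s hs, h⟩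
    obtain ⟨y₀, hy₀, hPy₀, hy₀1⟩ := habs z hzZ
    obtain ⟨hc1, -⟩ := horbit hPy₀ hy₀1
    subst hc1
    have hsub : Z.image (fun s : Fin chevE7.nroots => col chevE7 s) ⊆ {y₀, -y₀} := by
      intro y hy
      obtain ⟨s, hs, rfl⟩ := Finset.mem_image.1 hy
      obtain ⟨y, hy, hPy, hy1⟩ := habs s hs
      rcases eq_of_fixed (R := cyclotomic 12 ℤ * (X ^ 2 + C a * X + 1)) (by rw [hchar', hG]; ring)
        (by rw [cyclotomic_twelve]; rcases ha with rfl | rfl | rfl <;> simp)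
        (hall _ hPy₀ hy₀1) (hall _ hPy hy1) (hPnorm hPy₀) (hPnorm hPy) with rfl | rfl
      · rcases hy with e | e <;> simp [e]
      · rcases hy with e | e <;> simp [e]
    have h2 := (Finset.card_le_card hsub).trans Finset.card_le_two
    rw [Finset.card_image_of_injOn fun s _ t _ e => hinjc s t e] at h2
    omega
  obtain ⟨hc1, hor⟩ := horbit hx hx1
  obtain ⟨ha1, ho1, ho2⟩ := hor.resolve_left hmove
  subst hc1 ha1
  let γ : Fin 3 → V := fun i => M' ^ (i : ℕ) *ᵥ x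
  have hPγ : ∀ i, P (γ i) ∧ 0 < ip (fun _ => 1) (γ i) := fun i => hiter hx hx1 i
  have ho12 : ip (M' *ᵥ x) (M' ^ 2 *ᵥ x) = 0 := by rw [← mulVec_pow_succ M' 1, pow_one, hiso, ho1]
  have horth : ∀ i j : Fin 3, i ≠ j → ip (γ i) (γ j) = 0 := by
    have o01 : ip (γ 0) (γ 1) = 0 := by
      show ip (M' ^ 0 *ᵥ x) (M' ^ 1 *ᵥ x) = 0
      rw [pow_zero, pow_one, Matrix.one_mulVec, ho1]
    have o02 : ip (γ 0) (γ 2) = 0 := by
      show ip (M' ^ 0 *ᵥ x) (M' ^ 2 *ᵥ x) = 0
      rw [pow_zero, Matrix.one_mulVec, ho2]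
    have o12 : ip (γ 1) (γ 2) = 0 := by
      show ip (M' ^ 1 *ᵥ x) (M' ^ 2 *ᵥ x) = 0
      rw [pow_one, ho12]
    intro i j hij
    fin_cases i <;> fin_cases j
    exacts [absurd rfl hij, o01, o02, (ip_comm _ _).trans o01, absurd rfl hij, o12, (ip_comm _ _).trans o02,
      (ip_comm _ _).trans o12, absurd rfl hij]
  have hcop : IsCoprime (cyclotomic 12 ℚ) (((X - C 1) * (X ^ 2 + C 1 * X + 1) : ℤ[X]).map (Int.castRingHom ℚ)) := by
    refine ⟨C (1 / 2) * (X ^ 2 + 1), -(C (1 / 2) * (X ^ 3 + 1)), ?_⟩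
    rw [← map_cyclotomic 12 (Int.castRingHom ℚ), cyclotomic_twelve]
    simp only [map_one, one_mul, Polynomial.map_mul, Polynomial.map_sub, Polynomial.map_add, Polynomial.map_pow,
      Polynomial.map_X, Polynomial.map_one]
    have h2 : C (1 / 2 : ℚ) * 2 = 1 := by rw [← map_ofNat C 2, ← map_mul]; norm_num
    linear_combination h2
  have hG0 : aeval M' G ≠ 0 := fun h => by
    obtain ⟨k, hk⟩ := pairMod_ne hv0
    have h1 := pairMod_aeval hv' G k
    rw [h, Matrix.zero_mulVec, show pairMod v 0 = (0 : ZMod r) by simp [pairMod]] at h1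
    exact mul_ne_zero (eval_g_ne hζ hc ha) hk h1.symm
  have hcomplete : ∀ {y : V}, P y → ∃ i, y = γ i ∨ y = -γ i := by
    intro y hy
    have hz : (4 : ℤ) • y - ∑ i, ip (γ i) y • γ i = 0 := by
      refine eq_zero_of_orth facts.symB (fun z h => ip_def h) (d := 12) (by norm_num) hcop
        (M := M') (g := G) (γ := γ) (by rw [← hchar']; exact Matrix.aeval_self_charpoly _) hG0 (by decide +kernel)
        (fun i => hGP (hPγ i).1) (fun i h => by
          have := hPnorm (hPγ i).1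
          rw [h, ip_zero_right] at this
          norm_num at this) horth ?_ fun i => ?_
      · simp only [Matrix.mulVec_sub, Matrix.mulVec_smul, Matrix.mulVec_sum, hGP hy, fun i => hGP (hPγ i).1,
          smul_zero, Finset.sum_const_zero, sub_self]
      · show ip (γ i) _ = 0
        rw [ip_sub_right, ip_smul_right, ip_sum_right, Finset.sum_eq_single i
          (fun j _ hj => by rw [ip_smul_right, horth i j hj.symm, mul_zero]) (by simp), ip_smul_right,
          hPnorm (hPγ i).1]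
        ring
    have h1 := congrArg (ip y) hz
    rw [ip_sub_right, ip_smul_right, ip_zero_right, hPnorm hy, ip_sum_right] at h1
    simp only [ip_smul_right, Fin.sum_univ_three] at h1
    simp only [ip_comm y] at h1
    by_contra hno
    push Not at hno
    have hb : ∀ i, ip (γ i) y = -2 ∨ ip (γ i) y = 0 ∨ ip (γ i) y = 2 := fun i => by
      obtain ⟨h1, h2, h3, h4⟩ := ip_le (hPnorm (hPγ i).1) (hPnorm hy)
      obtain ⟨s, hs, es, -⟩ := (hPγ i).1
      obtain ⟨m, hm, -⟩ := hus s hs y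
      rw [es] at hm
      have : ip (γ i) y ≠ 4 := fun e => (hno i).1 (h3 e).symm
      have : ip (γ i) y ≠ -4 := fun e => (hno i).2 (h4 e)
      omega
    have hsq : ∀ i, ip (γ i) y * ip (γ i) y ≤ 4 := fun i => by
      rcases hb i with e | e | e <;> rw [e] <;> norm_num
    have := hsq 0
    have := hsq 1
    have := hsq 2
    linarith
  -- back to the original element
  have hγ3 : M' *ᵥ γ 2 = γ 0 := by
    show M' *ᵥ (M' ^ 2 *ᵥ x) = M' ^ 0 *ᵥ x
    rw [mulVec_pow_succ, pow_zero, Matrix.one_mulVec]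
    have h := hGP hx
    rw [hG, show ((X - C 1) * (X ^ 2 + C 1 * X + 1) : ℤ[X]) = X ^ 3 - 1 by simp; ring, map_sub, map_pow,
      aeval_X, map_one, Matrix.sub_mulVec, Matrix.one_mulVec, sub_eq_zero] at h
    exact h
  have hsign : ∀ u ∈ Ws, ∀ i, wMat A7 u *ᵥ γ i = γ i ∨ wMat A7 u *ᵥ γ i = -γ i := by
    rintro u ⟨L, rfl⟩
    induction L with
    | nil => intro i; left; simp [wMat]
    | cons s L ih =>
      intro i
      rw [List.map_cons, List.flatten_cons, wMat_append, ← Matrix.mulVec_mulVec]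
      obtain ⟨j, hj⟩ := hcomplete (⟨s.1, s.2.1, rfl, s.2.2⟩ : P (col chevE7 s.1))
      have key : wMat A7 (uo s) *ᵥ γ i = γ i ∨ wMat A7 (uo s) *ᵥ γ i = -γ i := by
        obtain ⟨m, hm, hxm⟩ := hus s.1 s.2.1 (γ i)
        rw [show uo s = us s.1 s.2.1 from rfl, hxm]
        have hn := hPnorm (hPγ i).1
        by_cases hij : j = i
        · subst hij
          right
          rcases hj with e | e
          · rw [e, hn] at hm
            rw [e, show m = 2 by omega, two_smul]; abel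
          · rw [e, ip_comm, ip_neg_right, hn] at hm
            rw [e, show m = -2 by omega, neg_smul, smul_neg, neg_neg, two_smul]; abel
        · left
          have : ip (col chevE7 s.1) (γ i) = 0 := by
            rcases hj with e | e
            · rw [e]; exact horth j i hij
            · rw [e, ip_comm, ip_neg_right, ip_comm, horth j i hij, neg_zero]
          rw [show m = 0 by omega, zero_smul, sub_zero]
      rcases ih i with h | h <;> rcases key with k | k <;> rw [h] <;>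
        simp only [Matrix.mulVec_neg, k, neg_neg] <;> simp
  set M := wMat A7 w with hMdef
  have hPM0 : ∀ {y : V}, P y → P (M *ᵥ y) := fun {y} ⟨s, hs, e, h0⟩ =>
    ⟨act chevE7 w s, hR.act_lt _ hs, by rw [col_act hR w hs, e], by
      rw [(mem_eigMod_iff_pairMod _ _ _).1 hv, h0, mul_zero]⟩
  have hstep : ∀ i : Fin 3, ∃ e : ℤ, (e = 1 ∨ e = -1) ∧ M *ᵥ γ i = e • γ (i + 1) := by
    intro i
    have h1 : wMat A7 u₀ *ᵥ (M *ᵥ γ i) = γ (i + 1) := by
      rw [Matrix.mulVec_mulVec, ← hMM']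
      fin_cases i
      · exact mulVec_pow_succ M' 0 x
      · exact mulVec_pow_succ M' 1 x
      · exact hγ3
    obtain ⟨j, hj⟩ := hcomplete (hPM0 (hPγ i).1)
    obtain ⟨e, he, hje⟩ : ∃ e : ℤ, (e = 1 ∨ e = -1) ∧ M *ᵥ γ i = e • γ j := by
      rcases hj with h | h
      · exact ⟨1, Or.inl rfl, by rw [h, one_smul]⟩
      · exact ⟨-1, Or.inr rfl, by rw [h, neg_one_zsmul]⟩
    refine ⟨e, he, hje.trans ?_⟩
    suffices j = i + 1 by rw [this]
    by_contra hne
    rw [hje, Matrix.mulVec_smul] at h1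
    have h2 := congrArg (ip (γ (i + 1))) h1
    rw [ip_smul_right, hPnorm (hPγ _).1] at h2
    rcases hsign u₀ hu₀ j with k | k <;> rw [k] at h2
    · rw [horth (i + 1) j (Ne.symm hne), mul_zero] at h2; norm_num at h2
    · rw [ip_neg_right, horth (i + 1) j (Ne.symm hne), neg_zero, mul_zero] at h2; norm_num at h2
  obtain ⟨e0, he0, h0⟩ := hstep 0
  obtain ⟨e1, he1, h1⟩ := hstep 1
  obtain ⟨e2, he2, h2⟩ := hstep 2
  obtain ⟨s₀, hs₀, es₀, hv₀⟩ := (hPγ 0).1
  have hε : e0 * e1 * e2 = 1 ∨ e0 * e1 * e2 = -1 := by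
    rcases he0 with rfl | rfl <;> rcases he1 with rfl | rfl <;> rcases he2 with rfl | rfl <;> norm_num
  have p1 : M ^ 1 *ᵥ γ 0 = e0 • γ 1 := by rw [pow_one]; exact h0
  have p2 : M ^ 2 *ᵥ γ 0 = (e0 * e1) • γ 2 := by
    rw [← mulVec_pow_succ M 1, p1, Matrix.mulVec_smul, h1, smul_smul]
    rfl
  have p3 : M ^ 3 *ᵥ γ 0 = (e0 * e1 * e2) • γ 0 := by
    rw [← mulVec_pow_succ M 2, p2, Matrix.mulVec_smul, h2, smul_smul]
    rfl
  have hpi : ∀ i : Fin 3, ∃ e : ℤ, (e = 1 ∨ e = -1) ∧ M ^ (i : ℕ) *ᵥ col chevE7 s₀ = e • γ i := by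
    intro i
    rw [es₀]
    fin_cases i
    · exact ⟨1, Or.inl rfl, by simp⟩
    · exact ⟨e0, he0, p1⟩
    · exact ⟨e0 * e1, by rcases he0 with rfl | rfl <;> rcases he1 with rfl | rfl <;> norm_num, p2⟩
  obtain ⟨c', a', hc', ha', hcharM⟩ := exists_charpoly hr hR hζ hv hv0
  have hca : c' = e0 * e1 * e2 ∧ a' = c' := by
    have hk := kill_root hr hR hζ hv hv0 hc' ha' hcharM hs₀ (es₀ ▸ hv₀)
    rw [es₀, show ((X - C c') * (X ^ 2 + C a' * X + 1) : ℤ[X]) =
        X ^ 3 + C (a' - c') * X ^ 2 + C (1 - c' * a') * X - C c' by simp; ring, map_sub, map_add, map_add,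
      map_mul, map_mul, aeval_C, aeval_C, aeval_C, map_pow, map_pow, aeval_X] at hk
    simp only [Algebra.algebraMap_eq_smul_one, smul_mul_assoc, one_mul, Matrix.sub_mulVec, Matrix.add_mulVec,
      Matrix.smul_mulVec, Matrix.one_mulVec] at hk
    rw [show wMat A7 w = M from rfl, p3, p2, h0] at hk
    simp only [smul_smul, zero_add] at hk
    have q0 := congrArg (ip (γ 0)) hk
    have q2 := congrArg (ip (γ 2)) hk
    simp only [ip_sub_right, ip_add_right, ip_smul_right, ip_zero_right, hPnorm (hPγ _).1,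
      horth 0 1 (by decide), horth 0 2 (by decide), horth 2 0 (by decide), horth 2 1 (by decide)] at q0 q2
    refine ⟨by linarith, ?_⟩
    have h12ne : e0 * e1 ≠ 0 := by
      rcases he0 with rfl | rfl <;> rcases he1 with rfl | rfl <;> norm_num
    have : (a' - c') * (e0 * e1) = 0 := by linarith
    have := (mul_eq_zero.1 this).resolve_right h12ne
    linarith
  refine ⟨s₀, e0 * e1 * e2, hs₀, hε, ?_, es₀ ▸ hv₀, by rw [es₀]; exact p3, ?_, ?_⟩
  · rw [hcharM, hca.2, hca.1]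
    congr 1
    rcases hε with h | h <;> rw [h] <;> simp <;> ring
  · intro i j hij
    obtain ⟨ei, -, hi⟩ := hpi i
    obtain ⟨ej, -, hj⟩ := hpi j
    rw [hi, hj, ip_smul_right, ip_comm, ip_smul_right, horth j i (Ne.symm hij), mul_zero, mul_zero]
  · intro s hs h
    obtain ⟨i, hi⟩ := hcomplete (⟨s, hs, rfl, h⟩ : P (col chevE7 s))
    refine ⟨i, ?_⟩
    obtain ⟨ei, hei, hi'⟩ := hpi i
    rw [hi']
    rcases hei with rfl | rfl <;> rcases hi with h | h <;> simp [h]

/-- A vector killed by the complementary factor is a combination of the three roots. -/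
theorem four_smul_of_kill (hr : ¬ r ∣ [2, 6, 8, 10, 12, 14, 18].prod) (hR : RootTable chevE7 len)
    (hζ : orderOf ζ = 12) {w : List (Fin chevE7.rank)} {v : Fin chevE7.rank → ZMod r}
    (hv : v ∈ eigMod (wMat A7 w) ζ) (hv0 : v ≠ 0) {s₀ : ℕ} {ε : ℤ} (hs₀ : s₀ < chevE7.nroots)
    (hε : ε = 1 ∨ ε = -1) (hchar : (wMat A7 w).charpoly = cyclotomic 12 ℤ * (X ^ 3 - C ε))
    (hpair : pairMod v (col chevE7 s₀) = 0)
    (horth : ∀ i j : Fin 3, i ≠ j →
      ip (wMat A7 w ^ (i : ℕ) *ᵥ col chevE7 s₀) (wMat A7 w ^ (j : ℕ) *ᵥ col chevE7 s₀) = 0)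
    {y : V} (hy : aeval (wMat A7 w) (X ^ 3 - C ε : ℤ[X]) *ᵥ y = 0) :
    (4 : ℤ) • y = ∑ i : Fin 3, ip (wMat A7 w ^ (i : ℕ) *ᵥ col chevE7 s₀) y •
      (wMat A7 w ^ (i : ℕ) *ᵥ col chevE7 s₀) := by
  set M := wMat A7 w
  let γ : Fin 3 → V := fun i => M ^ (i : ℕ) *ᵥ col chevE7 s₀
  have hpoly : ((X - C ε) * (X ^ 2 + C ε * X + 1) : ℤ[X]) = X ^ 3 - C ε := by
    rcases hε with rfl | rfl <;> simp <;> ring
  have ha : ε = 1 ∨ ε = 0 ∨ ε = -1 := by omega
  set g : ℤ[X] := X ^ 3 - C ε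
  have hkγ : ∀ i, aeval M g *ᵥ γ i = 0 := fun i => by
    have h := kill_root hr hR hζ hv hv0 hε ha (by rw [hpoly]; exact hchar) hs₀ hpair
    rw [hpoly] at h
    show aeval M g *ᵥ (M ^ (i : ℕ) *ᵥ col chevE7 s₀) = 0
    rw [Matrix.mulVec_mulVec, show aeval M g * M ^ (i : ℕ) = M ^ (i : ℕ) * aeval M g by
        rw [← aeval_X_pow (R := ℤ) M, ← map_mul, ← map_mul, mul_comm],
      ← Matrix.mulVec_mulVec, h, Matrix.mulVec_zero]
  have hn : ∀ i, ip (γ i) (γ i) = 4 := fun i => by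
    have e : ∀ k : ℕ, ip (M ^ k *ᵥ col chevE7 s₀) (M ^ k *ᵥ col chevE7 s₀) = 4 := fun k => by
      induction k with
      | zero => rw [pow_zero, Matrix.one_mulVec]; exact root_norm ⟨s₀, hs₀⟩
      | succ k ih => rw [← mulVec_pow_succ, ip_wMat, ih]
    exact e i
  have hcop : IsCoprime (cyclotomic 12 ℚ) (g.map (Int.castRingHom ℚ)) := by
    refine ⟨C (1 / 2) * (X ^ 2 + 1), -(C (1 / 2) * (X ^ 3 + C (ε : ℚ))), ?_⟩
    rw [← map_cyclotomic 12 (Int.castRingHom ℚ), cyclotomic_twelve]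
    simp only [g, Polynomial.map_sub, Polynomial.map_add, Polynomial.map_pow, Polynomial.map_X,
      Polynomial.map_one, Polynomial.map_C, eq_intCast]
    have h2 : C (1 / 2 : ℚ) * 2 = 1 := by rw [← map_ofNat C 2, ← map_mul]; norm_num
    rcases hε with rfl | rfl <;> simp only [Int.cast_one, Int.cast_neg, map_one, map_neg, Polynomial.map_one,
      Polynomial.map_neg] <;> linear_combination h2
  have hg0 : aeval M g ≠ 0 := fun h => by
    obtain ⟨k, hk⟩ := pairMod_ne hv0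
    have h1 := pairMod_aeval hv g k
    rw [h, Matrix.zero_mulVec, show pairMod v 0 = (0 : ZMod r) by simp [pairMod], ← hpoly] at h1
    exact mul_ne_zero (eval_g_ne hζ hε ha) hk h1.symm
  have hz0 : aeval M (cyclotomic 12 ℤ * g) = 0 := by rw [← hchar, Matrix.aeval_self_charpoly]
  have hz : (4 : ℤ) • y - ∑ i, ip (γ i) y • γ i = 0 := by
      refine eq_zero_of_orth facts.symB (fun z h => ip_def h) (d := 12) (by norm_num) hcop hz0 hg0
        (by decide +kernel) hkγ (fun i h => by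
          have := hn i
          rw [h, ip_zero_right] at this
          norm_num at this) horth ?_ fun i => ?_
      · simp only [Matrix.mulVec_sub, Matrix.mulVec_smul, Matrix.mulVec_sum, hy, hkγ,
          smul_zero, Finset.sum_const_zero, sub_self]
      · show ip (γ i) _ = 0
        rw [ip_sub_right, ip_smul_right, ip_sum_right, Finset.sum_eq_single i
          (fun j _ hj => by rw [ip_smul_right, show ip (γ i) (γ j) = 0 from horth i j hj.symm, mul_zero])
          (by simp), ip_smul_right, hn]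
        ring
  exact sub_eq_zero.1 hz

/-- The sign is determined by any annihilated root whose image under the cube is proportional to it. -/
theorem eps_eq {M : Matrix (Fin chevE7.rank) (Fin chevE7.rank) ℤ} {x₀ x : V} {ε e : ℤ} (h0 : x ≠ 0)
    (h3 : M ^ 3 *ᵥ x₀ = ε • x₀) (h : ∃ i : Fin 3, x = M ^ (i : ℕ) *ᵥ x₀ ∨ x = -(M ^ (i : ℕ) *ᵥ x₀))
    (he : M ^ 3 *ᵥ x = e • x) : ε = e := by
  obtain ⟨i, hi⟩ := h
  have hk : M ^ 3 *ᵥ (M ^ (i : ℕ) *ᵥ x₀) = ε • (M ^ (i : ℕ) *ᵥ x₀) := by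
    rw [Matrix.mulVec_mulVec, ← pow_add, add_comm, pow_add, ← Matrix.mulVec_mulVec, h3, Matrix.mulVec_smul]
  have : M ^ 3 *ᵥ x = ε • x := by
    rcases hi with rfl | rfl
    · exact hk
    · rw [Matrix.mulVec_neg, hk, smul_neg]
  exact smul_left_injective ℤ h0 (this.symm.trans he)

/-- An element fixing the vector and the three roots is the identity. -/
theorem eq_one_of_fix (hr : ¬ r ∣ [2, 6, 8, 10, 12, 14, 18].prod) (hR : RootTable chevE7 len)
    (hζ : orderOf ζ = 12) {w u : List (Fin chevE7.rank)} {v : Fin chevE7.rank → ZMod r}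
    (hv : v ∈ eigMod (wMat A7 w) ζ) (hv0 : v ≠ 0) {s₀ : ℕ} {ε : ℤ} (hs₀ : s₀ < chevE7.nroots)
    (hε : ε = 1 ∨ ε = -1) (hchar : (wMat A7 w).charpoly = cyclotomic 12 ℤ * (X ^ 3 - C ε))
    (hpair : pairMod v (col chevE7 s₀) = 0)
    (horth : ∀ i j : Fin 3, i ≠ j →
      ip (wMat A7 w ^ (i : ℕ) *ᵥ col chevE7 s₀) (wMat A7 w ^ (j : ℕ) *ᵥ col chevE7 s₀) = 0)
    (hfix : v ∈ eigMod (wMat A7 u) 1)
    (hγ : ∀ i : Fin 3, wMat A7 u *ᵥ (wMat A7 w ^ (i : ℕ) *ᵥ col chevE7 s₀) =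
      wMat A7 w ^ (i : ℕ) *ᵥ col chevE7 s₀) : wMat A7 u = 1 := by
  set M := wMat A7 w
  set U := wMat A7 u
  let γ : Fin 3 → V := fun i => M ^ (i : ℕ) *ᵥ col chevE7 s₀
  have hpoly : ((X - C ε) * (X ^ 2 + C ε * X + 1) : ℤ[X]) = X ^ 3 - C ε := by
    rcases hε with rfl | rfl <;> simp <;> ring
  have ha : ε = 1 ∨ ε = 0 ∨ ε = -1 := by omega
  have hUg := fix_image hr hR hζ hv hv0 hε ha (by rw [hpoly]; exact hchar) hfix
  rw [hpoly] at hUg
  set g : ℤ[X] := X ^ 3 - C ε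
  have hz0 : aeval M (cyclotomic 12 ℤ * g) = 0 := by rw [← hchar, Matrix.aeval_self_charpoly]
  have hkill : ∀ y : V, aeval M g *ᵥ y = 0 → U *ᵥ y = y := fun y hy => by
    have hz : (4 : ℤ) • y = ∑ i, ip (γ i) y • γ i :=
      four_smul_of_kill hr hR hζ hv hv0 hs₀ hε hchar hpair horth hy
    have h := congrArg (U *ᵥ ·) hz
    simp only [Matrix.mulVec_smul, Matrix.mulVec_sum, γ, hγ] at h
    exact smul_right_injective _ (four_ne_zero : (4 : ℤ) ≠ 0) (h.trans hz.symm)
  have hall : ∀ x : V, U *ᵥ x = x := fun x => by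
    have hbez : ((X ^ 2 + 1) * cyclotomic 12 ℤ - (X ^ 3 + C ε) * g : ℤ[X]) = C 2 := by
      rw [cyclotomic_twelve]
      rcases hε with rfl | rfl <;> simp [g] <;> ring
    have h := congrArg (fun p => aeval M p *ᵥ x) hbez
    simp only [map_sub, Matrix.sub_mulVec] at h
    rw [mul_comm (X ^ 3 + C ε) g, map_mul (aeval M) g, ← Matrix.mulVec_mulVec, aeval_C,
      Algebra.algebraMap_eq_smul_one, Matrix.smul_mulVec, Matrix.one_mulVec] at h
    have h1 : U *ᵥ (aeval M ((X ^ 2 + 1) * cyclotomic 12 ℤ) *ᵥ x) =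
        aeval M ((X ^ 2 + 1) * cyclotomic 12 ℤ) *ᵥ x := by
      refine hkill _ ?_
      rw [Matrix.mulVec_mulVec, ← map_mul, mul_comm g, mul_assoc, map_mul, hz0, mul_zero, Matrix.zero_mulVec]
    have h2 := congrArg (U *ᵥ ·) h
    simp only [Matrix.mulVec_sub, Matrix.mulVec_smul, h1] at h2
    rw [Matrix.mulVec_mulVec _ U (aeval M g), hUg, h] at h2
    exact (smul_right_injective _ (two_ne_zero : (2 : ℤ) ≠ 0) h2).symm
  refine Matrix.ext fun i k => ?_
  have := congrFun (hall (Pi.single k 1)) i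
  simpa [Matrix.mulVec_single_one, Matrix.one_apply, Pi.single_apply] using this

end Cfsg.Agent.LieTori.E7
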