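import Cfsg.Agent.LieTori.Frame
import Cfsg.Agent.LieTori.E7Triple
import Cfsg.Agent.LieTori.E6Torus

/-!
A twisted frame in the universal group of type `E7` whose Weyl element has an eigenvalue that is a primitive
twelfth root of unity and inverts the roots of the orthogonal triple after three steps (owner: helper35).
-/

set_option autoImplicit false
set_option linter.style.haveILetI false

namespace Cfsg.Agent.LieTori

open Cfsg.Lie Cfsg.Agent.ChevGrp Matrix
open scoped MatrixGroups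

/-- An embedding of root data gives a homomorphism of the universal groups. -/
theorem exists_embed_st {D D' : ChevalleyDatum} {K : Type*} [Field K] [Finite K] {ι : ℕ → ℕ}
    {σ : Fin D.rank → Fin D'.rank} (hS : Rules D K) (hS' : Rules D' K)
    (hE : CentralExt.Embed.EmbedOK D D' ι σ) :
    ∃ Φ : D.SteinbergGroup K →* D'.SteinbergGroup K,
      ∀ r < D.nroots, ∀ t : K, Φ ((stSys hS).x r t) = (stSys hS').x (ι r) t := by
  obtain ⟨len, hR⟩ := hS.root
  let T := stSys hS'
  let f : Fin D.nroots × K → D'.SteinbergGroup K := fun p => T.x (ι p.1) p.2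
  let g : ℕ → K → D'.SteinbergGroup K := fun r t => if r < D.nroots then T.x (ι r) t else 1
  have hX : ∀ (r : ℕ) (t : K), FreeGroup.lift f (D.stX r t) = g r t := fun r t => by
    by_cases hr : r < D.nroots <;> simp [g, hr, ChevalleyDatum.stX, f]
  have hkill : ∀ z ∈ D.steinbergRelsAB K, FreeGroup.lift f z = 1 := by
    rintro z (⟨r, t₁, t₂, hr, rfl⟩ | ⟨r, s, t, u, hr, hs, h1, h2, rfl⟩)
    · simp only [map_mul, map_inv, hX, g, hr, if_true]
      exact mul_inv_eq_one.2 (T.x_add _ (hE.lt ⟨r, hr⟩) t₁ t₂)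
    · simp only [map_mul, map_inv, hX, stWord_lift _ _ hX]
      obtain ⟨h1', h2', hterm⟩ := hE.comm ⟨r, hr⟩ ⟨s, hs⟩ h1 h2
      have e : ((D.commWord K r s t u).map fun p => g p.1 p.2).prod =
          ((D'.commWord K (ι r) (ι s) t u).map fun p => T.x p.1 p.2).prod := by
        simp only [ChevalleyDatum.commWord, hterm, List.map_map]
        refine congrArg List.prod (List.map_congr_left fun c hc' => ?_)
        simp [g, (hR.commTerms_vec r hr s hs h1 h2 c hc').1]
      rw [e]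
      simp only [g, hr, hs, if_true]
      rw [mul_inv_eq_one, mul_assoc, mul_assoc,
        T.comm (ι r) (hE.lt ⟨r, hr⟩) (ι s) (hE.lt ⟨s, hs⟩) h1' h2' t u]
      simp [mul_assoc]
  obtain ⟨e, he⟩ := CentralExt.Cover.exists_equiv_steinberg (D := D) hS
  refine ⟨(PresentedGroup.toGroup hkill).comp e.symm.toMonoidHom, fun r hr t => ?_⟩
  show PresentedGroup.toGroup hkill (e.symm (D.stGen K r t)) = _
  rw [← he r t, e.symm_apply_apply]
  simp only [ChevalleyDatum.scGen, ChevalleyDatum.stX, dif_pos hr]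
  exact PresentedGroup.toGroup.of _

theorem x_param_inj {D : ChevalleyDatum} {K : Type*} [Field K] {G : Type*} [Group G] (S : Sys D K G)
    {len : ℕ → ℕ} (hR : RootTable D len) {r : ℕ} (hr : r < D.nroots) {t u : K} (h : S.x r t = S.x r u) :
    t = u := by
  obtain ⟨i, hi⟩ := Sys.exists_coroot_ne (F := K) hR hr
  have e := congrArg S.mat h
  rw [S.mat_x hr, S.mat_x hr] at e
  have h1 : ∀ a : K, D.x K r a (Sum.inl i) (Sum.inr ⟨D.neg r, hR.neg_lt r hr⟩) =
      (((D.coroot.getD r #[]).getD i.val 0 : ℤ) : K) * a := fun a => by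
    have hn : D.negIdx.getD r 0 ≠ r := hR.neg_ne hr
    simp [ChevalleyDatum.x, hr, ChevalleyDatum.xMat, ChevalleyDatum.neg, Fin.ext_iff,
      -Array.getD_eq_getD_getElem?, hn]
  exact mul_left_cancel₀ hi ((h1 t).symm.trans ((congrFun (congrFun e _) _).trans (h1 u)))

namespace E7

open Polynomial (C X)

variable {len : ℕ → ℕ}

theorem ip_neg_left (x y : V) : ip (-x) y = -ip x y := by rw [ip_comm, ip_neg_right, ip_comm]

/-- Root elements of orthogonal roots commute. -/
theorem x_commute {K : Type*} [Field K] {G : Type*} [Group G] (S : Sys chevE7 K G) (hR : RootTable chevE7 len)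
    {r s : ℕ} (hr : r < chevE7.nroots) (hs : s < chevE7.nroots)
    (h : ip (col chevE7 r) (col chevE7 s) = 0) (t u : K) : Commute (S.x r t) (S.x s u) := by
  have h1 : s ≠ r := fun e => by
    rw [e, root_norm ⟨r, hr⟩] at h
    norm_num at h
  have h2 : s ≠ chevE7.neg r := fun e => by
    rw [e, col_neg hR hr, ip_neg_right, root_norm ⟨r, hr⟩] at h
    norm_num at h
  have hnil : chevE7.commTerms r s = [] := by
    refine List.eq_nil_iff_forall_not_mem.2 fun c hc => ?_
    obtain ⟨hlt, hi, hj, hv⟩ := hR.commTerms_vec r hr s hs h1 h2 c hc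
    have hcol : col chevE7 c.1 = (c.2.2.1 : ℤ) • col chevE7 r + (c.2.2.2 : ℤ) • col chevE7 s := by
      funext j
      apply mul_left_cancel₀ (show (6 : ℤ) ≠ 0 by norm_num)
      simp only [Pi.add_apply, Pi.smul_apply, smul_eq_mul, col]
      rw [hR.cartan_vec j j.2 _ hlt, mul_add, mul_left_comm (6 : ℤ), mul_left_comm (6 : ℤ),
        hR.cartan_vec j j.2 _ hr, hR.cartan_vec j j.2 _ hs, hv, Finset.mul_sum, Finset.mul_sum,
        ← Finset.sum_add_distrib]
      exact Finset.sum_congr rfl fun i _ => by simp only [Pi.add_apply, Pi.smul_apply, smul_eq_mul]; ring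
    have hn := root_norm ⟨c.1, hlt⟩
    simp only [hcol] at hn
    rw [ip_add_right, ip_smul_right, ip_smul_right, ip_comm _ (col chevE7 r), ip_comm _ (col chevE7 s),
      ip_add_right, ip_add_right, ip_smul_right, ip_smul_right, ip_smul_right, ip_smul_right,
      ip_comm (col chevE7 s) (col chevE7 r), h, root_norm ⟨r, hr⟩, root_norm ⟨s, hs⟩] at hn
    have hi' : (1 : ℤ) ≤ c.2.2.1 := by exact_mod_cast hi
    have hj' : (1 : ℤ) ≤ c.2.2.2 := by exact_mod_cast hj
    nlinarith
  have e := S.comm r hr s hs h1 h2 t u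
  simp only [ChevalleyDatum.commWord, hnil, List.map_nil, List.prod_nil, mul_one] at e
  exact e.symm

/-- The extension by a neutral value at the last node. -/
def ext6 {α : Type*} (z : α) (c : Fin chevE6.rank → α) : Fin chevE7.rank → α :=
  fun k => if h : k.val < 6 then c ⟨k.val, h⟩ else z

universe u

theorem exists_frame_e7 {F : Type u} [Field F] [Fintype F] {q : ℕ} (hq : Fintype.card F = q) (K : Type)
    [Field K] [Fintype K] (j : F →+* K) (σ : K →+* K) (hσ : ∀ a : K, σ a = a ^ q)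
    (hcardK : Nat.card K = q ^ 12) (hS : Rules chevE7 K) (hR : RootTable chevE7 len) :
    ∃ (r : ℕ) (_ : Fact r.Prime) (γu : chevE7.SteinbergGroup K) (w : List (Fin chevE7.rank))
      (c₁ : Fin chevE7.rank → Kˣ) (vr : Fin chevE7.rank → ZMod r),
      ¬ r ∣ [2, 6, 8, 10, 12, 14, 18].prod ∧ orderOf (q : ZMod r) = 12 ∧ vr ≠ 0 ∧
        vr ∈ eigMod (wMat A7 w) (q : ZMod r)⁻¹ ∧
        stFr hS σ γu = (stSys hS).nW w * (stSys hS).tau hS hR (stSys_HMul hS hR) c₁ * γu := by
  classical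
  have hq1 : 1 < q := hq ▸ Fintype.one_lt_card
  have hS6 : Rules chevE6 K := Chev.rules_of_mem K (by simp : chevE6 ∈ _)
  obtain ⟨len6, hR6⟩ := hS6.root
  obtain ⟨r, hr, γ6, w, c₁, vr, hrW, hord, hv0, heig, hframe⟩ := exists_frame (D := chevE6)
    (L := [2, 5, 6, 8, 9, 12]) (d := 12) detE6' (by decide +kernel) (by norm_num) ⟨12, by simp, dvd_rfl⟩
    (fun r hr h => by
      obtain ⟨e, he, hre⟩ := (Prime.dvd_prod_iff hr.prime).1 h
      simp only [List.mem_cons, List.not_mem_nil, or_false] at he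
      exact (Nat.le_of_dvd (by omega) hre).trans (by omega))
    hq (orderE6 F) K (orderE6 K) (by decide +kernel) (by decide +kernel) (by norm_num) j σ hσ hcardK hS6 hR6
    (tau_injective_of_embed hS6 hS CentralExt.Embed.embedOK_E6 CentralExt.Embed.leftInverse_E6 hR6)
    (fun r _ hr ζ hζ w v hv hv0 => ⟨(e6_spec hr hζ w hv hv0).1, (e6_spec hr hζ w hv hv0).2.1⟩)
  have hdr : 12 < r := Arith.lt_of_orderOf_eq (by norm_num) hord
  have hrW7 : ¬ r ∣ [2, 6, 8, 10, 12, 14, 18].prod := fun h => by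
    obtain ⟨e, he, hre⟩ := (Prime.dvd_prod_iff hr.out.prime).1 h
    simp only [List.mem_cons, List.not_mem_nil, or_false] at he
    have h7 : e ∣ Nat.factorial 7 := by
      rcases he with rfl | rfl | rfl | rfl | rfl | rfl | rfl <;> decide +kernel
    have := (Nat.Prime.dvd_factorial hr.out).1 (hre.trans h7)
    omega
  have hq0 : (q : ZMod r) ≠ 0 := fun h => by
    rw [h, orderOf_zero] at hord
    norm_num at hord
  have hrq : r ∣ q ^ 12 - 1 := by
    rw [← ZMod.natCast_eq_zero_iff, Nat.cast_sub (Nat.one_le_pow _ _ (by omega)), Nat.cast_pow, Nat.cast_one,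
      ← hord, pow_orderOf_eq_one, sub_self]
  obtain ⟨g, hg⟩ := SylowLarge.exists_zmod_hom_units (K := K) (M := r) (by rw [hcardK]; exact hrq)
  -- the relation in the smaller group
  let U6 := stSys hS6
  let T6 := U6.tau hS6 hR6 (stSys_HMul hS6 hR6)
  have hrev : ∀ c, pairMod vr (wMat (cartanMat chevE6) w.reverse *ᵥ c) = (q : ZMod r) * pairMod vr c := by
    intro c
    have hc := (mem_eigMod_iff_pairMod _ _ _).1 heig (wMat (cartanMat chevE6) w.reverse *ᵥ c)
    rw [Matrix.mulVec_mulVec, wMat_mul_reverse _ (cartanMat_self hR6), Matrix.one_mulVec] at hc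
    rw [hc, ← mul_assoc, mul_inv_cancel₀ hq0, one_mul]
  have hrel : U6.nW w * T6 (fun k => g (Multiplicative.ofAdd (vr k))) * (U6.nW w)⁻¹ =
      T6 (fun k => g (Multiplicative.ofAdd (vr k))) ^ q := by
    rw [← map_pow]
    refine (nW_conj_tau U6 hS6 hR6 _ w _).trans (congrArg T6 (funext fun k => ?_))
    rw [prod_zpow_hom, Pi.pow_apply, ← map_pow, ← ofAdd_nsmul, nsmul_eq_mul]
    refine congrArg (fun z => g (Multiplicative.ofAdd z)) ?_
    have := hrev (Pi.single k 1)
    rw [pairMod_single, Matrix.mulVec_single_one] at this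
    simpa [pairMod] using this
  -- the homomorphism
  obtain ⟨Φ, hΦ⟩ := exists_embed_st hS6 hS CentralExt.Embed.embedOK_E6
  let U := stSys hS
  let T := U.tau hS hR (stSys_HMul hS hR)
  have hlt := CentralExt.Embed.embedOK_E6.lt
  have hn : ∀ (i : Fin chevE6.rank) (t : K),
      Φ (U6.nEl (chevE6.simple i) t) = U.nEl (chevE7.simple (CentralExt.Embed.sigmaE6 i)) t := fun i t => by
    obtain ⟨s1, s2⟩ := CentralExt.Embed.embedOK_E6.simple i
    simp [Sys.nEl, U6, U, hΦ _ (hR6.simple_lt i i.2), hΦ _ (hR6.neg_lt _ (hR6.simple_lt i i.2)), s1, s2,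
      -List.getD_eq_getElem?_getD]
  have hnW : ∀ v, Φ (U6.nW v) = U.nW (v.map CentralExt.Embed.sigmaE6) := fun v => by
    induction v with
    | nil => simp [Sys.nW_nil]
    | cons i w ih => rw [List.map_cons, Sys.nW_cons, Sys.nW_cons, map_mul, ih, Sys.nI, Sys.nI, hn]
  have hT : ∀ c, Φ (T6 c) = T (ext6 1 c) := by
    let E : (Fin chevE6.rank → Kˣ) →* (Fin chevE7.rank → Kˣ) :=
      { toFun := ext6 1
        map_one' := funext fun k => by simp [ext6]
        map_mul' := fun a b => funext fun k => by by_cases h : k.val < 6 <;> simp [ext6, h] }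
    have he : Φ.comp T6 = T.comp E := by
      refine MonoidHom.pi_ext fun i u => ?_
      have e : E (Pi.mulSingle i u) = Pi.mulSingle (CentralExt.Embed.sigmaE6 i) u := by
        funext k
        by_cases h : k.val < 6
        · simp [E, ext6, h, Pi.mulSingle_apply, CentralExt.Embed.sigmaE6, Fin.ext_iff]
        · have hne : k ≠ CentralExt.Embed.sigmaE6 i := fun e => h (by rw [e]; exact i.isLt)
          simp [E, ext6, h, Pi.mulSingle_eq_of_ne hne]
      simp only [MonoidHom.comp_apply, e, T6, T, Sys.tau, MonoidHom.noncommPiCoprod_mulSingle]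
      show Φ (U6.hEl (chevE6.simple i) (u : K)) = U.hEl (chevE7.simple (CentralExt.Embed.sigmaE6 i)) (u : K)
      simp [Sys.hEl, hn]
    exact fun c => DFunLike.congr_fun he c
  have hfr : ∀ z, Φ (stFr hS6 σ z) = stFr hS σ (Φ z) := by
    have he : Φ.comp (stFr hS6 σ) = (stFr hS σ).comp Φ := by
      refine PresentedGroup.ext fun p => ?_
      have hx : PresentedGroup.of p = U6.x p.1 p.2 := by
        show _ = chevE6.stGen K p.1 p.2
        simp [ChevalleyDatum.stGen, ChevalleyDatum.stX, PresentedGroup.of]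
      rw [MonoidHom.comp_apply, MonoidHom.comp_apply, hx, stFr_x hS6 σ p.1.2, hΦ _ p.1.2, hΦ _ p.1.2,
        stFr_x hS σ (hlt p.1)]
    exact fun z => DFunLike.congr_fun he z
  refine ⟨r, hr, Φ γ6, w.map CentralExt.Embed.sigmaE6, ext6 1 c₁, ext6 0 vr, hrW7, hord, fun h => hv0 ?_, ?_, ?_⟩
  · funext i
    have := congrFun h (CentralExt.Embed.sigmaE6 i)
    simpa [ext6, CentralExt.Embed.sigmaE6, show i.val < 6 from i.isLt] using this
  · have hext : ext6 1 (fun k => g (Multiplicative.ofAdd (vr k))) =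
        fun k => g (Multiplicative.ofAdd (ext6 0 vr k)) := funext fun k => by
      by_cases h : k.val < 6 <;> simp [ext6, h]
    have h1 := congrArg Φ hrel
    rw [map_mul, map_mul, map_inv, map_pow, hnW, hT, hext] at h1
    have h2 : (glSys hS).nW (w.map CentralExt.Embed.sigmaE6) *
        (glSys hS).tau hS hR (glSys_HMul hS hR) (fun k => g (Multiplicative.ofAdd (ext6 0 vr k))) *
          ((glSys hS).nW (w.map CentralExt.Embed.sigmaE6))⁻¹ =
        (glSys hS).tau hS hR (glSys_HMul hS hR) (fun k => g (Multiplicative.ofAdd (ext6 0 vr k))) ^ q := by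
      rw [← θ_nW hS hR, ← θ_tau hS hR, ← map_inv, ← map_mul, ← map_mul, ← map_pow]
      exact congrArg U.θ h1
    refine eigen_of_conj_nW (glSys hS) hS hR (glSys_HMul hS hR) ?_ g hg hq0 h2
    rw [detE7', Int.cast_natCast, Ne, ZMod.natCast_eq_zero_iff]
    exact fun h => hrW7 (h.trans (by decide +kernel))
  · rw [← hfr, hframe, map_mul, map_mul, hnW, hT]

theorem exists_frame_neg {F : Type u} [Field F] [Fintype F] {q : ℕ} (hq : Fintype.card F = q) (K : Type)
    [Field K] [Fintype K] (j : F →+* K) (σ : K →+* K) (hσ : ∀ a : K, σ a = a ^ q)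
    (hcardK : Nat.card K = q ^ 12) (hS : Rules chevE7 K) (hR : RootTable chevE7 len) :
    ∃ (r : ℕ) (_ : Fact r.Prime) (γu : chevE7.SteinbergGroup K) (w : List (Fin chevE7.rank))
      (c₁ : Fin chevE7.rank → Kˣ) (vr : Fin chevE7.rank → ZMod r) (s : ℕ),
      ¬ r ∣ [2, 6, 8, 10, 12, 14, 18].prod ∧ orderOf (q : ZMod r) = 12 ∧ vr ≠ 0 ∧
        vr ∈ eigMod (wMat A7 w) (q : ZMod r)⁻¹ ∧
        stFr hS σ γu = (stSys hS).nW w * (stSys hS).tau hS hR (stSys_HMul hS hR) c₁ * γu ∧
        s < chevE7.nroots ∧ pairMod vr (col chevE7 s) = 0 ∧ wMat A7 w ^ 3 *ᵥ col chevE7 s = -col chevE7 s := by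
  classical
  have hq1 : 1 < q := hq ▸ Fintype.one_lt_card
  obtain ⟨r, hr, γu, w, c₁, vr, hrW, hord, hv0, heig, hframe⟩ := exists_frame_e7 hq K j σ hσ hcardK hS hR
  have hζ : orderOf (q : ZMod r)⁻¹ = 12 := by
    rw [← hord, orderOf_eq_orderOf_iff]
    intro k
    rw [inv_pow, inv_eq_one]
  obtain ⟨s₀, ε, hs₀, hε, -, hpair, hcube, horth, -⟩ := exists_triple hrW hR hζ heig hv0
  rcases hε with rfl | rfl
  swap
  · exact ⟨r, hr, γu, w, c₁, vr, s₀, hrW, hord, hv0, heig, hframe, hs₀, hpair, by rw [hcube, neg_one_zsmul]⟩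
  rw [one_smul] at hcube
  -- the inverse Frobenius
  have hit : ∀ n : ℕ, ∃ ρ : K →+* K, ∀ a, ρ a = a ^ q ^ n := fun n => by
    induction n with
    | zero => exact ⟨RingHom.id K, fun a => by simp⟩
    | succ n ih =>
      obtain ⟨ρ, hρ⟩ := ih
      exact ⟨σ.comp ρ, fun a => by rw [RingHom.comp_apply, hρ, hσ, ← pow_mul, ← pow_succ]⟩
  obtain ⟨σi, hσi⟩ := hit 11
  have hK12 : ∀ a : K, a ^ q ^ 12 = a := fun a => by
    rw [← hcardK, Nat.card_eq_fintype_card, FiniteField.pow_card]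
  have hmod : ∀ (n : ℕ) (a : K), a ^ q ^ (n + 12) = a ^ q ^ n := fun n a => by
    rw [pow_add, pow_mul, hK12]
  have hσiσ : ∀ a, σi (σ a) = a := fun a => by rw [hσi, hσ, ← pow_mul, ← pow_succ', hK12]
  have hσσi : ∀ a, σ (σi a) = a := fun a => by rw [hσi, hσ, ← pow_mul, ← pow_succ, hK12]
  let U := stSys hS
  let T := U.tau hS hR (stSys_HMul hS hR)
  let φr := stFr hS σ
  let φi := stFr hS σi
  have hgen : ∀ (f : chevE7.SteinbergGroup K →* chevE7.SteinbergGroup K),
      (∀ s < chevE7.nroots, ∀ t, f (U.x s t) = U.x s t) → ∀ z, f z = z := by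
    intro f hf z
    have he : f = MonoidHom.id _ := by
      refine PresentedGroup.ext fun p => ?_
      have hx : PresentedGroup.of p = U.x p.1 p.2 := by
        show _ = chevE7.stGen K p.1 p.2
        simp [ChevalleyDatum.stGen, ChevalleyDatum.stX, PresentedGroup.of]
      rw [hx]
      exact hf _ p.1.2 _
    rw [he]; rfl
  have hir : ∀ z, φi (φr z) = z := hgen (φi.comp φr) fun s hs t => by
    show φi (φr _) = _
    rw [stFr_x hS σ hs, stFr_x hS σi hs, hσiσ]
  have hri : ∀ z, φr (φi z) = z := hgen (φr.comp φi) fun s hs t => by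
    show φr (φi _) = _
    rw [stFr_x hS σi hs, stFr_x hS σ hs, hσσi]
  have hi12 : ∀ z, φi^[12] z = z := by
    let f : chevE7.SteinbergGroup K →* chevE7.SteinbergGroup K :=
      φi.comp <| φi.comp <| φi.comp <| φi.comp <| φi.comp <| φi.comp <| φi.comp <| φi.comp <| φi.comp <|
        φi.comp <| φi.comp φi
    refine hgen f fun s hs t => ?_
    simp only [f, φi, U, MonoidHom.comp_apply, stFr_x hS σi hs]
    refine congrArg ((stSys hS).x s) ?_
    simp only [hσi, ← pow_mul, ← pow_add]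
    norm_num only
    rw [show (132 : ℕ) = ((((((((((0 + 12) + 12) + 12) + 12) + 12) + 12) + 12) + 12) + 12) + 12) + 12 from rfl,
      hmod, hmod, hmod, hmod, hmod, hmod, hmod, hmod, hmod, hmod, hmod, pow_zero, pow_one]
  let hu : chevE7.SteinbergGroup K := U.nW w * T c₁
  have hframe' : φr γu = hu * γu := hframe
  let G : chevE7.SteinbergGroup K →* chevE7.SteinbergGroup K := φi.comp (MulAut.conj hu).toMonoidHom
  have hG : ∀ z, G z = φi (hu * z * hu⁻¹) := fun z => rfl
  have hGγ : ∀ z, G z = γu * φi (γu⁻¹ * z * γu) * γu⁻¹ := fun z => by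
    have e : φi hu = γu * (φi γu)⁻¹ := by
      have := congrArg φi hframe'
      rw [hir, map_mul] at this
      exact (eq_mul_inv_iff_mul_eq.2 this.symm)
    rw [hG, map_mul, map_mul, map_inv, e, map_mul, map_mul, map_inv]
    group
  have hG12 : ∀ z, G^[12] z = z := fun z => by
    have hn : ∀ n : ℕ, G^[n] z = γu * φi^[n] (γu⁻¹ * z * γu) * γu⁻¹ := fun n => by
      induction n with
      | zero => simp [mul_assoc]
      | succ n ih => rw [Function.iterate_succ_apply', Function.iterate_succ_apply', ih, hGγ]; group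
    rw [hn, hi12]; group
  -- the three roots
  have hconj : U.ConjP hu w := by
    have h1 : T c₁ ∈ U.Hbar := by rw [← U.tau_range hS hR (stSys_HMul hS hR)]; exact ⟨c₁, rfl⟩
    simpa using (U.conjP_nW hS hR w).mul hR (U.conjP_Hbar hS hR h1)
  obtain ⟨a, ha, hga⟩ := hconj
  have ha0 : ∀ s < chevE7.nroots, a s ≠ 0 := fun s hs => right_ne_zero_of_mul_eq_one (ha s hs)
  let b0 := s₀
  let b1 := act chevE7 w b0
  let b2 := act chevE7 w b1
  have hb0 : b0 < chevE7.nroots := hs₀
  have hb1 : b1 < chevE7.nroots := hR.act_lt w hb0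
  have hb2 : b2 < chevE7.nroots := hR.act_lt w hb1
  set M := wMat A7 w with hM
  have hc1 : col chevE7 b1 = M *ᵥ col chevE7 b0 := col_act hR w hb0
  have hc2 : col chevE7 b2 = M ^ 2 *ᵥ col chevE7 b0 := by
    rw [show col chevE7 b2 = M *ᵥ col chevE7 b1 from col_act hR w hb1, hc1, Matrix.mulVec_mulVec, pow_two]
  have hb20 : act chevE7 w b2 = b0 := by
    refine col_inj hR det_ne (hR.act_lt w hb2) hb0 ?_
    rw [col_act hR w hb2, ← hM, hc2, Matrix.mulVec_mulVec, ← pow_succ', hcube]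
  have o01 : ip (col chevE7 b0) (col chevE7 b1) = 0 := by
    have := horth 0 1 (by decide)
    rw [hc1]
    simpa using this
  have o02 : ip (col chevE7 b0) (col chevE7 b2) = 0 := by
    have := horth 0 2 (by decide)
    rw [hc2]
    simpa using this
  let g : ℕ → K → K := fun b t => σi (a b * t)
  have hGx : ∀ b < chevE7.nroots, ∀ t, G (U.x b t) = U.x (act chevE7 w b) (g b t) := fun b hb t => by
    rw [hG, hga b hb t]
    exact stFr_x hS σi (hR.act_lt w hb) _
  have hGy : ∀ b < chevE7.nroots, ∀ t,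
      G (U.x (chevE7.neg b) t⁻¹) = U.x (chevE7.neg (act chevE7 w b)) (g b t)⁻¹ := fun b hb t => by
    rw [hGx _ (hR.neg_lt b hb), hR.act_neg w hb]
    refine congrArg (U.x _) ?_
    show σi (a (chevE7.neg b) * t⁻¹) = (σi (a b * t))⁻¹
    rw [← map_inv₀, mul_inv, eq_inv_of_mul_eq_one_left (ha b hb)]
  let Θ : K → K := fun t => g b2 (g b1 (g b0 t))
  have hΘx : ∀ t, G (G (G (U.x b0 t))) = U.x b0 (Θ t) := fun t => by
    rw [hGx b0 hb0, hGx b1 hb1, hGx b2 hb2, hb20]
  obtain ⟨κ, hκ, hΘ⟩ : ∃ κ : K, κ ≠ 0 ∧ ∀ t, Θ t = κ * t ^ q ^ 9 := by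
    refine ⟨σi (a b2) * σi (σi (a b1)) * σi (σi (σi (a b0))), ?_, fun t => ?_⟩
    · simp [map_eq_zero σi, ha0 b0 hb0, ha0 b1 hb1, ha0 b2 hb2]
    · show σi (a b2 * σi (a b1 * σi (a b0 * t))) = _
      rw [map_mul, map_mul, map_mul, map_mul, map_mul, map_mul]
      have e : σi (σi (σi t)) = t ^ q ^ 9 := by
        rw [hσi, hσi, hσi, ← pow_mul, ← pow_mul, ← pow_add, ← pow_add,
          show 11 + (11 + 11) = ((9 + 12) + 12) from rfl, hmod, hmod]
      rw [e]; ring
  have hΘ4 : ∀ t, Θ (Θ (Θ (Θ t))) = t := fun t => by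
    have h := hG12 (U.x b0 t)
    simp only [Function.iterate_succ_apply, Function.iterate_zero_apply] at h
    rw [hΘx, hΘx, hΘx, hΘx] at h
    exact x_param_inj U hR hb0 h
  have hΘadd : ∀ s t, Θ (s + t) = Θ s + Θ t := fun s t => by simp [Θ, g, mul_add]
  have hΘneg : ∀ t, Θ (-t) = -Θ t := fun t => by simp [Θ, g]
  obtain ⟨u, hu2, hu1⟩ : ∃ u, Θ (Θ u) = u ∧ Θ u ≠ u := by
    by_contra hall
    push Not at hall
    have hzero : ∀ t, t - Θ t + Θ (Θ t) - Θ (Θ (Θ t)) = 0 := fun t => by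
      have h := hall (t + Θ (Θ t)) (by rw [hΘadd, hΘadd, hΘ4, add_comm])
      rw [hΘadd] at h
      linear_combination -h
    let k2 := κ * κ ^ q ^ 9
    let k3 := κ * k2 ^ q ^ 9
    have h2 : ∀ t, Θ (Θ t) = k2 * t ^ q ^ 6 := fun t => by
      rw [hΘ, hΘ, mul_pow, ← pow_mul, ← pow_add, show 9 + 9 = 6 + 12 from rfl, hmod]
      ring
    have h3 : ∀ t, Θ (Θ (Θ t)) = k3 * t ^ q ^ 3 := fun t => by
      rw [hΘ, h2, mul_pow, ← pow_mul, ← pow_add, show 6 + 9 = 3 + 12 from rfl, hmod]
      ring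
    let p : Polynomial K := X - C κ * X ^ q ^ 9 + C k2 * X ^ q ^ 6 - C k3 * X ^ q ^ 3
    have hne : ∀ n, 1 ≤ n → q ^ n ≠ 1 := fun n hn => (Nat.one_lt_pow (by omega) hq1).ne'
    have hp1 : p.coeff 1 = 1 := by
      simp [p, Polynomial.coeff_X_pow, (hne 9 (by norm_num)).symm, (hne 6 (by norm_num)).symm,
        (hne 3 (by norm_num)).symm]
    have hp : p = 0 := by
      have hle : ∀ n, n ≤ 9 → q ^ n ≤ q ^ 9 := fun n hn => Nat.pow_le_pow_right (by omega) hn
      refine Polynomial.eq_zero_of_natDegree_lt_card_of_eval_eq_zero p Function.injective_id (fun t => ?_)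
        (lt_of_le_of_lt (b := q ^ 9) ?_ ?_)
      · show Polynomial.eval t p = 0
        have := hzero t
        rw [h3, h2, hΘ] at this
        simpa [p] using this
      · refine (Polynomial.natDegree_sub_le _ _).trans (max_le ((Polynomial.natDegree_add_le _ _).trans
          (max_le ((Polynomial.natDegree_sub_le _ _).trans (max_le ?_ ?_)) ?_)) ?_)
        · rw [Polynomial.natDegree_X]; exact Nat.one_le_pow _ _ (by omega)
        · exact (Polynomial.natDegree_C_mul_X_pow_le _ _)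
        · exact (Polynomial.natDegree_C_mul_X_pow_le _ _).trans (hle 6 (by norm_num))
        · exact (Polynomial.natDegree_C_mul_X_pow_le _ _).trans (hle 3 (by norm_num))
      · rw [← Nat.card_eq_fintype_card, hcardK]
        exact Nat.pow_lt_pow_right hq1 (by norm_num)
    rw [hp, Polynomial.coeff_zero] at hp1
    exact zero_ne_one hp1
  set z := u - Θ u with hzdef
  have hz0 : z ≠ 0 := sub_ne_zero.2 (Ne.symm hu1)
  have hΘz : Θ z = -z := by
    rw [hzdef, sub_eq_add_neg, hΘadd, hΘneg, hu2]; ring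
  -- the new frame
  let a0 := U.x (chevE7.neg b0) z⁻¹ * U.x b0 (-u)
  let a1 := G a0
  let a2 := G a1
  let a3 := G a2
  have e1 : a1 = U.x (chevE7.neg b1) (g b0 z)⁻¹ * U.x b1 (g b0 (-u)) := by
    simp only [a1, a0, map_mul, hGy b0 hb0, hGx b0 hb0]; rfl
  have e2 : a2 = U.x (chevE7.neg b2) (g b1 (g b0 z))⁻¹ * U.x b2 (g b1 (g b0 (-u))) := by
    show G a1 = _
    rw [e1, map_mul, hGy b1 hb1, hGx b1 hb1]
  have e3 : a3 = U.x (chevE7.neg b0) (-z)⁻¹ * U.x b0 (-Θ u) := by
    show G a2 = _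
    rw [e2, map_mul, hGy b2 hb2, hGx b2 hb2, hb20, ← hΘz, ← hΘneg]
  have hcomm : ∀ b < chevE7.nroots, ip (col chevE7 b0) (col chevE7 b) = 0 → ∀ t t' s s' : K,
      Commute (U.x (chevE7.neg b0) t * U.x b0 t') (U.x (chevE7.neg b) s * U.x b s') := fun b hb h t t' s s' => by
    have hn0 := col_neg hR hb0
    have hn := col_neg hR hb
    exact (((x_commute U hR (hR.neg_lt _ hb0) (hR.neg_lt b hb)
        (by rw [hn0, hn, ip_neg_left, ip_neg_right, h, neg_zero, neg_zero]) _ _).mul_right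
      (x_commute U hR (hR.neg_lt _ hb0) hb (by rw [hn0, ip_neg_left, h, neg_zero]) _ _)).mul_left
      ((x_commute U hR hb0 (hR.neg_lt b hb) (by rw [hn, ip_neg_right, h, neg_zero]) _ _).mul_right
        (x_commute U hR hb0 hb h _ _)))
  let n := U.nEl (chevE7.neg b0) z⁻¹
  let at' := a0 * a1 * a2
  have hkey : at' * (G at')⁻¹ = n := by
    have h31 : Commute a3 a1 := by rw [e3, e1]; exact hcomm b1 hb1 o01 _ _ _ _
    have h32 : Commute a3 a2 := by rw [e3, e2]; exact hcomm b2 hb2 o02 _ _ _ _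
    have h3 : a3 * (a1 * a2) = a1 * a2 * a3 := h31.mul_right h32
    have hGat : G at' = a1 * a2 * a3 := by simp only [at', map_mul]; rfl
    rw [hGat, ← h3]
    show a0 * a1 * a2 * (a3 * (a1 * a2))⁻¹ = _
    rw [show a0 * a1 * a2 * (a3 * (a1 * a2))⁻¹ = a0 * a3⁻¹ by group, e3, _root_.mul_inv_rev,
      U.x_inv hb0, U.x_inv (hR.neg_lt _ hb0)]
    show U.x (chevE7.neg b0) z⁻¹ * U.x b0 (-u) * (U.x b0 (- -Θ u) * U.x (chevE7.neg b0) (-(-z)⁻¹)) =
      U.x (chevE7.neg b0) z⁻¹ * U.x (chevE7.neg (chevE7.neg b0)) (-z⁻¹⁻¹) * U.x (chevE7.neg b0) z⁻¹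
    rw [inv_inv, hR.neg_neg_root hb0, inv_neg, neg_neg, neg_neg, ← mul_assoc, mul_assoc (U.x _ z⁻¹) (U.x b0 _),
      U.x_add _ hb0, show -u + Θ u = -z by rw [hzdef]; ring]
  let n' := φr n
  have hn' : n' = U.nEl (chevE7.neg b0) (σ z⁻¹) := by
    have hnb := hR.neg_lt _ hb0
    simp [n', n, φr, Sys.nEl, U, stFr_x hS σ hnb, stFr_x hS σ (hR.neg_lt _ hnb)]
  have hnew : φr (at' * γu) = n' * hu * (at' * γu) := by
    have e : φr (G at') = hu * at' * hu⁻¹ := by rw [hG, hri]
    have e2 : n' = φr at' * (hu * at' * hu⁻¹)⁻¹ := by rw [← e, ← map_inv, ← map_mul, hkey]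
    rw [map_mul, hframe', e2]
    group
  have hnb := hR.neg_lt _ hb0
  have hzσ : σ z⁻¹ ≠ 0 := (map_ne_zero σ).2 (inv_ne_zero hz0)
  obtain ⟨h, hh, v, -, hnv⟩ := U.mem_Nbar hS hR
    (show n' ∈ U.Nbar by rw [hn']; exact U.nEl_mem_Nbar hS hR hnb hzσ)
  have hT1 : T c₁ ∈ U.Hbar := by rw [← U.tau_range hS hR (stSys_HMul hS hR)]; exact ⟨c₁, rfl⟩
  obtain ⟨c', hc'⟩ : ∃ c', T c' = (U.nW (v ++ w))⁻¹ * h * U.nW (v ++ w) * T c₁ := by
    have h1 := mul_mem ((Subgroup.mem_normalizer_iff''.1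
      (U.Nbar_le_normalizer hS hR (U.nW_mem_Nbar (v ++ w))) h).1 hh) hT1
    rw [← U.tau_range hS hR (stSys_HMul hS hR)] at h1
    exact h1
  have hframe2 : φr (at' * γu) = U.nW (v ++ w) * T c' * (at' * γu) := by
    rw [hnew, hc', hnv, Sys.nW_append]
    show h * U.nW v * (U.nW w * T c₁) * (at' * γu) = _
    group
  -- the word of the reflection
  obtain ⟨uw, i, hui⟩ := hR.exists_act_simple hnb
  let R := uw ++ [i] ++ uw.reverse
  have hRn : U.ConjP n' R := by
    obtain ⟨c, hc, hgc⟩ := U.conjP_nW hS hR uw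
    have hp := hR.simple_lt i i.2
    have h0 : c (chevE7.simple i) ≠ 0 := right_ne_zero_of_mul_eq_one (hc _ hp)
    have e := Sys.ConjP.nEl hR hc hgc hp (σ z⁻¹ / c (chevE7.simple i))
    rw [hui, mul_div_cancel₀ _ h0, U.nEl_eq hR hp] at e
    rw [hn', ← e]
    have hmid : U.ConjP (U.hEl (chevE7.simple i) (σ z⁻¹ / c (chevE7.simple i)) * U.nEl (chevE7.simple i) 1) [i] := by
      simpa [Sys.nI] using (U.conjP_Hbar hS hR (U.hEl_simple_mem i (div_ne_zero hzσ h0))).mul hR
        (U.conjP_nI hS hR i)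
    exact ((U.conjP_nW hS hR uw).mul hR hmid).mul hR ((U.conjP_nW hS hR uw).inv hR)
  have hv : U.ConjP n' v := by
    rw [hnv]
    simpa using (U.conjP_Hbar hS hR hh).mul hR (U.conjP_nW hS hR v)
  have hwv : wMat A7 v = wMat A7 R := by
    have hact := Sys.ConjP.act_unique U hR hv hRn
    have hmul : wMat A7 v * A7 = wMat A7 R * A7 := by
      refine Matrix.ext fun a k => ?_
      have h1 := col_act hR v (hR.simple_lt k k.2)
      rw [hact _ (hR.simple_lt k k.2), col_act hR R (hR.simple_lt k k.2)] at h1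
      have h2 := congrFun h1 a
      simpa [Matrix.mul_apply, Matrix.mulVec, dotProduct, col, A7, cartanMat] using h2.symm
    have h2 := congrArg (· * A7.adjugate) hmul
    simp only [mul_assoc, Matrix.mul_adjugate, mul_smul_comm, mul_one] at h2
    exact smul_right_injective _ det_ne h2
  have hRrefl : ∀ c : V, ∃ m : ℤ, wMat A7 R *ᵥ c = c - m • col chevE7 (chevE7.neg b0) := fun c => by
    set x := wMat A7 uw.reverse *ᵥ c with hx
    refine ⟨x i, ?_⟩
    have hi : wMat A7 [i] *ᵥ x = x - x i • col chevE7 (chevE7.simple i) := by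
      rw [show wMat A7 [i] = reflMat A7 i by simp [wMat], reflMat, Matrix.sub_mulVec, Matrix.one_mulVec,
        ← Matrix.mulVec_mulVec]
      funext a
      simp [Matrix.single_mulVec, Matrix.mulVec, dotProduct, col, A7, cartanMat, Function.update_apply, mul_comm]
    rw [wMat_append, wMat_append, ← Matrix.mulVec_mulVec, ← Matrix.mulVec_mulVec, ← hx, hi, Matrix.mulVec_sub,
      Matrix.mulVec_smul, ← col_act hR uw (hR.simple_lt i i.2), hui, hx, Matrix.mulVec_mulVec,
      wMat_mul_reverse A7 (cartanMat_self hR), Matrix.one_mulVec]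
  have hRfix : ∀ c : V, ip (col chevE7 b0) c = 0 → ip c c = 4 → wMat A7 R *ᵥ c = c := fun c hc hn => by
    obtain ⟨m, hm⟩ := hRrefl c
    have h1 := ip_wMat R c c
    rw [hm, col_neg hR hb0, smul_neg, sub_neg_eq_add, ip_add_right, ip_smul_right, ip_comm _ c,
      ip_comm _ (col chevE7 b0), ip_add_right, ip_add_right, ip_smul_right, ip_smul_right, ip_comm c, hc,
      root_norm ⟨b0, hb0⟩, hn] at h1
    simp only [ip_comm c (col chevE7 b0), hc, mul_zero, add_zero, zero_add] at h1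
    have hm0 : m * m = 0 := by linarith
    rw [hm, mul_self_eq_zero.1 hm0, zero_smul, sub_zero]
  have hR0 : wMat A7 R *ᵥ col chevE7 b0 = -col chevE7 b0 := by
    rw [← col_act hR R hb0, ← col_neg hR hb0]
    refine congrArg (col chevE7) ?_
    have e : act chevE7 R (chevE7.neg b0) = b0 := by
      simp only [R, act_append]
      rw [show act chevE7 uw.reverse (chevE7.neg b0) = chevE7.simple i by
          rw [← hui, hR.act_reverse_act uw (hR.simple_lt i i.2)],
        act_singleton, hR.reflect_simple i.2, hR.act_neg uw (hR.simple_lt i i.2), hui, hR.neg_neg_root hb0]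
    have e2 := congrArg chevE7.neg e
    rwa [hR.act_neg R hb0, hR.neg_neg_root (hR.act_lt R hb0)] at e2
  refine ⟨r, hr, at' * γu, v ++ w, c', vr, b0, hrW, hord, hv0, ?_, hframe2, hb0, hpair, ?_⟩
  · rw [mem_eigMod_iff_pairMod]
    intro c
    obtain ⟨m, hm⟩ := hRrefl (wMat A7 w *ᵥ c)
    rw [wMat_append, hwv, ← Matrix.mulVec_mulVec, hm, pairMod_sub, pairMod_smul, col_neg hR hb0,
      ← neg_one_zsmul, pairMod_smul, hpair, mul_zero, mul_zero, sub_zero, (mem_eigMod_iff_pairMod _ _ _).1 heig]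
  · rw [wMat_append, hwv, pow_three]
    simp only [← Matrix.mulVec_mulVec]
    rw [← hM, ← hc1, hRfix _ o01 (root_norm ⟨b1, hb1⟩), ← col_act hR w hb1,
      show act chevE7 w b1 = b2 from rfl, hRfix _ o02 (root_norm ⟨b2, hb2⟩), ← col_act hR w hb2, hb20, hR0]

end E7

end Cfsg.Agent.LieTori
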