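import Cfsg.Agent.LieTori.E7Alg
import Cfsg.Agent.LieTori.SylowInst

/-!
In `W(E7)` an element with a primitive twelfth root of unity as eigenvalue on a vector `v` modulo `r` moves
three orthogonal roots, exactly those annihilating `v`, in a cycle up to sign (owner: helper35).
-/

set_option autoImplicit false
set_option linter.style.haveILetI false

namespace Cfsg.Agent.LieTori.E7

open Cfsg.Lie Cfsg.Agent.ChevGrp Matrix Polynomial
open Cfsg.Agent.CoxTower (elemOfWord wordAct)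

/-- The columns. -/
abbrev V := Fin chevE7.rank → ℤ

/-- The Cartan matrix. -/
abbrev A7 : Matrix (Fin chevE7.rank) (Fin chevE7.rank) ℤ := cartanMat chevE7

/-- Twice the inverse of the Cartan matrix. -/
def B7 : Matrix (Fin chevE7.rank) (Fin chevE7.rank) ℤ := invE7

/-- Twice the inner product. -/
def ip (x y : V) : ℤ := x ⬝ᵥ B7 *ᵥ y

theorem facts : CartanFacts A7 B7 2 := by
  show CartanFacts (cartanMat chevE7 : Matrix (Fin 7) (Fin 7) ℤ) invE7 2
  rw [eqE7]
  exact factsE7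

theorem det_ne : A7.det ≠ 0 := by
  rw [A7, detE7']
  norm_num

theorem ip_comm (x y : V) : ip x y = ip y x := by
  unfold ip
  rw [dotProduct_comm, ← Matrix.vecMul_transpose, ← Matrix.dotProduct_mulVec, facts.symB]

theorem ip_zero_right (x : V) : ip x 0 = 0 := by simp [ip]

theorem ip_sub_right (x y z : V) : ip x (y - z) = ip x y - ip x z := by
  simp [ip, Matrix.mulVec_sub, dotProduct_sub]

theorem ip_add_right (x y z : V) : ip x (y + z) = ip x y + ip x z := by
  simp [ip, Matrix.mulVec_add, dotProduct_add]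

theorem ip_neg_right (x y : V) : ip x (-y) = -ip x y := by simp [ip, Matrix.mulVec_neg]

theorem ip_smul_right (x y : V) (k : ℤ) : ip x (k • y) = k * ip x y := by
  rw [ip, ip, Matrix.mulVec_smul, dotProduct_smul, smul_eq_mul]

theorem ip_sum_right {ι : Type*} (s : Finset ι) (x : V) (f : ι → V) :
    ip x (∑ i ∈ s, f i) = ∑ i ∈ s, ip x (f i) := by
  simp [ip, Matrix.mulVec_sum, dotProduct_sum]

theorem ip_psd (x : V) : 0 ≤ ip x x := by
  obtain ⟨s, hs, e⟩ := facts.quad (B7 *ᵥ x)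
  rw [Matrix.mulVec_mulVec, facts.mulAB, Matrix.smul_mulVec, Matrix.one_mulVec, dotProduct_smul,
    dotProduct_comm, smul_eq_mul] at e
  unfold ip
  linarith

theorem ip_def {x : V} (h : ip x x = 0) : x = 0 := by
  have h1 : (B7 *ᵥ x) ⬝ᵥ A7 *ᵥ (B7 *ᵥ x) = 0 := by
    rw [Matrix.mulVec_mulVec, facts.mulAB, Matrix.smul_mulVec, Matrix.one_mulVec, dotProduct_smul,
      dotProduct_comm]
    unfold ip at h
    rw [h, smul_zero]
  have h2 := congrArg (A7 *ᵥ ·) (eq_zero_of_quad_zero facts det_ne h1)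
  simp only [Matrix.mulVec_mulVec, facts.mulAB, Matrix.smul_mulVec, Matrix.one_mulVec, Matrix.mulVec_zero,
    smul_eq_zero] at h2
  exact h2.resolve_left two_ne_zero

theorem ip_le {x y : V} (hx : ip x x = 4) (hy : ip y y = 4) :
    ip x y ≤ 4 ∧ -4 ≤ ip x y ∧ (ip x y = 4 → x = y) ∧ (ip x y = -4 → y = -x) := by
  have e1 : ip (x - y) (x - y) = 8 - 2 * ip x y := by
    rw [ip_sub_right, ip_comm (x - y) x, ip_comm (x - y) y, ip_sub_right, ip_sub_right, hx, hy, ip_comm y x]
    ring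
  have e2 : ip (x + y) (x + y) = 8 + 2 * ip x y := by
    rw [ip_add_right, ip_comm (x + y) x, ip_comm (x + y) y, ip_add_right, ip_add_right, hx, hy, ip_comm y x]
    ring
  have h1 := ip_psd (x - y)
  have h2 := ip_psd (x + y)
  refine ⟨by omega, by omega, fun h => sub_eq_zero.1 (ip_def (by omega)), fun h => ?_⟩
  exact eq_neg_of_add_eq_zero_right (ip_def (x := x + y) (by omega))

theorem root_norm : ∀ s : Fin chevE7.nroots, ip (col chevE7 s) (col chevE7 s) = 4 := by decide +kernel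

theorem root_ht : ∀ s : Fin chevE7.nroots, ip (fun _ => 1) (col chevE7 s) ≠ 0 := by decide +kernel

variable {len : ℕ → ℕ}

theorem preserve (w : List (Fin chevE7.rank)) : (wMat A7 w)ᵀ * B7 * wMat A7 w = B7 := by
  refine wMat_preserves (fun i => ?_) w
  revert i
  decide +kernel

theorem ip_wMat (w : List (Fin chevE7.rank)) (x y : V) : ip (wMat A7 w *ᵥ x) (wMat A7 w *ᵥ y) = ip x y := by
  unfold ip
  rw [← Matrix.vecMul_transpose, ← Matrix.dotProduct_mulVec, Matrix.mulVec_mulVec, Matrix.mulVec_mulVec,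
    preserve]

theorem col_neg (hR : RootTable chevE7 len) {s : ℕ} (hs : s < chevE7.nroots) :
    col chevE7 (chevE7.neg s) = -col chevE7 s :=
  funext fun j => hR.cartan_neg j.2 hs

/-- The reflection in a root. -/
theorem exists_refl (hR : RootTable chevE7 len) {s : ℕ} (hs : s < chevE7.nroots) :
    ∃ u : List (Fin chevE7.rank), ∀ x : V, ∃ m : ℤ, ip (col chevE7 s) x = 2 * m ∧
      wMat A7 u *ᵥ x = x - m • col chevE7 s := by
  obtain ⟨u, k, rfl⟩ := hR.exists_act_simple hs
  refine ⟨u ++ k :: u.reverse, fun x => ⟨(wMat A7 u.reverse *ᵥ x) k, ?_, ?_⟩⟩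
  · rw [col_act hR u (hR.simple_lt k k.2)]
    have e : x = wMat A7 u *ᵥ (wMat A7 u.reverse *ᵥ x) := by
      rw [Matrix.mulVec_mulVec, wMat_mul_reverse A7 (cartanMat_self hR), Matrix.one_mulVec]
    conv_lhs => rw [e, ip_wMat]
    have e2 : col chevE7 (chevE7.simple k) = A7 *ᵥ Pi.single k 1 := by
      funext j
      simp [col, A7, cartanMat]
    unfold ip
    rw [e2, ← Matrix.vecMul_transpose, facts.symA, ← Matrix.dotProduct_mulVec]
    have e3 : ∀ z : V, Pi.single k 1 ⬝ᵥ A7 *ᵥ (B7 *ᵥ z) = 2 * z k := fun z => by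
      rw [Matrix.mulVec_mulVec, facts.mulAB, Matrix.smul_mulVec, Matrix.one_mulVec, single_dotProduct, one_mul,
        Pi.smul_apply, smul_eq_mul]
    exact e3 _
  · rw [wMat_append, wMat_cons, ← Matrix.mulVec_mulVec, ← Matrix.mulVec_mulVec, reflMat, Matrix.sub_mulVec,
      Matrix.one_mulVec, Matrix.mulVec_sub, Matrix.mulVec_mulVec _ (wMat A7 u) (wMat A7 u.reverse),
      wMat_mul_reverse A7 (cartanMat_self hR), Matrix.one_mulVec, col_act hR u (hR.simple_lt k k.2),
      ← Matrix.mulVec_smul]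
    congr 2
    funext j
    simp [A7, col, cartanMat, Matrix.mulVec, dotProduct, Matrix.mul_apply, Matrix.single_apply, ite_and, mul_comm]

variable {r : ℕ} [Fact r.Prime] {ζ : ZMod r}

theorem eval_g_ne (hζ : orderOf ζ = 12) {c a : ℤ} (hc : c = 1 ∨ c = -1) (ha : a = 1 ∨ a = 0 ∨ a = -1) :
    ((X - C c) * (X ^ 2 + C a * X + 1) : ℤ[X]).eval₂ (Int.castRingHom (ZMod r)) ζ ≠ 0 := by
  intro h
  have hne : ∀ k : ℕ, 0 < k → k < 12 → ζ ^ k ≠ 1 := fun k h1 h2 e => by
    have := Nat.le_of_dvd h1 (orderOf_dvd_of_pow_eq_one e)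
    omega
  rw [eval₂_mul, mul_eq_zero] at h
  rcases h with h | h
  · rcases hc with rfl | rfl <;> simp at h
    · exact hne 1 (by norm_num) (by norm_num) (by linear_combination h)
    · exact hne 2 (by norm_num) (by norm_num) (by linear_combination (ζ - 1) * h)
  · rcases ha with rfl | rfl | rfl <;> simp at h
    · exact hne 3 (by norm_num) (by norm_num) (by linear_combination (ζ - 1) * h)
    · exact hne 4 (by norm_num) (by norm_num) (by linear_combination (ζ ^ 2 - 1) * h)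
    · exact hne 6 (by norm_num) (by norm_num) (by linear_combination (ζ + 1) * (ζ ^ 3 - 1) * h)

/-- The characteristic polynomial. -/
theorem exists_charpoly (hr : ¬ r ∣ [2, 6, 8, 10, 12, 14, 18].prod) (hR : RootTable chevE7 len)
    (hζ : orderOf ζ = 12) {w : List (Fin chevE7.rank)} {v : Fin chevE7.rank → ZMod r}
    (hv : v ∈ eigMod (wMat A7 w) ζ) (hv0 : v ≠ 0) :
    ∃ c a : ℤ, (c = 1 ∨ c = -1) ∧ (a = 1 ∨ a = 0 ∨ a = -1) ∧
      (wMat A7 w).charpoly = cyclotomic 12 ℤ * ((X - C c) * (X ^ 2 + C a * X + 1)) := by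
  have hA : (cartanMat chevE7 : Matrix (Fin 7) (Fin 7) ℤ) = cartE7 := eqE7
  obtain ⟨N₀, hN₀⟩ := exists_wMat_eq (l := 7) cartE7 w
  have hM := wMat_pow_eq_one hR weylE7 det_ne w
  obtain ⟨c, a, hc, ha, h⟩ := e7_charpoly (M := wMat (l := 7) cartE7 w)
    (N := [2, 6, 8, 10, 12, 14, 18].prod) (by rw [← hA]; exact hM) hr hN₀ (wMat_preserves preserveE7 w) hζ
    (v := v) (by rw [← hA]; exact hv) hv0
  rw [← hA] at h
  exact ⟨c, a, hc, ha, h⟩

/-- The stabiliser of the eigenvector fixes the image of the complementary factor. -/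
theorem fix_image (hr : ¬ r ∣ [2, 6, 8, 10, 12, 14, 18].prod) (hR : RootTable chevE7 len)
    (hζ : orderOf ζ = 12) {w u : List (Fin chevE7.rank)} {v : Fin chevE7.rank → ZMod r}
    (hv : v ∈ eigMod (wMat A7 w) ζ) (hv0 : v ≠ 0) {c a : ℤ} (hc : c = 1 ∨ c = -1)
    (ha : a = 1 ∨ a = 0 ∨ a = -1)
    (hchar : (wMat A7 w).charpoly = cyclotomic 12 ℤ * ((X - C c) * (X ^ 2 + C a * X + 1)))
    (hfix : v ∈ eigMod (wMat A7 u) 1) :
    wMat A7 u * aeval (wMat A7 w) ((X - C c) * (X ^ 2 + C a * X + 1) : ℤ[X]) =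
      aeval (wMat A7 w) ((X - C c) * (X ^ 2 + C a * X + 1) : ℤ[X]) := by
  classical
  obtain ⟨Mc, hcard, hC⟩ := weylE7
  haveI : Finite Mc.Group := Nat.finite_of_card_ne_zero fun h => hr (by rw [← hcard, h]; exact dvd_zero r)
  obtain ⟨ρ, hρ⟩ := exists_rep hR det_ne hC
  let St : Subgroup Mc.Group :=
    { carrier := {g | ∀ c, pairMod v (ρ g *ᵥ c) = pairMod v c}
      one_mem' := fun c => by simp
      mul_mem' := fun {a b} ha hb c => by rw [map_mul, ← Matrix.mulVec_mulVec, ha, hb]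
      inv_mem' := fun {a} ha c => by
        conv_rhs => rw [show c = ρ a *ᵥ (ρ a⁻¹ *ᵥ c) by
          rw [Matrix.mulVec_mulVec, ← map_mul, mul_inv_cancel, map_one, Matrix.one_mulVec]]
        rw [ha] }
  haveI : Fintype St := Fintype.ofFinite _
  set g := Chev.cElem Mc w with hgdef
  have hg : ∀ c, pairMod v (ρ g *ᵥ c) = ζ * pairMod v c := by
    intro c; rw [hρ]; exact (mem_eigMod_iff_pairMod _ _ _).1 hv c
  let E := ∑ x : St, ρ x
  set n : ℕ := Fintype.card St with hn
  have hxE : ∀ x : St, ρ x * E = E := fun x => by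
    rw [Finset.mul_sum]
    simp only [← map_mul]
    exact (Equiv.mulLeft x).bijective.sum_comp (fun x : St => ρ x)
  have hEE : E * E = (n : ℤ) • E := by
    conv_lhs => rw [Finset.sum_mul]
    rw [Finset.sum_congr rfl fun x _ => hxE x, Finset.sum_const, Finset.card_univ, natCast_zsmul]
  have hnorm : ∀ x : Mc.Group, x ∈ St → g * x * g⁻¹ ∈ St := fun x hx c => by
    have h2 : c = ρ g *ᵥ (ρ g⁻¹ *ᵥ c) := by
      rw [Matrix.mulVec_mulVec, ← map_mul, mul_inv_cancel, map_one, Matrix.one_mulVec]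
    rw [map_mul, map_mul, ← Matrix.mulVec_mulVec, ← Matrix.mulVec_mulVec, hg, hx, ← hg, ← h2]
  let conjMap : St → St := fun x => ⟨g * x * g⁻¹, hnorm x x.2⟩
  have hbij : Function.Bijective conjMap := Finite.injective_iff_bijective.1 fun a b h =>
    Subtype.ext (by simpa [conjMap] using congrArg Subtype.val h)
  have hcomm : ρ g * E = E * ρ g := by
    calc ρ g * E = ∑ x : St, ρ (conjMap x) * ρ g := by
          rw [Finset.mul_sum]
          exact Finset.sum_congr rfl fun x _ => by rw [← map_mul, ← map_mul]; simp [conjMap]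
      _ = E * ρ g := by
          rw [Finset.sum_mul]
          exact hbij.sum_comp (fun x : St => ρ x * ρ g)
  set M := wMat A7 w
  have hρg : ρ g = M := hρ w
  rw [hρg] at hcomm
  set G : ℤ[X] := (X - C c) * (X ^ 2 + C a * X + 1)
  let φ := Int.castRingHom ℚ
  let toQ : Matrix (Fin chevE7.rank) (Fin chevE7.rank) ℤ →+* Matrix (Fin chevE7.rank) (Fin chevE7.rank) ℚ :=
    φ.mapMatrix
  have hinj : Function.Injective toQ := Matrix.map_injective Int.cast_injective
  have hq : ∀ p : ℤ[X], aeval (toQ M) (p.map φ) = toQ (aeval M p) := fun p => by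
    rw [show φ = algebraMap ℤ ℚ from rfl, aeval_map_algebraMap]
    exact aeval_algHom_apply toQ.toIntAlgHom M p
  obtain ⟨k, hk, hQk⟩ : ∃ k, (k = 3 ∨ k = 4 ∨ k = 6) ∧ (X ^ 2 + C a * X + 1 : ℤ[X]) = cyclotomic k ℤ := by
    rcases ha with rfl | rfl | rfl
    · exact ⟨3, Or.inl rfl, by rw [cyclotomic_three]; simp⟩
    · refine ⟨4, Or.inr (Or.inl rfl), ?_⟩
      rw [show 4 = 2 ^ (1 + 1) from rfl, cyclotomic_prime_pow_eq_geom_sum Nat.prime_two]
      simp [Finset.sum_range_succ]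
      ring
    · refine ⟨6, Or.inr (Or.inr rfl), ?_⟩
      have h := cyclotomic_expand_eq_cyclotomic_mul (p := 2) (n := 3) Nat.prime_two (by norm_num) ℤ
      rw [show 3 * 2 = 6 from rfl, cyclotomic_three] at h
      simp only [map_add, map_pow, expand_X, map_one] at h
      refine mul_right_cancel₀ (b := (X ^ 2 + X + 1 : ℤ[X])) ?_ ?_
      · rw [← cyclotomic_three]; exact cyclotomic_ne_zero 3 ℤ
      · rw [← h, map_neg, map_one]; ring
  have hsplit : ((n : ℤ) • 1 - E) * aeval M G = 0 := by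
    by_contra hne
    obtain ⟨x, hx⟩ := pairMod_ne hv0
    refine split_false₃ (Mq := toQ M) (P := toQ E) (n := (n : ℚ)) ?_ (f := cyclotomic 12 ℚ)
      (h := cyclotomic k ℚ) (k := (X - C c : ℤ[X]).map φ) (cyclotomic.irreducible_rat (by norm_num))
      (cyclotomic.irreducible_rat (by omega)) (cyclotomic.isCoprime_rat (by omega)) ?_ ?_ ?_ ?_ ?_ ?_ ?_
    · exact Nat.cast_ne_zero.2 Fintype.card_ne_zero
    · rw [natDegree_cyclotomic, natDegree_cyclotomic, show Nat.totient 12 = 4 by decide +kernel]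
      rcases hk with rfl | rfl | rfl <;> decide +kernel
    · rw [← map_cyclotomic 12 φ, ← map_cyclotomic k φ, ← Polynomial.map_mul, ← Polynomial.map_mul, hq,
        mul_assoc, ← hQk, mul_comm (X ^ 2 + C a * X + 1), ← hchar, Matrix.aeval_self_charpoly, map_zero]
    · rw [← map_mul, ← map_mul, hcomm]
    · rw [← map_mul, hEE, map_zsmul, natCast_zsmul, Nat.cast_smul_eq_nsmul]
    · rw [← map_cyclotomic k φ, ← Polynomial.map_mul, ← hQk, mul_comm (X ^ 2 + C a * X + 1), hq, ← map_mul,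
        Ne, map_eq_zero_iff _ hinj]
      intro h0
      have h1 : pairMod v ((E * aeval M G) *ᵥ x) =
          (n : ZMod r) * (G.eval₂ (Int.castRingHom (ZMod r)) ζ * pairMod v x) := by
        rw [← Matrix.mulVec_mulVec, Matrix.sum_mulVec, pairMod_sum,
          Finset.sum_congr rfl fun y _ => y.2 _, Finset.sum_const, Finset.card_univ, nsmul_eq_mul,
          pairMod_aeval hv]
      rw [h0, Matrix.zero_mulVec, show pairMod v 0 = (0 : ZMod r) by simp [pairMod]] at h1
      have h4 : (n : ZMod r) ≠ 0 := by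
        rw [Ne, ZMod.natCast_eq_zero_iff, hn, ← Nat.card_eq_fintype_card]
        exact fun h => hr (hcard ▸ h.trans St.card_subgroup_dvd_card)
      exact mul_ne_zero h4 (mul_ne_zero (eval_g_ne hζ hc ha) hx) h1.symm
    · rw [← map_cyclotomic k φ, ← Polynomial.map_mul, ← hQk, mul_comm (X ^ 2 + C a * X + 1), hq,
        show ((n : ℚ) • (1 : Matrix (Fin chevE7.rank) (Fin chevE7.rank) ℚ) - toQ E) =
          toQ ((n : ℤ) • 1 - E) by rw [map_sub, map_zsmul, map_one, Nat.cast_smul_eq_nsmul, natCast_zsmul],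
        ← map_mul, Ne, map_eq_zero_iff _ hinj]
      exact hne
    · rw [← map_cyclotomic 12 φ, ← Polynomial.map_mul, hq, Ne, map_eq_zero_iff _ hinj]
      intro h0
      obtain ⟨N₀, hN₀⟩ := exists_wMat_eq A7 w
      refine fixed_false_of_aeval (Y := !![0, 0, 0, 0, 0, 0, 1; 0, 0, 0, 0, 1, -1, 1; 0, 0, 0, 0, 1, 1, -1;
        0, 0, 0, 1, -1, 0, 0; 0, 0, 1, -1, 0, 0, 0; 0, 1, -1, 0, 0, 0, 0; 1, -1, 0, 0, 0, 0, 0])
        facts two_pos det_ne hN₀ (preserve w) ?_ ?_ ?_ hζ hv hv0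
      · exact det_ne_zero_of_mul (l := 7) (c := 2) (by norm_num) (B := !![0, 1, 1, 2, 2, 2, 2; 0, 1, 1, 2, 2, 2, 0;
          0, 1, 1, 2, 2, 0, 0; 0, 1, 1, 2, 0, 0, 0; 0, 1, 1, 0, 0, 0, 0; 2, -1, 1, 0, 0, 0, 0;
          2, 0, 0, 0, 0, 0, 0]) (by decide +kernel)
      · decide +kernel
      · have e : (X ^ 2 - 1 : ℤ[X]) = (X - C c) * (X + C c) := by
          rcases hc with rfl | rfl
          · simp; ring
          · simp; ring
        rw [e, ← mul_assoc]
        exact (map_mul _ _ _).trans ((congrArg (fun T : Matrix (Fin chevE7.rank) (Fin chevE7.rank) ℤ => T * aeval M (X + C c)) h0).trans (zero_mul _))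
  have hEG : E * aeval M G = (n : ℤ) • aeval M G := by
    rw [sub_mul, smul_mul_assoc, one_mul, sub_eq_zero] at hsplit
    exact hsplit.symm
  have hmem : Chev.cElem Mc u ∈ St := fun c => by
    rw [hρ, (mem_eigMod_iff_pairMod _ _ _).1 hfix, one_mul]
  have h := congrArg (· * aeval M G) (hxE ⟨_, hmem⟩)
  rw [mul_assoc, hEG, mul_smul_comm, hρ] at h
  exact smul_right_injective _ (Nat.cast_ne_zero.2 (Fintype.card_ne_zero (α := St)) : (n : ℤ) ≠ 0) h

/-- A root annihilating the eigenvector is killed by the complementary factor. -/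
theorem kill_root (hr : ¬ r ∣ [2, 6, 8, 10, 12, 14, 18].prod) (hR : RootTable chevE7 len)
    (hζ : orderOf ζ = 12) {w : List (Fin chevE7.rank)} {v : Fin chevE7.rank → ZMod r}
    (hv : v ∈ eigMod (wMat A7 w) ζ) (hv0 : v ≠ 0) {c a : ℤ} (hc : c = 1 ∨ c = -1)
    (ha : a = 1 ∨ a = 0 ∨ a = -1)
    (hchar : (wMat A7 w).charpoly = cyclotomic 12 ℤ * ((X - C c) * (X ^ 2 + C a * X + 1)))
    {s : ℕ} (hs : s < chevE7.nroots) (h0 : pairMod v (col chevE7 s) = 0) :
    aeval (wMat A7 w) ((X - C c) * (X ^ 2 + C a * X + 1) : ℤ[X]) *ᵥ col chevE7 s = 0 := by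
  obtain ⟨u, hu⟩ := exists_refl hR hs
  have hfix : v ∈ eigMod (wMat A7 u) 1 := by
    rw [mem_eigMod_iff_pairMod]
    intro x
    obtain ⟨m, -, hx⟩ := hu x
    rw [hx, pairMod_sub, pairMod_smul, h0, mul_zero, sub_zero, one_mul]
  set γ := col chevE7 s
  set M := wMat A7 w
  set G : ℤ[X] := (X - C c) * (X ^ 2 + C a * X + 1)
  have hG := fix_image hr hR hζ hv hv0 hc ha hchar hfix
  have horth : ∀ x : V, ip γ (aeval M G *ᵥ x) = 0 := fun x => by
    obtain ⟨m, hm, hx⟩ := hu (aeval M G *ᵥ x)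
    rw [Matrix.mulVec_mulVec, hG] at hx
    have hm0 : m • γ = 0 := sub_eq_self.1 hx.symm
    rcases smul_eq_zero.1 hm0 with h | h
    · rw [hm, h, mul_zero]
    · have := root_norm ⟨s, hs⟩
      simp only [γ] at h
      rw [h, ip_zero_right] at this
      norm_num at this
  set Mr := wMat A7 w.reverse
  have hMMr : M * Mr = 1 := wMat_mul_reverse A7 (cartanMat_self hR) w
  have hMrM : Mr * M = 1 := by
    have := wMat_mul_reverse A7 (cartanMat_self hR) w.reverse
    rwa [List.reverse_reverse] at this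
  -- the adjoint of `G(M)` is `G(M⁻¹)`
  have hadj : ∀ x y : V, ip (M *ᵥ x) y = ip x (Mr *ᵥ y) := fun x y => by
    conv_lhs => rw [show y = M *ᵥ (Mr *ᵥ y) by rw [Matrix.mulVec_mulVec, hMMr, Matrix.one_mulVec]]
    exact ip_wMat w _ _
  have hpoly : ∀ (p : ℤ[X]) (x y : V), ip x (aeval M p *ᵥ y) = ip (aeval Mr p *ᵥ x) y := by
    intro p
    induction p using Polynomial.induction_on with
    | C e =>
      intro x y
      simp only [aeval_C, Algebra.algebraMap_eq_smul_one, Matrix.smul_mulVec, Matrix.one_mulVec]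
      rw [ip_smul_right, ip_comm (e • x), ip_smul_right, ip_comm y x]
    | add p p' hp hp' =>
      intro x y
      rw [map_add, map_add, Matrix.add_mulVec, Matrix.add_mulVec, ip_add_right, hp, hp', ip_comm (_ + _) y,
        ip_add_right, ip_comm y, ip_comm y]
    | monomial k e ih =>
      intro x y
      rw [show (C e * X ^ (k + 1) : ℤ[X]) = (C e * X ^ k) * X by rw [pow_succ, mul_assoc], map_mul (aeval M),
        aeval_X, ← Matrix.mulVec_mulVec, ih, ip_comm, hadj, ip_comm, Matrix.mulVec_mulVec,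
        mul_comm (C e * X ^ k) X]
      simp only [map_mul, aeval_X]
  have h1 : aeval Mr G *ᵥ γ = 0 := by
    refine ip_def ?_
    rw [← hpoly G γ (aeval Mr G *ᵥ γ)]
    exact horth _
  have hrev : aeval M G = (-c) • (M ^ 3 * aeval Mr G) := by
    have hGe : G = X ^ 3 + C (a - c) * X ^ 2 + C (1 - c * a) * X - C c := by
      simp only [G, map_sub, map_mul, map_one]
      ring
    have hev : ∀ T : Matrix (Fin chevE7.rank) (Fin chevE7.rank) ℤ,
        aeval T G = T ^ 3 + (a - c) • T ^ 2 + (1 - c * a) • T - c • 1 := fun T => by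
      rw [hGe, map_sub, map_add, map_add, map_mul, map_mul, aeval_C, aeval_C, aeval_C, map_pow, map_pow, aeval_X]
      simp only [Algebra.algebraMap_eq_smul_one, smul_mul_assoc, one_mul]
    have e1 : M ^ 3 * Mr = M ^ 2 := by rw [pow_succ M 2, mul_assoc, hMMr, mul_one]
    have e2 : M ^ 3 * Mr ^ 2 = M := by rw [pow_two Mr, ← mul_assoc, e1, pow_two, mul_assoc, hMMr, mul_one]
    have e3 : M ^ 3 * Mr ^ 3 = 1 := by rw [pow_succ Mr 2, ← mul_assoc, e2, hMMr]
    rw [hev, hev, mul_sub, mul_add, mul_add, mul_smul_comm, mul_smul_comm, mul_smul_comm, e3, e2, e1, mul_one]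
    rcases hc with rfl | rfl <;> module
  rw [hrev, Matrix.smul_mulVec, ← Matrix.mulVec_mulVec, h1, Matrix.mulVec_zero, smul_zero]

end Cfsg.Agent.LieTori.E7
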