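import Cfsg.Agent.LieTori.RegularTorusUniv

/-!
The self-centralising cyclic torus coming from a twisted frame and a regular element of it (owner: helper35).
-/

set_option autoImplicit false
set_option linter.style.haveILetI false

namespace Cfsg.Agent.LieTori

open Cfsg.Lie Cfsg.Agent.ChevGrp Matrix Polynomial
open scoped MatrixGroups

universe u

theorem self_centralizing_of_frame {D : ChevalleyDatum}
    (hD : D ∈ [chevG2, chevB2, chevD4, chevF4, chevE6, chevE7, chevE8]) (hA0 : (cartanMat D).det ≠ 0)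
    {F : Type u} [Field F] [Fintype F] {q d : ℕ} (hq : Fintype.card F = q) (hd : 0 < d)
    (K : Type) [Field K] [Fintype K]
    (ι₀ : F →+* K) (σ : K →+* K) (hσ : ∀ a : K, σ a = a ^ q) (hcardK : Nat.card K = q ^ d)
    (hS : Rules D K) {len : ℕ → ℕ} (hR : RootTable D len)
    (hTu : Function.Injective ((stSys hS).tau hS hR (stSys_HMul hS hR)))
    {γu : D.SteinbergGroup K} {w : List (Fin D.rank)} {c₁ : Fin D.rank → Kˣ}
    (hframe : stFr hS σ γu = (stSys hS).nW w * (stSys hS).tau hS hR (stSys_HMul hS hR) c₁ * γu)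
    {m : ℕ} (hmdef : m = q ^ d - 1) {y₀ : Fin D.rank → ZMod m}
    (hy : ∀ c, pairMod y₀ (wMat (cartanMat D) w.reverse *ᵥ c) = (q : ZMod m) * pairMod y₀ c)
    (hyreg : ∀ s < D.nroots, pairMod y₀ (col D s) ≠ 0)
    (hyfix : ∀ u : List (Fin D.rank), (∀ k : Fin D.rank,
      pairMod y₀ (wMat (cartanMat D) u *ᵥ col D (D.simple k)) = pairMod y₀ (col D (D.simple k))) →
        wMat (cartanMat D) u = 1)
    {n : ℕ} (hcyc : IsCyclic (kerMod ((q : ℤ) • 1 - (wMat (cartanMat D) w.reverse)ᵀ) m))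
    (hcard : Nat.card (kerMod ((q : ℤ) • 1 - (wMat (cartanMat D) w.reverse)ᵀ) m) = n) :
    ∃ H : Subgroup ↥(D.group F), IsCyclic ↥H ∧ Nat.card ↥H * Nat.card (rootKer D F) = n ∧
      Subgroup.centralizer (H : Set ↥(D.group F)) = H := by
  classical
  have hq1 : 1 < q := hq ▸ Fintype.one_lt_card
  have hm0 : m ≠ 0 := hmdef ▸ Nat.sub_ne_zero_of_lt (Nat.one_lt_pow (by omega) hq1)
  haveI : NeZero m := ⟨hm0⟩
  let A := cartanMat D
  let S := glSys hS
  have hM : S.HMul := glSys_HMul hS hR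
  let e : GL D.Idx F →* GL D.Idx K := Matrix.GeneralLinearGroup.map ι₀
  have he : Function.Injective e := glMap_injective D ι₀
  have heG : ∀ z : ↥(D.group F), e z.1 ∈ D.group K := fun z => map_group_le D ι₀ ⟨z.1, z.2, rfl⟩
  have hjσ : ∀ s : F, σ (ι₀ s) = ι₀ s := fun s => by rw [hσ, ← map_pow, ← hq, FiniteField.pow_card]
  have hσim : ∀ a : K, σ a = a → ∃ b, ι₀ b = a := by
    intro a ha
    let P : K[X] := X ^ q - X
    have hP : P ≠ 0 := FiniteField.X_pow_card_sub_X_ne_zero K hq1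
    have hsub : Finset.univ.image ι₀ ⊆ P.roots.toFinset := fun b hb => by
      obtain ⟨b, -, rfl⟩ := Finset.mem_image.1 hb
      rw [Multiset.mem_toFinset, mem_roots hP]
      simp [P, IsRoot, ← map_pow, ← hq, FiniteField.pow_card]
    have heq := Finset.eq_of_subset_of_card_le hsub (by
      rw [Finset.card_image_of_injective _ ι₀.injective, Finset.card_univ, hq]
      exact (Multiset.toFinset_card_le _).trans ((card_roots' P).trans
        (le_of_eq (FiniteField.X_pow_card_sub_X_natDegree_eq K hq1))))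
    have : a ∈ P.roots.toFinset := by simp [P, hP, ← hσ, ha]
    rw [← heq, Finset.mem_image] at this
    obtain ⟨b, -, hb⟩ := this
    exact ⟨b, hb⟩
  have hmK : m ∣ Nat.card K - 1 := by rw [hcardK, hmdef]
  obtain ⟨f, hf⟩ := SylowLarge.exists_zmod_hom_units hmK
  have hfsurj : Function.Surjective f := ((Nat.bijective_iff_injective_and_card _).2 ⟨hf, by
    rw [Nat.card_units, hcardK, ← hmdef, Nat.card_congr Multiplicative.toAdd, Nat.card_zmod]⟩).2
  have hGK : D.group K = S.Gbar := group_eq hS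
  have hmemH : ∀ c, S.tau hS hR hM c ∈ S.Hbar := fun c => by
    rw [← S.tau_range hS hR hM]; exact ⟨c, rfl⟩
  have hGt : ∀ {z}, z ∈ S.Hbar → ∃ c, S.tau hS hR hM c = z := fun {z} hz => by
    rwa [← S.tau_range hS hR hM] at hz
  let U := stSys hS
  have hMU := stSys_HMul hS hR
  let Tu : (Fin D.rank → Kˣ) →* D.SteinbergGroup K := U.tau hS hR hMU
  have hθT : ∀ c, U.θ (Tu c) = S.tau hS hR hM c := θ_tau hS hR
  let φr := stFr hS σ
  have hφT : ∀ c, φr (Tu c) = Tu c ^ q := fun c => by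
    rw [← map_pow]
    refine (stFr_tau hS σ hR c).trans (congrArg Tu (funext fun k => Units.ext ?_))
    rw [Pi.pow_apply, Units.val_pow_eq_pow_val]
    exact hσ _
  obtain ⟨γ, hγu⟩ : ∃ γ : ↥(D.group K), U.θ γu = (γ : GL D.Idx K) :=
    ⟨⟨U.θ γu, by rw [← stSys_θ_range hS]; exact ⟨γu, rfl⟩⟩, rfl⟩
  have hHu : ∀ z : D.SteinbergGroup K, U.θ z ∈ S.Hbar → ∃ c, Tu c = z := fun z hz => by
    obtain ⟨c, hc⟩ := hGt hz
    have h1 : (Tu c)⁻¹ * z ∈ U.θ.ker := by
      rw [MonoidHom.mem_ker, map_mul, map_inv, hθT, hc, inv_mul_cancel]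
    obtain ⟨c', hc'⟩ : ∃ c', Tu c' = (Tu c)⁻¹ * z := by
      have h2 := stSys_ker_le hS h1
      rw [← U.tau_range hS hR hMU] at h2
      exact h2
    exact ⟨c * c', by rw [map_mul, hc', mul_inv_cancel_left]⟩
  let hu : D.SteinbergGroup K := φr γu * γu⁻¹
  have hactu : ∀ c, hu * Tu c * hu⁻¹ = U.nW w * Tu c * (U.nW w)⁻¹ := fun c => by
    have e : hu = U.nW w * Tu c₁ := by
      show φr γu * γu⁻¹ = _
      rw [hframe, mul_inv_cancel_right]
    have e2 : Tu c₁ * Tu c * (Tu c₁)⁻¹ = Tu c := by rw [← map_mul, mul_comm, map_mul, mul_inv_cancel_right]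
    rw [e]
    conv_rhs => rw [← e2]
    group
  let N := kerMod ((q : ℤ) • 1 - (wMat A w.reverse)ᵀ) m
  let Mr := wMat A w.reverse
  let Φ : (Fin D.rank → Multiplicative (ZMod m)) →* D.SteinbergGroup K := Tu.comp (f.compLeft (Fin D.rank))
  have hΦ : Function.Injective Φ := hTu.comp hf.comp_left
  have hΦeq : ∀ y, Φ y = Tu (fun j => f (y j)) := fun y => rfl
  have hNiff : ∀ y, y ∈ N ↔ U.nW w * Φ y * (U.nW w)⁻¹ = Φ y ^ q := fun y => by
    show _ ↔ U.nW w * Tu (fun j => f (y j)) * (U.nW w)⁻¹ = Tu (fun j => f (y j)) ^ q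
    rw [← map_pow, show U.nW w * Tu (fun j => f (y j)) * (U.nW w)⁻¹ = _ from nW_conj_tau U hS hR hMU w _,
      hTu.eq_iff, funext_iff]
    show (∀ a, _ = (0 : ZMod m)) ↔ _
    refine forall_congr' fun a => ?_
    rw [prod_zpow_hom, Pi.pow_apply, ← map_pow, hf.eq_iff, ← ofAdd_toAdd (y a ^ q), Multiplicative.ofAdd.injective.eq_iff,
      toAdd_pow, nsmul_eq_mul]
    have e1 : ∑ b, ((((q : ℤ) • (1 : Matrix (Fin D.rank) (Fin D.rank) ℤ) - Mrᵀ) a b : ℤ) : ZMod m) *
        Multiplicative.toAdd (y b) = (q : ZMod m) * Multiplicative.toAdd (y a) -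
          ∑ j, ((wMat A w.reverse j a : ℤ) : ZMod m) * Multiplicative.toAdd (y j) := by
      simp only [Matrix.sub_apply, Int.cast_sub, sub_mul, Finset.sum_sub_distrib, Matrix.transpose_apply, Mr]
      congr 1
      rw [Finset.sum_eq_single a (fun b _ hb => by simp [Matrix.one_apply_ne hb.symm]) (by simp)]
      simp
    rw [e1, sub_eq_zero, eq_comm]
  let Ψ : N →* D.SteinbergGroup K := (MulAut.conj γu⁻¹).toMonoidHom.comp (Φ.comp N.subtype)
  have hΨ : ∀ y, Ψ y = γu⁻¹ * Φ y.1 * γu := fun y => by simp [Ψ, mul_assoc]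
  have hΨfix : ∀ y, φr (Ψ y) = Ψ y := fun y => by
    have e1 : φr (Φ y.1) = hu * Φ y.1 * hu⁻¹ := by
      rw [hΦeq, hφT, hactu, ← hΦeq]
      exact ((hNiff y.1).1 y.2).symm
    rw [hΨ, map_mul, map_mul, map_inv, e1]
    show (φr γu)⁻¹ * (φr γu * γu⁻¹ * Φ y.1 * (φr γu * γu⁻¹)⁻¹) * φr γu = _
    group
  have hθΦ : ∀ y, U.θ (Φ y) ∈ S.Hbar := fun y => by
    rw [hΦeq, hθT]
    exact hmemH _
  have hθΨ : ∀ y, U.θ (Ψ y) = (γ : GL D.Idx K)⁻¹ * U.θ (Φ y.1) * γ := fun y => by
    rw [hΨ, map_mul, map_mul, map_inv, hγu]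
  let eF : ↥(D.group F) →* GL D.Idx K := e.comp (D.group F).subtype
  have heF : Function.Injective eF := he.comp (D.group F).subtype_injective
  have hfixedGen : Known.ChevSubfield.fixedGen (D := D) σ ≤ eF.range := by
    rw [Known.ChevSubfield.fixedGen, Subgroup.closure_le]
    rintro g ⟨a, s, hs, hga⟩
    obtain ⟨s₀, rfl⟩ := hσim s hs
    by_cases ha : a < D.nroots
    · have hSF : Rules D F := Chev.rules_of_mem F hD
      refine ⟨⟨(glSys hSF).x a s₀, ?_⟩, Units.ext ?_⟩
      · rw [group_eq hSF]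
        exact Subgroup.subset_closure ⟨a, ha, s₀, rfl⟩
      · show (xGL D F a s₀ : Matrix D.Idx D.Idx F).map ι₀ = _
        rw [val_xGL hSF, x_map, hga]
    · refine ⟨1, ?_⟩
      rw [map_one]
      exact (Units.ext (by rw [hga, ChevalleyDatum.x, dif_neg ha, Units.val_one])).symm
  have hθfix : ∀ z, φr z = z → U.θ z ∈ eF.range := fun z hz => by
    refine hfixedGen ?_
    rw [← map_θ_stFix hS σ]
    exact Subgroup.mem_map_of_mem _ (mem_stFix_of_fixed hS σ hR hTu hz)
  have hlift : ∀ y : ↥(D.group F), ∃ z, φr z = z ∧ U.θ z = eF y := fun y => by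
    have h1 : eF y ∈ (stFix hS σ).map U.θ := by
      rw [map_θ_stFix hS σ]
      have h2 : (D.group F).map e ≤ Known.ChevSubfield.fixedGen (D := D) σ := by
        rw [ChevalleyDatum.group, MonoidHom.map_closure, Subgroup.closure_le]
        rintro _ ⟨g, ⟨a, s, hga⟩, rfl⟩
        refine Subgroup.subset_closure ⟨a, ι₀ s, hjσ s, ?_⟩
        show (g : Matrix D.Idx D.Idx F).map ι₀ = _
        rw [hga, show D.xMat F a s = D.x F a s by rw [ChevalleyDatum.x, dif_pos a.2], x_map]
      exact h2 ⟨y, y.2, rfl⟩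
    obtain ⟨z, hz, hz'⟩ := h1
    exact ⟨z, stFr_of_mem_stFix hS σ hz, hz'⟩
  let Ξ : N →* ↥(D.group F) :=
    (MonoidHom.ofInjective heF).symm.toMonoidHom.comp
      ((U.θ.comp Ψ).codRestrict eF.range fun y => hθfix _ (hΨfix y))
  have hΞ : ∀ y, eF (Ξ y) = U.θ (Ψ y) := fun y => by
    show eF ((MonoidHom.ofInjective heF).symm _) = _
    rw [← MonoidHom.ofInjective_apply heF, MulEquiv.apply_symm_apply]
    rfl
  have hyN : (fun k => Multiplicative.ofAdd (y₀ k)) ∈ N := fun a => by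
    show ∑ b, ((((q : ℤ) • (1 : Matrix (Fin D.rank) (Fin D.rank) ℤ) - (wMat A w.reverse)ᵀ) a b : ℤ) : ZMod m) * y₀ b = 0
    have h1 := hy (Pi.single a 1)
    rw [pairMod_single, Matrix.mulVec_single_one] at h1
    simp only [Matrix.sub_apply, Int.cast_sub, sub_mul, Finset.sum_sub_distrib, Matrix.transpose_apply]
    rw [Finset.sum_eq_single a (fun b _ hb => by simp [Matrix.one_apply_ne hb.symm]) (by simp), sub_eq_zero]
    simpa [pairMod] using h1.symm
  set x : ↥(D.group F) := Ξ ⟨_, hyN⟩ with hxdef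
  let c₀ : Fin D.rank → Kˣ := fun k => f (Multiplicative.ofAdd (y₀ k))
  let t : GL D.Idx K := S.tau hS hR hM c₀
  have hxt : eF x = (γ : GL D.Idx K)⁻¹ * t * γ := by
    rw [hxdef, hΞ, hθΨ, hΦeq, hθT]
  have htx : (γ : GL D.Idx K) * eF x * (γ : GL D.Idx K)⁻¹ = t := by rw [hxt]; group
  have hreg : ∀ s < D.nroots, ∏ k : Fin D.rank, c₀ k ^ D.cartan k s ≠ 1 := fun s hs h1 => by
    apply hyreg s hs
    simp only [c₀] at h1
    rw [prod_zpow_hom, ← map_one f] at h1
    simpa [pairMod, col] using congrArg Multiplicative.toAdd (hf h1)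
  have hfix' : ∀ u : List (Fin D.rank), S.nW u * t * (S.nW u)⁻¹ = t → wMat A u = 1 := fun u hu' => by
    rw [nW_conj_tau S hS hR hM] at hu'
    let c' : Fin D.rank → Kˣ := fun k => ∏ i, c₀ i ^ wMat A u.reverse i k
    have h1 : c' * c₀⁻¹ ∈ rootKer D K := by
      refine (S.θ_tau_eq_one_iff hS hR hM _).1 ?_
      rw [map_mul (S.tau hS hR hM), map_inv (S.tau hS hR hM), show S.tau hS hR hM c' = S.tau hS hR hM c₀ from hu',
        mul_inv_cancel, map_one]
    have h2 := hyfix u.reverse fun k => by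
      let zd : Fin D.rank → Multiplicative (ZMod m) :=
        fun i => Multiplicative.ofAdd (pairMod y₀ (fun b => wMat A u.reverse b i) - y₀ i)
      have h3 : ∏ i, f (zd i) ^ D.cartan i (D.simple k) = 1 := by
        rw [← h1 k]
        refine Finset.prod_congr rfl fun i _ => congrArg (· ^ D.cartan i (D.simple k)) ?_
        show f (Multiplicative.ofAdd (_ - _)) = c' i * (c₀ i)⁻¹
        rw [ofAdd_sub, _root_.map_div, div_eq_mul_inv]
        refine congrArg (· * (c₀ i)⁻¹) ?_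
        show _ = ∏ b, f _ ^ wMat A u.reverse b i
        rw [prod_zpow_hom]
        simp [pairMod]
      rw [prod_zpow_hom, ← map_one f] at h3
      have h4 := congrArg Multiplicative.toAdd (hf h3)
      simp only [zd, toAdd_ofAdd, toAdd_one, mul_sub, Finset.sum_sub_distrib, sub_eq_zero] at h4
      show pairMod y₀ (wMat A u.reverse *ᵥ col D (D.simple k)) = pairMod y₀ (col D (D.simple k))
      refine Eq.trans ?_ (h4.trans rfl)
      simp only [pairMod, col, Matrix.mulVec, dotProduct, Int.cast_sum, Int.cast_mul, Finset.sum_mul,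
        Finset.mul_sum]
      rw [Finset.sum_comm]
      exact Finset.sum_congr rfl fun a _ => Finset.sum_congr rfl fun b _ => by ring
    have h5 := wMat_mul_reverse A (cartanMat_self hR) u
    rwa [h2, mul_one] at h5
  have hCK : ∀ z ∈ S.Gbar, z * t = t * z → z ∈ S.Hbar := fun z hz hc =>
    mem_Hbar_of_commute S hS hR hM hA0 hreg hfix' hz hc
  let H : Subgroup ↥(D.group F) := Subgroup.centralizer {x}
  have hrange : Ξ.range = H := by
    ext y
    constructor
    · rintro ⟨z, rfl⟩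
      refine Subgroup.mem_centralizer_iff.2 fun u hu' => ?_
      rw [Set.mem_singleton_iff.1 hu']
      refine heF ?_
      rw [map_mul, map_mul, hxt, hΞ, hθΨ]
      have e3 : U.θ (Φ z.1) * t = t * U.θ (Φ z.1) := S.Hbar_comm hS hR hM _ (hθΦ _) _ (hmemH c₀)
      calc _ = (γ : GL D.Idx K)⁻¹ * (t * U.θ (Φ z.1)) * γ := by group
        _ = _ := by rw [← e3]; group
    · intro hy
      have hc' : eF x * eF y = eF y * eF x := by
        rw [← map_mul, ← map_mul, Subgroup.mem_centralizer_iff.1 hy x rfl]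
      have hH : (γ : GL D.Idx K) * eF y * (γ : GL D.Idx K)⁻¹ ∈ S.Hbar := by
        refine hCK _ ?_ ?_
        · rw [← hGK]
          exact mul_mem (mul_mem γ.2 (heG y)) (inv_mem γ.2)
        · rw [← htx]
          show (γ : GL D.Idx K) * eF y * (γ : GL D.Idx K)⁻¹ * ((γ : GL D.Idx K) * eF x * (γ : GL D.Idx K)⁻¹) =
            (γ : GL D.Idx K) * eF x * (γ : GL D.Idx K)⁻¹ * ((γ : GL D.Idx K) * eF y * (γ : GL D.Idx K)⁻¹)
          calc _ = (γ : GL D.Idx K) * (eF y * eF x) * (γ : GL D.Idx K)⁻¹ := by group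
            _ = _ := by rw [← hc']; group
      obtain ⟨z, hz, hzy⟩ := hlift y
      obtain ⟨c, hc⟩ := hHu (γu * z * γu⁻¹) (by rwa [map_mul, map_mul, map_inv, hγu, hzy])
      choose y' hy' using fun j => hfsurj (c j)
      have hΦy : Φ y' = γu * z * γu⁻¹ := (congrArg Tu (funext hy')).trans hc
      have hyN : y' ∈ N := by
        rw [hNiff]
        show U.nW w * Tu (f.compLeft (Fin D.rank) y') * (U.nW w)⁻¹ = _
        rw [← hactu, show Φ y' ^ q = φr (Φ y') by rw [hΦeq, hφT]]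
        show hu * Φ y' * hu⁻¹ = _
        rw [hΦy, map_mul, map_mul, map_inv, hz]
        show φr γu * γu⁻¹ * (γu * z * γu⁻¹) * (φr γu * γu⁻¹)⁻¹ = _
        group
      refine ⟨⟨y', hyN⟩, heF ?_⟩
      rw [hΞ, hΨ, hΦy, ← hzy, show γu⁻¹ * (γu * z * γu⁻¹) * γu = z by group]
  haveI := hcyc
  have hkerΞ : Nat.card Ξ.ker = Nat.card (rootKer D F) := by
    have hmemker : ∀ y : N, y ∈ Ξ.ker ↔ (fun j => f (y.1 j)) ∈ rootKer D K := fun y => by
      rw [MonoidHom.mem_ker, ← heF.eq_iff, map_one, hΞ, hθΨ]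
      have e5 : U.θ (Φ y.1) = 1 ↔ (fun j => f (y.1 j)) ∈ rootKer D K := by
        rw [hΦeq]
        exact U.θ_tau_eq_one_iff hS hR hMU _
      rw [← e5]
      constructor
      · intro h1
        have := congrArg (fun z => (γ : GL D.Idx K) * z * (γ : GL D.Idx K)⁻¹) h1
        simpa [mul_assoc] using this
      · intro h1
        rw [h1]; group
    let ιF : (Fin D.rank → Fˣ) → (Fin D.rank → Kˣ) := fun c j => Units.map ι₀.toMonoidHom (c j)
    have hιinj : Function.Injective ιF := fun a b h => funext fun j =>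
      Units.ext (ι₀.injective (congrArg Units.val (congrFun h j)))
    have hιker : ∀ c, c ∈ rootKer D F ↔ ιF c ∈ rootKer D K := fun c => by
      refine forall_congr' fun k => ?_
      simp only [ιF, ← map_zpow, ← map_prod]
      refine ⟨fun h => by rw [h, map_one], fun h => Units.ext (ι₀.injective ?_)⟩
      rw [Units.val_one, map_one]
      exact (congrArg Units.val h :)
    have hcent : ∀ c, c ∈ rootKer D K → ∀ g : D.SteinbergGroup K, g * Tu c * g⁻¹ = Tu c := fun c hc g => by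
      have h1 : Tu c ∈ Subgroup.center (D.SteinbergGroup K) := by
        rw [center_le_tau_rootKer hS hR]; exact ⟨c, hc, rfl⟩
      rw [Subgroup.mem_center_iff.1 h1 g, mul_inv_cancel_right]
    have hpre : ∀ c : Fin D.rank → Fˣ, c ∈ rootKer D F →
        ∃ y : Ξ.ker, (fun j => f (y.1.1 j)) = ιF c := fun c hc => by
      choose y' hy' using fun j => hfsurj (ιF c j)
      have hy'' : (fun j => f (y' j)) = ιF c := funext hy'
      have hyN : y' ∈ N := by
        rw [hNiff]
        show U.nW w * Tu (fun j => f (y' j)) * (U.nW w)⁻¹ = Tu (fun j => f (y' j)) ^ q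
        rw [hy'', hcent _ ((hιker c).1 hc), ← map_pow]
        refine congrArg Tu (funext fun j => Units.ext ?_)
        rw [Pi.pow_apply, Units.val_pow_eq_pow_val, ← hσ]
        exact (hjσ _).symm
      exact ⟨⟨⟨y', hyN⟩, (hmemker _).2 (by show (fun j => f (y' j)) ∈ _; rw [hy'']; exact (hιker c).1 hc)⟩, hy''⟩
    let G₀ : rootKer D F → Ξ.ker := fun c => (hpre c.1 c.2).choose
    have hG₀ : ∀ c, (fun j => f ((G₀ c).1.1 j)) = ιF c.1 := fun c => (hpre c.1 c.2).choose_spec
    refine (Nat.card_eq_of_bijective G₀ ⟨fun a b h => Subtype.ext (hιinj ?_), fun y => ?_⟩).symm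
    · rw [← hG₀, ← hG₀, h]
    · have hc := (hmemker y.1).1 y.2
      have h1 : Tu (fun j => f (y.1.1 j)) ^ q = Tu (fun j => f (y.1.1 j)) :=
        ((hNiff y.1.1).1 y.1.2).symm.trans (hcent _ hc _)
      rw [← map_pow] at h1
      choose b hb using fun j => hσim (f (y.1.1 j) : K) (by
        rw [hσ, ← Units.val_pow_eq_pow_val]
        exact congrArg Units.val (congrFun (hTu h1) j))
      let c : Fin D.rank → Fˣ := fun j => Units.mk0 (b j) fun h0 => (f (y.1.1 j)).ne_zero (by
        rw [← hb j, h0, map_zero])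
      have hcy : ιF c = fun j => f (y.1.1 j) := funext fun j => Units.ext (hb j)
      refine ⟨⟨c, (hιker c).2 (by rw [hcy]; exact hc)⟩, Subtype.ext (Subtype.ext (funext fun j => hf ?_))⟩
      exact (congrFun (hG₀ ⟨c, (hιker c).2 (by rw [hcy]; exact hc)⟩) j).trans (congrFun hcy j)
  refine ⟨H, hrange ▸ isCyclic_of_surjective Ξ.rangeRestrict Ξ.rangeRestrict_surjective, ?_, le_antisymm ?_ ?_⟩
  · rw [← hkerΞ, ← hrange, ← hcard, ← Nat.card_congr (QuotientGroup.quotientKerEquivRange Ξ).toEquiv]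
    exact (Subgroup.card_eq_card_quotient_mul_card_subgroup _).symm
  · exact Subgroup.centralizer_le (Set.singleton_subset_iff.2 (Subgroup.mem_centralizer_iff.2 fun u hu' => by
      rw [Set.mem_singleton_iff.1 hu']))
  · intro y hy
    refine Subgroup.mem_centralizer_iff.2 fun u hu' => ?_
    rw [SetLike.mem_coe, ← hrange] at hu'
    rw [← hrange] at hy
    obtain ⟨a, rfl⟩ := hu'
    obtain ⟨b, rfl⟩ := hy
    rw [← map_mul, ← map_mul, mul_comm]

end Cfsg.Agent.LieTori
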