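import Cfsg.Agent.LieTori.E7Frame
import Cfsg.Agent.LieTori.TorusFromFrame
import Cfsg.Agent.CentralExt.EmbedE7

/-! The cyclic self-centralising torus of order `Φ₁₂(q)(q ^ 3 + 1)/gcd(2, q - 1)` in `E7(q)` (owner: helper35). -/

set_option autoImplicit false
set_option linter.style.haveILetI false

namespace Cfsg.Agent.LieTori.E7

open Cfsg.Lie Cfsg.Agent.ChevGrp Matrix Polynomial

theorem col_half : ∀ (s : Fin chevE7.nroots) (k : Fin chevE7.rank), 2 ∣ (B7 *ᵥ col chevE7 s) k := by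
  decide +kernel

theorem col_eq : ∀ s : Fin chevE7.nroots,
    A7 *ᵥ (fun k => (B7 *ᵥ col chevE7 s) k / 2) = col chevE7 s := by decide +kernel

theorem exists_zmod_embed {k m : ℕ} (hm : m ≠ 0) (h : k ∣ m) :
    ∃ f : ZMod k →+ ZMod m, Function.Injective f := by
  obtain ⟨t, rfl⟩ := h
  have ht : t ≠ 0 := right_ne_zero_of_mul hm
  let g : ℤ →+ ZMod (k * t) := (AddMonoidHom.mulLeft (t : ZMod (k * t))).comp (Int.castAddHom _)
  have hg : g (k : ℤ) = 0 := by
    show (t : ZMod (k * t)) * ((k : ℤ) : ZMod (k * t)) = 0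
    rw [Int.cast_natCast, ← Nat.cast_mul, mul_comm, ZMod.natCast_self]
  refine ⟨ZMod.lift k ⟨g, hg⟩, (ZMod.lift_injective _).2 fun x hx => ?_⟩
  have h1 : (((t : ℤ) * x : ℤ) : ZMod (k * t)) = 0 := by
    rw [Int.cast_mul, Int.cast_natCast]
    exact hx
  rw [ZMod.intCast_zmod_eq_zero_iff_dvd, Nat.cast_mul, mul_comm (k : ℤ),
    mul_dvd_mul_iff_left (Int.natCast_ne_zero.2 ht)] at h1
  exact (ZMod.intCast_zmod_eq_zero_iff_dvd x k).2 h1

/-- The multiples `±2 q^i`, `i < 3`, are distinct modulo `q ^ 3 + 1`. -/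
theorem two_pow_distinct {q : ℕ} (hq : 1 < q) (i j : Fin 3) {e : ℤ} (he : e = 1 ∨ e = -1)
    (h : (((2 * e * (q : ℤ) ^ (j : ℕ)) : ℤ) : ZMod (q ^ 3 + 1)) =
      (((2 * (q : ℤ) ^ (i : ℕ)) : ℤ) : ZMod (q ^ 3 + 1))) : j = i ∧ e = 1 := by
  by_cases hq5 : q < 5
  · have key : ∀ i j : Fin 3, ∀ e ∈ [(1 : ℤ), -1], ∀ q ∈ [2, 3, 4],
        (((q ^ 3 + 1 : ℕ) : ℤ) ∣ 2 * (q : ℤ) ^ (i : ℕ) - 2 * e * (q : ℤ) ^ (j : ℕ)) → j = i ∧ e = 1 := by
      decide +kernel
    refine key i j e (by simpa using he) q ?_ ((ZMod.intCast_eq_intCast_iff_dvd_sub _ _ _).1 h)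
    simp only [List.mem_cons, List.not_mem_nil, or_false]
    omega
  · have hd := (ZMod.intCast_eq_intCast_iff_dvd_sub _ _ _).1 h
    have hb : ∀ k : Fin 3, (q : ℤ) ^ (k : ℕ) ≤ (q : ℤ) ^ 2 := fun k =>
      pow_le_pow_right₀ (by exact_mod_cast hq.le) (Nat.le_of_lt_succ k.2)
    have hpos : ∀ k : Fin 3, 0 < (q : ℤ) ^ (k : ℕ) := fun k => pow_pos (by exact_mod_cast (by omega : 0 < q)) _
    have hq' : (5 : ℤ) ≤ q := by exact_mod_cast (not_lt.1 hq5)
    have hbig : 4 * (q : ℤ) ^ 2 < (q : ℤ) ^ 3 + 1 := by nlinarith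
    have h0 : 2 * (q : ℤ) ^ (i : ℕ) - 2 * e * (q : ℤ) ^ (j : ℕ) = 0 := by
      refine Int.eq_zero_of_abs_lt_dvd hd ?_
      have := hb i
      have := hb j
      have := hpos i
      have := hpos j
      push_cast
      rcases he with rfl | rfl <;> rw [abs_lt] <;> constructor <;> linarith
    rcases he with rfl | rfl
    · have h1 : (q : ℤ) ^ (i : ℕ) = (q : ℤ) ^ (j : ℕ) := by linarith
      refine ⟨Fin.ext ?_, rfl⟩
      exact Nat.pow_right_injective (by omega : 2 ≤ q) (by exact_mod_cast h1.symm)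
    · have := hpos i
      have := hpos j
      linarith

theorem pairMod_combine {l r n m : ℕ} (ιr : ZMod r →+ ZMod m) (ι3 : ZMod n →+ ZMod m) (v : Fin l → ZMod r)
    (b c : Fin l → ℤ) :
    pairMod (fun k => ιr (v k) + ι3 (b k)) c = ιr (pairMod v c) + ι3 ((b ⬝ᵥ c : ℤ) : ZMod n) := by
  simp only [pairMod, dotProduct, Int.cast_sum, map_sum, ← Finset.sum_add_distrib, mul_add, Int.cast_mul]
  refine Finset.sum_congr rfl fun k _ => ?_
  rw [← zsmul_eq_mul, ← zsmul_eq_mul, mul_comm (b k : ZMod n), ← zsmul_eq_mul, ← zsmul_eq_mul, map_zsmul, map_zsmul]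

theorem zmod2_cases : ∀ x : ZMod 2, x = 0 ∨ x = 1 := by decide +kernel

theorem zmod3_cases : ∀ x : ZMod 3, (x ^ 4 - x ^ 2 + 1) * (x ^ 3 + 1) ≠ 0 ∨ x = -1 := by decide +kernel

theorem zmod3_four : ((4 : ℤ) : ZMod 3) ≠ 0 := by decide +kernel

theorem zmod3_val : (((-1 : ZMod 3)) ^ 2 + 1) * ((-1) ^ 4 - (-1) ^ 2 + 1) ≠ 0 := by decide +kernel

variable {len : ℕ → ℕ}

/-- The kernel of `q - Mᵀ` modulo any prime is at most a line. -/
theorem finrank_ker_le_one (hR : RootTable chevE7 len) {r : ℕ} [Fact r.Prime]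
    (hr : ¬ r ∣ [2, 6, 8, 10, 12, 14, 18].prod) {ζ : ZMod r} (hζ : orderOf ζ = 12)
    {w : List (Fin chevE7.rank)} {v : Fin chevE7.rank → ZMod r} (hv : v ∈ eigMod (wMat A7 w) ζ) (hv0 : v ≠ 0)
    {s₀ : ℕ} (hs₀ : s₀ < chevE7.nroots)
    (hchar : (wMat A7 w).charpoly = cyclotomic 12 ℤ * (X ^ 3 - C (-1)))
    (hpair : pairMod v (col chevE7 s₀) = 0)
    (horth : ∀ i j : Fin 3, i ≠ j →
      ip (wMat A7 w ^ (i : ℕ) *ᵥ col chevE7 s₀) (wMat A7 w ^ (j : ℕ) *ᵥ col chevE7 s₀) = 0)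
    (q s : ℕ) [Fact s.Prime] :
    Module.finrank (ZMod s) (LinearMap.ker (Matrix.toLin'
      (((q : ℤ) • (1 : Matrix (Fin chevE7.rank) (Fin chevE7.rank) ℤ) - (wMat A7 w)ᵀ).map
        (Int.castRingHom (ZMod s))))) ≤ 1 := by
  classical
  set M := wMat A7 w with hM
  have hcharT : Mᵀ.charpoly = cyclotomic 12 ℤ * (X ^ 3 + 1) := by
    rw [Matrix.charpoly_transpose, hchar, map_neg, map_one, sub_neg_eq_add]
  have hPd : cyclotomic 12 ℤ * (X ^ 3 + 1) ∣ X ^ 12 - 1 := by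
    rw [cyclotomic_twelve]
    exact ⟨(X ^ 2 + 1) * (X ^ 3 - 1), by ring⟩
  by_cases hs : s ∣ 12
  swap
  · exact finrank_ker_le_one_of_not_dvd hPd hcharT hs
  have hs23 : s = 2 ∨ s = 3 := by
    have hp : s.Prime := Fact.out
    rcases (Nat.Prime.dvd_mul hp).1 (show s ∣ 4 * 3 from hs) with h | h
    · exact Or.inl ((Nat.prime_dvd_prime_iff_eq hp Nat.prime_two).1 (hp.dvd_of_dvd_pow (show s ∣ 2 ^ 2 from h)))
    · exact Or.inr ((Nat.prime_dvd_prime_iff_eq hp Nat.prime_three).1 h)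
  have hroot : ∀ x : ZMod s, (x ^ 4 - x ^ 2 + 1) * (x ^ 3 + 1) ≠ 0 →
      ((cyclotomic 12 ℤ * (X ^ 3 + 1)).map (Int.castRingHom (ZMod s))).rootMultiplicity x = 0 := fun x hx => by
    refine rootMultiplicity_eq_zero fun h => hx ?_
    rw [IsRoot, cyclotomic_twelve] at h
    simpa using h
  rcases hs23 with rfl | rfl
  · refine finrank_ker_le_rootMultiplicity.trans ?_
    rw [hcharT]
    rcases zmod2_cases (q : ZMod 2) with h | h <;> rw [h]
    · rw [hroot 0 (by simp)]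
      exact zero_le_one
    · have e : (cyclotomic 12 ℤ * (X ^ 3 + 1)).map (Int.castRingHom (ZMod 2)) =
          (X - C 1) * ((X ^ 4 - X ^ 2 + 1) * (X ^ 2 - X + 1)) := by
        rw [cyclotomic_twelve, CharTwo.sub_eq_add X (C 1)]
        simp
        ring
      have h2 : ¬ ((X ^ 4 - X ^ 2 + 1) * (X ^ 2 - X + 1) : (ZMod 2)[X]).IsRoot 1 := by simp
      rw [e, rootMultiplicity_mul (mul_ne_zero (X_sub_C_ne_zero _) fun h0 => h2 (by rw [h0]; simp)),
        rootMultiplicity_X_sub_C_self, rootMultiplicity_eq_zero h2]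
  · rcases zmod3_cases (q : ZMod 3)
      with h | h
    · refine finrank_ker_le_rootMultiplicity.trans ?_
      rw [hcharT, hroot _ h]
      exact zero_le_one
    set Kr := LinearMap.ker (Matrix.toLin'
      (((q : ℤ) • (1 : Matrix (Fin chevE7.rank) (Fin chevE7.rank) ℤ) - Mᵀ).map (Int.castRingHom (ZMod 3))))
    have heig : ∀ x ∈ Kr, x ∈ eigMod M (-1 : ZMod 3) := fun x hx => by
      rw [← h, mem_eigMod]
      intro a
      rw [LinearMap.mem_ker, Matrix.toLin'_apply] at hx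
      have h1 := congrFun hx a
      simp only [Matrix.mulVec, dotProduct, Matrix.map_apply, Matrix.sub_apply, map_sub, sub_mul,
        Finset.sum_sub_distrib, Pi.zero_apply, sub_eq_zero, Matrix.transpose_apply, eq_intCast] at h1
      rw [← h1, Finset.sum_eq_single a (fun b _ hb => by simp [Matrix.one_apply_ne hb.symm]) (by simp)]
      simp
    let L : Kr →ₗ[ZMod 3] ZMod 3 :=
      { toFun := fun x => pairMod x.1 (col chevE7 s₀)
        map_add' := fun x y => by simp [pairMod, mul_add, Finset.sum_add_distrib]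
        map_smul' := fun c x => by simp [pairMod, Finset.mul_sum, mul_left_comm] }
    refine (LinearMap.finrank_le_finrank_of_injective (f := L) ?_).trans_eq (Module.finrank_self _)
    refine (injective_iff_map_eq_zero L).2 fun x hx => Subtype.ext (funext fun k => ?_)
    have hx0 : pairMod x.1 (col chevE7 s₀) = 0 := hx
    have he := heig x.1 x.2
    set c : V := Pi.single k 1
    set z := aeval M ((X ^ 2 + 1) * cyclotomic 12 ℤ : ℤ[X]) *ᵥ c with hzdef
    have hzker : aeval M (X ^ 3 - C (-1) : ℤ[X]) *ᵥ z = 0 := by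
      rw [hzdef, Matrix.mulVec_mulVec, ← map_mul, mul_comm, mul_assoc, map_mul, ← hchar,
        Matrix.aeval_self_charpoly, mul_zero, Matrix.zero_mulVec]
    have h4 := congrArg (pairMod x.1) (four_smul_of_kill hr hR hζ hv hv0 hs₀ (Or.inr rfl) hchar hpair horth hzker)
    have hγ : ∀ i : ℕ, pairMod x.1 (M ^ i *ᵥ col chevE7 s₀) = 0 := fun i => by
      have e := pairMod_aeval he ((X : ℤ[X]) ^ i) (col chevE7 s₀)
      rw [map_pow, aeval_X, hx0, mul_zero] at e
      exact e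
    simp only [pairMod_smul, pairMod_sum, ← hM, hγ, mul_zero, Finset.sum_const_zero] at h4
    have h2 := pairMod_aeval he ((X ^ 2 + 1) * cyclotomic 12 ℤ : ℤ[X]) c
    rw [← hzdef, (mul_eq_zero.1 h4).resolve_left zmod3_four] at h2
    simp only [cyclotomic_twelve, eval₂_mul, eval₂_add, eval₂_sub, eval₂_pow, eval₂_X, eval₂_one, c,
      pairMod_single] at h2
    exact (mul_eq_zero.1 h2.symm).resolve_left zmod3_val

universe u

theorem e7_self_centralizing {F : Type u} [Field F] [Fintype F] {q : ℕ} (hq : Fintype.card F = q) :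
    ∃ H : Subgroup ↥(chevE7.group F), IsCyclic ↥H ∧
      Nat.card ↥H = (q ^ 4 - q ^ 2 + 1) * (q ^ 3 + 1) / Nat.gcd 2 (q - 1) ∧
      Subgroup.centralizer (H : Set ↥(chevE7.group F)) = H := by
  classical
  have hq1 : 1 < q := hq ▸ Fintype.one_lt_card
  have hcardF : Nat.card F = q := by rw [Nat.card_eq_fintype_card, hq]
  obtain ⟨p, hp⟩ := CharP.exists F
  haveI := Fact.mk (CharP.char_is_prime F p)
  haveI : NeZero 12 := ⟨by norm_num⟩
  let K := FiniteField.Extension F p 12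
  haveI : Fintype K := Fintype.ofFinite K
  let σ : K →+* K := (FiniteField.Extension.frob F p 12).toAlgHom.toRingHom
  have hσ : ∀ a : K, σ a = a ^ q := fun a => by
    show FiniteField.Extension.frob F p 12 a = _
    rw [FiniteField.Extension.frob_apply, hcardF]
  have hcardK : Nat.card K = q ^ 12 := by rw [FiniteField.natCard_extension, hcardF]
  have hS : Rules chevE7 K := Chev.rules_of_mem K (by simp : chevE7 ∈ _)
  obtain ⟨len, hR⟩ := hS.root
  obtain ⟨r, hr, γu, w, c₁, vr, s, hrW, hord, hv0, heig, hframe, hs, hpair, hcube⟩ :=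
    exists_frame_neg hq K (algebraMap F K) σ hσ hcardK hS hR
  have hq0 : (q : ZMod r) ≠ 0 := fun h => by
    rw [h, orderOf_zero] at hord
    norm_num at hord
  set M := wMat A7 w.reverse with hMdef
  have hMw : M * wMat A7 w = 1 := by
    have := wMat_mul_reverse A7 (cartanMat_self hR) w.reverse
    rwa [List.reverse_reverse] at this
  have heigM : vr ∈ eigMod M (q : ZMod r) := by
    rw [mem_eigMod_iff_pairMod]
    intro c
    have hc := (mem_eigMod_iff_pairMod _ _ _).1 heig (M *ᵥ c)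
    rw [Matrix.mulVec_mulVec, wMat_mul_reverse A7 (cartanMat_self hR), Matrix.one_mulVec] at hc
    rw [hc, ← mul_assoc, mul_inv_cancel₀ hq0, one_mul]
  obtain ⟨s₀, ε, hs₀, hε, hchar, hpair₀, hcube₀, horth, hcomp⟩ := exists_triple hrW hR hord heigM hv0
  have hcube' : M ^ 3 *ᵥ col chevE7 s = (-1 : ℤ) • col chevE7 s := by
    have hMM : M ^ 3 * wMat A7 w ^ 3 = 1 := by
      rw [← Commute.mul_pow (mul_eq_one_comm.1 hMw ▸ hMw : M * wMat A7 w = wMat A7 w * M), hMw, one_pow]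
    have h := congrArg (M ^ 3 *ᵥ ·) hcube
    simp only [Matrix.mulVec_mulVec, hMM, Matrix.one_mulVec, Matrix.mulVec_neg] at h
    rw [neg_one_zsmul, eq_neg_iff_add_eq_zero, add_comm, ← eq_neg_iff_add_eq_zero]
    exact h
  obtain rfl : ε = -1 := eps_eq (fun h => by
    have := root_norm ⟨s, hs⟩
    simp only [h, ip_zero_right] at this
    norm_num at this) hcube₀ (hcomp s hs hpair) hcube'
  set δ : Fin 3 → V := fun i => M ^ (i : ℕ) *ᵥ col chevE7 s₀ with hδdef
  have hroot : ∀ i, ∃ t, t < chevE7.nroots ∧ col chevE7 t = δ i ∧ pairMod vr (col chevE7 t) = 0 := by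
    have e : ∀ k : ℕ, ∃ t, t < chevE7.nroots ∧ col chevE7 t = M ^ k *ᵥ col chevE7 s₀ ∧
        pairMod vr (col chevE7 t) = 0 := fun k => by
      induction k with
      | zero => exact ⟨s₀, hs₀, by rw [pow_zero, Matrix.one_mulVec], hpair₀⟩
      | succ k ih =>
        obtain ⟨t, ht, et, h0⟩ := ih
        refine ⟨act chevE7 w.reverse t, hR.act_lt _ ht, by rw [col_act hR _ ht, et, mulVec_pow_succ], ?_⟩
        rw [col_act hR _ ht, (mem_eigMod_iff_pairMod _ _ _).1 heigM, h0, mul_zero]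
    exact fun i => e i
  choose tr htr etr hvtr using hroot
  have hn : ∀ i, ip (δ i) (δ i) = 4 := fun i => etr i ▸ root_norm ⟨tr i, htr i⟩
  let a : Fin 3 → V := fun i k => (B7 *ᵥ δ i) k / 2
  have ha : ∀ i (c : V), 2 * (a i ⬝ᵥ c) = ip (δ i) c := fun i c => by
    rw [ip_comm, ip, dotProduct_comm (a i), dotProduct, dotProduct, Finset.mul_sum]
    refine Finset.sum_congr rfl fun k _ => ?_
    rw [mul_left_comm, Int.mul_ediv_cancel']
    rw [← etr i]
    exact col_half ⟨tr i, htr i⟩ k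
  let Y : V → ℤ := fun c => a 0 ⬝ᵥ c + (q : ℤ) * (a 1 ⬝ᵥ c) + (q : ℤ) ^ 2 * (a 2 ⬝ᵥ c)
  have hY : ∀ c, Y (M *ᵥ c) = (q : ℤ) * Y c - ((q : ℤ) ^ 3 + 1) * (a 2 ⬝ᵥ c) := fun c => by
    have e1 : a 1 ⬝ᵥ (M *ᵥ c) = a 0 ⬝ᵥ c := by
      have h1 := ha 1 (M *ᵥ c)
      have h2 : δ 1 = M *ᵥ δ 0 := by simp [hδdef]
      rw [h2, ip_wMat, ← ha 0 c] at h1
      linarith
    have e2 : a 2 ⬝ᵥ (M *ᵥ c) = a 1 ⬝ᵥ c := by
      have h1 := ha 2 (M *ᵥ c)
      have h2 : δ 2 = M *ᵥ δ 1 := by simp [hδdef, pow_two, Matrix.mulVec_mulVec]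
      rw [h2, ip_wMat, ← ha 1 c] at h1
      linarith
    have e0 : a 0 ⬝ᵥ (M *ᵥ c) = -(a 2 ⬝ᵥ c) := by
      have h1 := ha 0 (M *ᵥ c)
      have h2 : δ 0 = -(M *ᵥ δ 2) := by
        show M ^ 0 *ᵥ col chevE7 s₀ = -(M *ᵥ (M ^ 2 *ᵥ col chevE7 s₀))
        rw [mulVec_pow_succ, show M ^ (2 + 1) *ᵥ col chevE7 s₀ = _ from hcube₀, neg_one_zsmul, neg_neg, pow_zero,
          Matrix.one_mulVec]
      rw [h2, ip_neg_left, ip_wMat, ← ha 2 c] at h1
      linarith
    simp only [Y, e0, e1, e2]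
    ring
  set n3 := q ^ 3 + 1 with hn3
  have hYδ : ∀ i, Y (δ i) = 2 * (q : ℤ) ^ (i : ℕ) := by
    have hd : ∀ i j, a i ⬝ᵥ δ j = if i = j then 2 else 0 := fun i j => by
      have h := ha i (δ j)
      split_ifs with hij
      · subst hij; rw [hn] at h; linarith
      · rw [show ip (δ i) (δ j) = 0 from horth i j hij] at h; linarith
    intro i
    fin_cases i <;> simp [Y, hd] <;> ring
  set m := q ^ 12 - 1 with hmdef
  have hm0 : m ≠ 0 := Nat.sub_ne_zero_of_lt (Nat.one_lt_pow (by omega) hq1)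
  have hrm : r ∣ m := by
    rw [← ZMod.natCast_eq_zero_iff, hmdef, Nat.cast_sub (Nat.one_le_pow _ _ (by omega)), Nat.cast_pow,
      Nat.cast_one, ← hord, pow_orderOf_eq_one, sub_self]
  have h3m : n3 ∣ m := by
    rw [← Int.natCast_dvd_natCast, hmdef, hn3, Nat.cast_sub (Nat.one_le_pow _ _ (by omega))]
    push_cast
    exact ⟨((q : ℤ) ^ 3 - 1) * ((q : ℤ) ^ 6 + 1), by ring⟩
  obtain ⟨ιr, hιr⟩ := exists_zmod_embed hm0 hrm
  obtain ⟨ι3, hι3⟩ := exists_zmod_embed hm0 h3m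
  set bv : V := a 0 + (q : ℤ) • a 1 + ((q : ℤ) ^ 2) • a 2 with hbv
  have hbY : ∀ c, bv ⬝ᵥ c = Y c := fun c => by
    simp only [hbv, Y, add_dotProduct, smul_dotProduct, smul_eq_mul]
  let y : Fin chevE7.rank → ZMod m := fun k => ιr (vr k) + ι3 (bv k)
  have hy0 : ∀ c, pairMod y c = ιr (pairMod vr c) + ι3 (Y c) := fun c => by
    rw [← hbY]; exact pairMod_combine ιr ι3 vr bv c
  have hn3r : (n3 : ZMod r) ≠ 0 := fun h => by
    have h1 : (q : ZMod r) ^ 6 = 1 := by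
      rw [hn3] at h
      push_cast at h
      linear_combination ((q : ZMod r) ^ 3 - 1) * h
    have := orderOf_dvd_of_pow_eq_one h1
    rw [hord] at this
    norm_num at this
  have hsep : ∀ {α : ZMod r} {β : ZMod n3}, ιr α + ι3 β = 0 → α = 0 ∧ β = 0 := fun {α β} h => by
    have h1 := congrArg (fun x => n3 • x) h
    simp only [smul_add, ← map_nsmul, smul_zero] at h1
    rw [show n3 • β = 0 by rw [nsmul_eq_mul, ZMod.natCast_self, zero_mul], map_zero, add_zero,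
      map_eq_zero_iff _ hιr, nsmul_eq_mul] at h1
    have hα := (mul_eq_zero.1 h1).resolve_left hn3r
    rw [hα, map_zero, zero_add, map_eq_zero_iff _ hι3] at h
    exact ⟨hα, h⟩
  have hy : ∀ c, pairMod y (M *ᵥ c) = (q : ZMod m) * pairMod y c := fun c => by
    rw [hy0, hy0, mul_add (q : ZMod m), (mem_eigMod_iff_pairMod _ _ _).1 heigM, hY c]
    congr 1
    · rw [← nsmul_eq_mul, ← nsmul_eq_mul, map_nsmul]
    · have h0 : (((q : ℤ) ^ 3 + 1 : ℤ) : ZMod n3) = 0 := by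
        rw [show ((q : ℤ) ^ 3 + 1) = ((n3 : ℕ) : ℤ) by rw [hn3]; push_cast; rfl, Int.cast_natCast, ZMod.natCast_self]
      rw [Int.cast_sub, Int.cast_mul, Int.cast_mul, h0, zero_mul, sub_zero, Int.cast_natCast, ← nsmul_eq_mul,
        ← nsmul_eq_mul, map_nsmul]
  have hyreg : ∀ t < chevE7.nroots, pairMod y (col chevE7 t) ≠ 0 := fun t ht h => by
    rw [hy0] at h
    obtain ⟨hα, hβ⟩ := hsep h
    obtain ⟨i, hi⟩ := hcomp t ht hα
    have hb : (((2 * (q : ℤ) ^ (i : ℕ)) : ℤ) : ZMod n3) = 0 := by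
      rw [← hYδ i]
      rcases hi with e | e <;> rw [e] at hβ
      · exact hβ
      · rw [show Y (-(M ^ (i : ℕ) *ᵥ col chevE7 s₀)) = -Y (δ i) by simp [Y, hδdef]; ring, Int.cast_neg,
          neg_eq_zero] at hβ
        exact hβ
    have := (two_pow_distinct hq1 i i (e := -1) (Or.inr rfl) (by
      rw [mul_neg_one, neg_mul, Int.cast_neg, hb, neg_zero])).2
    norm_num at this
  have hyfix : ∀ u : List (Fin chevE7.rank), (∀ k : Fin chevE7.rank,
      pairMod y (wMat A7 u *ᵥ col chevE7 (chevE7.simple k)) = pairMod y (col chevE7 (chevE7.simple k))) →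
        wMat A7 u = 1 := fun u hu => by
    set U := wMat A7 u with hU
    have hA : ∀ z : V, pairMod y (U *ᵥ (A7 *ᵥ z)) = pairMod y (A7 *ᵥ z) := fun z => by
      have e : A7 *ᵥ z = ∑ k, z k • col chevE7 (chevE7.simple k) := by
        funext a
        simp [Matrix.mulVec, dotProduct, col, A7, cartanMat, Finset.sum_apply, mul_comm]
      rw [e, Matrix.mulVec_sum, pairMod_sum, pairMod_sum]
      exact Finset.sum_congr rfl fun k _ => by rw [Matrix.mulVec_smul, pairMod_smul, pairMod_smul, hu k]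
    have hA' : ∀ z : V, pairMod vr (U *ᵥ (A7 *ᵥ z)) = pairMod vr (A7 *ᵥ z) ∧
        ((Y (U *ᵥ (A7 *ᵥ z)) : ℤ) : ZMod n3) = Y (A7 *ᵥ z) := fun z => by
      have h := hA z
      rw [hy0, hy0, ← sub_eq_zero, add_sub_add_comm, ← map_sub, ← map_sub] at h
      obtain ⟨h1, h2⟩ := hsep h
      exact ⟨sub_eq_zero.1 h1, sub_eq_zero.1 h2⟩
    have hfix : vr ∈ eigMod U 1 := by
      rw [mem_eigMod_iff_pairMod]
      intro c
      rw [one_mul]
      have h := (hA' (B7 *ᵥ c)).1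
      rw [Matrix.mulVec_mulVec _ A7 B7, facts.mulAB, Matrix.smul_mulVec, Matrix.one_mulVec, Matrix.mulVec_smul,
        pairMod_smul, pairMod_smul] at h
      refine mul_left_cancel₀ ?_ h
      rw [show ((2 : ℤ) : ZMod r) = ((2 : ℕ) : ZMod r) by norm_num, Ne, ZMod.natCast_eq_zero_iff]
      exact fun h2 => hrW (h2.trans (by decide +kernel))
    refine eq_one_of_fix hrW hR hord heigM hv0 hs₀ (Or.inr rfl) hchar hpair₀ horth hfix fun i => ?_
    show U *ᵥ δ i = δ i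
    have h2 := (hA' (fun k => (B7 *ᵥ col chevE7 (tr i)) k / 2)).2
    rw [col_eq ⟨tr i, htr i⟩, etr i, hYδ i] at h2
    have h0 : pairMod vr (col chevE7 (act chevE7 u (tr i))) = 0 := by
      rw [col_act hR u (htr i), (mem_eigMod_iff_pairMod _ _ _).1 hfix, hvtr i, mul_zero]
    obtain ⟨j, hj⟩ := hcomp _ (hR.act_lt u (htr i)) h0
    rw [col_act hR u (htr i), etr i, ← hU] at hj
    rcases hj with e | e
    · rw [e, show Y (M ^ (j : ℕ) *ᵥ col chevE7 s₀) = 2 * (q : ℤ) ^ (j : ℕ) from hYδ j] at h2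
      obtain ⟨rfl, -⟩ := two_pow_distinct hq1 i j (e := 1) (Or.inl rfl) (by rw [mul_one]; exact h2)
      exact e
    · rw [e, show Y (-(M ^ (j : ℕ) *ᵥ col chevE7 s₀)) = -Y (δ j) by simp [Y, hδdef]; ring, hYδ j] at h2
      have := (two_pow_distinct hq1 i j (e := -1) (Or.inr rfl) (by rw [mul_neg_one, neg_mul]; exact h2)).2
      norm_num at this
  obtain ⟨hcyc, hcard⟩ := kerMod_facts_of_finrank (d := 12) (q := q) (P := cyclotomic 12 ℤ * (X ^ 3 + 1))
    (by norm_num) hq1 (by rw [cyclotomic_twelve]; exact ⟨(X ^ 2 + 1) * (X ^ 3 - 1), by ring⟩) (M := Mᵀ)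
    (by rw [Matrix.charpoly_transpose, hchar, map_neg, map_one, sub_neg_eq_add])
    (fun s _ => finrank_ker_le_one hR hrW hord heigM hv0 hs₀ hchar hpair₀ horth q s)
  obtain ⟨H, h1, h2, h3⟩ := self_centralizing_of_frame (D := chevE7) (by simp) det_ne hq (d := 12) (by norm_num) K
    (algebraMap F K) σ hσ hcardK hS hR
    (tau_injective_of_embed hS (Chev.rules_of_mem K (by simp : chevE8 ∈ _)) CentralExt.Embed.embedOK_E7
      CentralExt.Embed.leftInverse_E7 hR)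
    hframe hmdef hy hyreg hyfix hcyc hcard
  refine ⟨H, h1, ?_, h3⟩
  have he : Polynomial.eval (q : ℤ) (cyclotomic 12 ℤ * (X ^ 3 + 1)) =
      (((q ^ 4 - q ^ 2 + 1) * (q ^ 3 + 1) : ℕ) : ℤ) := by
    rw [eval_mul, cyclotomic_twelve, Nat.cast_mul, Nat.cast_add, Nat.cast_add,
      Nat.cast_sub (Nat.pow_le_pow_right (by omega) (by norm_num))]
    simp
  rw [(CentralExt.Embed.rootKer_cyclic CentralExt.Embed.kerCert_E7).2, hcardF, he, Int.natAbs_natCast] at h2
  rw [← h2, Nat.mul_div_cancel _ (Nat.gcd_pos_of_pos_left _ (by norm_num))]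

end Cfsg.Agent.LieTori.E7
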