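import Cfsg.Agent.LieTori.StFrob
import Cfsg.Agent.LieTori.RegularTorus

/-!
A regular element of prime order and its cyclic centraliser in the Chevalley groups, computed in the universal
group when the centre of that group is nontrivial (owner: helper35).
-/

set_option autoImplicit false
set_option linter.style.haveILetI false

namespace Cfsg.Agent.LieTori

open Cfsg.Lie Cfsg.Agent.ChevGrp Matrix Polynomial
open scoped MatrixGroups

theorem θ_nW {D : ChevalleyDatum} {K : Type*} [Field K] (hS : Rules D K) {len : ℕ → ℕ} (hR : RootTable D len)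
    (w : List (Fin D.rank)) : (stSys hS).θ ((stSys hS).nW w) = (glSys hS).nW w := by
  have key : ∀ r < D.nroots, ∀ t, (stSys hS).θ ((stSys hS).x r t) = (glSys hS).x r t := fun r hr t =>
    Units.ext (by rw [(stSys hS).θ_x r hr t]; exact (val_xGL hS r t).symm)
  induction w with
  | nil => rw [Sys.nW_nil, Sys.nW_nil, map_one]
  | cons i w ih =>
    rw [Sys.nW_cons, Sys.nW_cons, map_mul, ih]
    congr 1
    simp [Sys.nI, Sys.nEl, key _ (hR.simple_lt i i.2), key _ (hR.neg_lt _ (hR.simple_lt i i.2))]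

theorem θ_tau {D : ChevalleyDatum} {K : Type*} [Field K] (hS : Rules D K) {len : ℕ → ℕ} (hR : RootTable D len)
    (c : Fin D.rank → Kˣ) :
    (stSys hS).θ ((stSys hS).tau hS hR (stSys_HMul hS hR) c) =
      (glSys hS).tau hS hR (glSys_HMul hS hR) c :=
  Units.ext (((stSys hS).mat_tau hS hR _ c).trans ((glSys hS).mat_tau hS hR _ c).symm)

universe u

theorem exists_self_centralizing_univ {D : ChevalleyDatum} {L : List ℕ} {δ d : ℕ} {P : ℤ[X]}
    (hD : D ∈ [chevG2, chevB2, chevD4, chevF4, chevE6, chevE7, chevE8]) (hdet : (cartanMat D).det = (δ : ℤ))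
    (hW : WeylOrder D L.prod) (heven : 2 ∣ L.prod) (hd : 2 < d)
    (hLd : ∃ e ∈ L, d ∣ e) (hW' : ∀ r : ℕ, r.Prime → r ∣ L.prod → r ≤ d)
    {F : Type u} [Field F] [Fintype F] {q : ℕ} (hq : Fintype.card F = q) (hF : OrderFormula D L δ F)
    (hK : ∀ (K : Type) [Field K] [Fintype K], OrderFormula D L δ K) (hLlen : L.length = D.rank)
    (hδ : δ ∣ L.prod) (hz : ¬ (q = 2 ∧ d = 6))
    (hinjT : ∀ (K : Type) [Field K] [Finite K] (hS : Rules D K) (len : ℕ → ℕ) (hR : RootTable D len),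
      Function.Injective ((stSys hS).tau hS hR (stSys_HMul hS hR)))
    (hspec : ∀ (r : ℕ) [Fact r.Prime], ¬ r ∣ L.prod → ∀ ζ : ZMod r, orderOf ζ = d →
      ∀ (w : List (Fin D.rank)) (v : Fin D.rank → ZMod r), v ∈ eigMod (wMat (cartanMat D) w) ζ → v ≠ 0 →
        (∀ s < D.nroots, pairMod v (col D s) ≠ 0) ∧
        (∀ u : List (Fin D.rank), v ∈ eigMod (wMat (cartanMat D) u) 1 → wMat (cartanMat D) u = 1) ∧
        (wMat (cartanMat D) w).charpoly = P)
    (hker : ∀ M : Matrix (Fin D.rank) (Fin D.rank) ℤ, M.charpoly = P →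
      IsCyclic (kerMod ((q : ℤ) • 1 - M) (q ^ d - 1)) ∧
        Nat.card (kerMod ((q : ℤ) • 1 - M) (q ^ d - 1)) = (P.eval (q : ℤ)).natAbs) :
    ∃ H : Subgroup ↥(D.group F), IsCyclic ↥H ∧
      Nat.card ↥H * Nat.card (rootKer D F) = (P.eval (q : ℤ)).natAbs ∧
      Subgroup.centralizer (H : Set ↥(D.group F)) = H := by
  classical
  have hq1 : 1 < q := hq ▸ Fintype.one_lt_card
  have hcardF : Nat.card F = q := by rw [Nat.card_eq_fintype_card, hq]
  obtain ⟨r, hr, hord⟩ := Arith.exists_prime_orderOf_eq hq1 (show 1 < d by omega) hz (fun h => by omega)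
  haveI := Fact.mk hr
  have hdr : d < r := Arith.lt_of_orderOf_eq (by omega) hord
  have hrW : ¬ r ∣ L.prod := fun h => by have := hW' r hr h; omega
  have hr2 : r ≠ 2 := by rintro rfl; exact hrW heven
  have hrδ : ¬ r ∣ δ := fun h => hrW (h.trans hδ)
  have hLr : ∀ e ∈ L, ¬ r ∣ e := fun e he h => hrW (h.trans (List.dvd_prod he))
  have hrq : ¬ r ∣ q := fun h => by
    have := Arith.orderOf_natCast_eq_zero_of_dvd h
    omega
  have hrG : r ∣ Nat.card ↥(D.group F) := by
    refine dvd_of_one_le_padicValNat ?_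
    rw [padicValNat_group hF hr2 (hcardF ▸ hrq) hrδ hLr, hcardF, Arith.padicValNat_cyclotomic_orderOf hq1 hrq, hord]
    refine Nat.mul_pos ?_ (one_le_padicValNat_of_dvd ?_ ?_)
    · obtain ⟨e, he, hde⟩ := hLd
      exact List.length_pos_of_mem (List.mem_filter.2 ⟨he, by simpa using hde⟩)
    · exact Nat.sub_ne_zero_of_lt (Nat.one_lt_pow (by omega) hq1)
    · exact (Arith.dvd_pow_sub_one_iff_orderOf_dvd (by omega) d).2 (hord ▸ dvd_rfl)
  obtain ⟨x, hx⟩ := exists_prime_orderOf_dvd_card' r hrG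
  haveI : NeZero d := ⟨by omega⟩
  obtain ⟨p, hp⟩ := CharP.exists F
  haveI := Fact.mk (CharP.char_is_prime F p)
  let K := FiniteField.Extension F p d
  haveI : Fintype K := Fintype.ofFinite K
  set m := q ^ d - 1 with hmdef
  have hm0 : m ≠ 0 := Nat.sub_ne_zero_of_lt (Nat.one_lt_pow (by omega) hq1)
  haveI : NeZero m := ⟨hm0⟩
  have hcardK : Nat.card K = q ^ d := by rw [FiniteField.natCard_extension, hcardF]
  have hS : Rules D K := Chev.rules_of_mem K hD
  obtain ⟨len, hR⟩ := hS.root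
  let S := glSys hS
  have hM : S.HMul := glSys_HMul hS hR
  let A := cartanMat D
  have hA0 : A.det ≠ 0 := by
    rw [hdet, Int.natCast_ne_zero]
    rintro rfl
    exact hrδ (dvd_zero r)
  let e : GL D.Idx F →* GL D.Idx K := Matrix.GeneralLinearGroup.map (algebraMap F K)
  have he : Function.Injective e := glMap_injective D (algebraMap F K)
  have heG : ∀ y : ↥(D.group F), e y.1 ∈ D.group K := fun y => map_group_le D (algebraMap F K) ⟨y.1, y.2, rfl⟩
  let σ : K →+* K := (FiniteField.Extension.frob F p d).toAlgHom.toRingHom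
  have hσ : ∀ a : K, σ a = a ^ q := fun a => by
    show FiniteField.Extension.frob F p d a = _
    rw [FiniteField.Extension.frob_apply, hcardF]
  have hσim : ∀ a : K, σ a = a → ∃ b, algebraMap F K b = a := by
    intro a ha
    let P : K[X] := X ^ q - X
    have hP : P ≠ 0 := FiniteField.X_pow_card_sub_X_ne_zero K hq1
    have hsub : Finset.univ.image (algebraMap F K) ⊆ P.roots.toFinset := fun b hb => by
      obtain ⟨b, -, rfl⟩ := Finset.mem_image.1 hb
      rw [Multiset.mem_toFinset, mem_roots hP]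
      simp [P, IsRoot, ← map_pow, ← hq, FiniteField.pow_card]
    have heq := Finset.eq_of_subset_of_card_le hsub (by
      rw [Finset.card_image_of_injective _ (algebraMap F K).injective, Finset.card_univ, hq]
      exact (Multiset.toFinset_card_le _).trans ((card_roots' P).trans
        (le_of_eq (FiniteField.X_pow_card_sub_X_natDegree_eq K hq1))))
    have : a ∈ P.roots.toFinset := by simp [P, hP, ← hσ, ha]
    rw [← heq, Finset.mem_image] at this
    obtain ⟨b, -, hb⟩ := this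
    exact ⟨b, hb⟩
  let fr : GL D.Idx K →* GL D.Idx K := Matrix.GeneralLinearGroup.map σ
  have hfix : ∀ y : GL D.Idx F, fr (e y) = e y := fun y => by
    ext i j
    exact (FiniteField.Extension.frob F p d).commutes _
  -- the torus over `K`
  have hmK : m ∣ Nat.card K - 1 := by rw [hcardK]
  obtain ⟨f, hf⟩ := SylowLarge.exists_zmod_hom_units hmK
  have hfsurj : Function.Surjective f := ((Nat.bijective_iff_injective_and_card _).2 ⟨hf, by
    rw [Nat.card_units, hcardK, Nat.card_congr Multiplicative.toAdd, Nat.card_zmod]⟩).2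
  have hrm : r ∣ m := (Arith.dvd_pow_sub_one_iff_orderOf_dvd (by omega) d).2 (hord ▸ dvd_rfl)
  obtain ⟨g, hg⟩ := SylowLarge.exists_zmod_hom_units (K := K) (hrm.trans hmK)
  have hGK : D.group K = S.Gbar := group_eq hS
  have htau : ∀ c, S.tau hS hR hM c ∈ D.group K := fun c => by
    have hN : S.tau hS hR hM c ∈ S.Hbar := by rw [← S.tau_range hS hR hM]; exact ⟨c, rfl⟩
    rw [hGK, S.Gbar_eq hR hS]
    exact Subgroup.mem_sup_left (S.Hbar_le_Bbar hN)
  -- conjugate `x` into the split torus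
  let T : (Fin D.rank → Kˣ) →* ↥(D.group K) := (S.tau hS hR hM).codRestrict _ htau
  set v := padicValNat r m with hv
  obtain ⟨f', hf'⟩ := SylowLarge.exists_zmod_hom_units (K := K) (M := r ^ v) (pow_padicValNat_dvd.trans hmK)
  let φ : (Fin D.rank → Multiplicative (ZMod (r ^ v))) →* ↥(D.group K) := T.comp (f'.compLeft (Fin D.rank))
  have hφinj : Function.Injective φ := fun a b h =>
    tau_torus_injective hS hR hdet hrδ hf' (congrArg Subtype.val h :)
  let ψ : ↥(D.group F) →* ↥(D.group K) := (e.comp (D.group F).subtype).codRestrict _ heG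
  have hxK : orderOf (ψ x) = r := by
    rw [orderOf_injective ψ (fun a b h => Subtype.ext (he (congrArg Subtype.val h))), hx]
  obtain ⟨γ, y₀, ht₀⟩ : ∃ (γ : ↥(D.group K)) (y₀ : Fin D.rank → Multiplicative (ZMod (r ^ v))),
      γ * ψ x * γ⁻¹ = φ y₀ := by
    obtain ⟨Q, hQ⟩ := (IsPGroup.of_card (p := r) (n := 1) (by rw [Nat.card_zpowers, hxK, pow_one]) :
      IsPGroup r (Subgroup.zpowers (ψ x))).exists_le_sylow
    obtain ⟨R, hR'⟩ := (IsPGroup.of_card (p := r) (n := D.rank * v) (by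
      rw [← Nat.card_congr (MonoidHom.ofInjective hφinj).toEquiv, SylowLarge.card_pi_zmod]) :
      IsPGroup r φ.range).exists_le_sylow
    have hcard : Nat.card (R : Subgroup ↥(D.group K)) ≤ Nat.card φ.range := by
      rw [R.card_eq_multiplicity, ← Nat.card_congr (MonoidHom.ofInjective hφinj).toEquiv, SylowLarge.card_pi_zmod,
        Nat.factorization_def _ hr]
      refine Nat.pow_le_pow_right hr.pos (le_of_eq ?_)
      rw [padicValNat_group (hK K) hr2 (hcardK ▸ SylowLarge.not_dvd_pow hrq d) hrδ hLr,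
        show (Nat.card K : ZMod r) = 1 by rw [hcardK, Nat.cast_pow, ← hord, pow_orderOf_eq_one],
        orderOf_one, cyclotomic_one, ← hLlen]
      simp only [one_dvd, decide_true, List.filter_true, eval_sub, eval_X, eval_one, hcardK]
      rw [show ((q ^ d : ℕ) : ℤ) - 1 = (m : ℤ) by
        rw [hmdef, Nat.cast_sub (Nat.one_le_pow _ _ (by omega))]; rfl, Int.natAbs_natCast]
    have hRφ : (R : Subgroup ↥(D.group K)) = φ.range := (Subgroup.eq_of_le_of_card_ge hR' hcard).symm
    obtain ⟨γ, hγ⟩ := MulAction.exists_smul_eq ↥(D.group K) Q R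
    have h1 : MulAut.conj γ (ψ x) ∈ ((γ • Q : Sylow r ↥(D.group K)) : Subgroup ↥(D.group K)) := by
      rw [Sylow.smul_def, Sylow.pointwise_smul_def, ← MulAut.smul_def]
      exact Subgroup.smul_mem_pointwise_smul _ _ _ (hQ (Subgroup.mem_zpowers _))
    rw [hγ, hRφ] at h1
    obtain ⟨y, hy⟩ := h1
    exact ⟨γ, y, hy.symm⟩
  let t₀ : Fin D.rank → Kˣ := f'.compLeft (Fin D.rank) y₀
  let t : GL D.Idx K := S.tau hS hR hM t₀
  have htx : (γ : GL D.Idx K) * e x.1 * (γ : GL D.Idx K)⁻¹ = t := congrArg Subtype.val ht₀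
  have ht₀r : ∀ j, t₀ j ^ r = 1 := fun j => by
    have h1 : φ (y₀ ^ r) = φ 1 := by
      rw [map_pow, map_one, ← ht₀, conj_pow, ← hxK, pow_orderOf_eq_one, mul_one, mul_inv_cancel]
    show t₀ j ^ r = 1
    rw [← Pi.pow_apply, show t₀ ^ r = f'.compLeft (Fin D.rank) (y₀ ^ r) from (map_pow _ _ _).symm, hφinj h1,
      map_one, Pi.one_apply]
  have hg2 : g.range = (powMonoidHom r : Kˣ →* Kˣ).ker := by
    refine Subgroup.eq_of_le_of_card_ge ?_ (le_of_eq ?_)
    · rintro _ ⟨z, rfl⟩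
      rw [MonoidHom.mem_ker, powMonoidHom_apply, ← map_pow, ← map_one g]
      congr 1
      exact Multiplicative.toAdd.injective (by simp)
    · rw [IsCyclic.card_powMonoidHom_ker, Nat.card_units, Nat.gcd_eq_right (hrm.trans hmK),
        ← Nat.card_congr (MonoidHom.ofInjective hg).toEquiv, Nat.card_congr Multiplicative.toAdd, Nat.card_zmod]
  choose z hz using fun j => MonoidHom.mem_range.1 (hg2.ge (MonoidHom.mem_ker.2 (ht₀r j)))
  let vr : Fin D.rank → ZMod r := fun j => Multiplicative.toAdd (z j)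
  have htv : t₀ = fun j => g (Multiplicative.ofAdd (vr j)) := funext fun j => by simp [vr, hz]
  have hv0 : vr ≠ 0 := by
    intro h0
    have h1 : t = 1 := by
      show S.tau hS hR hM t₀ = 1
      rw [htv, h0, ← map_one (S.tau hS hR hM)]
      exact congrArg _ (funext fun j => by simp)
    have h2 : e x.1 = 1 := by
      have := congrArg (fun y => (γ : GL D.Idx K)⁻¹ * y * γ) (htx.trans h1)
      simpa [mul_assoc] using this
    have h3 : x = 1 := Subtype.ext (he (h2.trans (map_one e).symm))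
    rw [h3, orderOf_one] at hx
    exact hr.one_lt.ne hx
  -- the Weyl group element
  have hdr' : ((cartanMat D).det : ZMod r) ≠ 0 := by
    rw [hdet, Int.cast_natCast, Ne, ZMod.natCast_eq_zero_iff]
    exact hrδ
  have hq0 : (q : ZMod r) ≠ 0 := by rwa [Ne, ZMod.natCast_eq_zero_iff]
  let h : GL D.Idx K := fr (γ : GL D.Idx K) * (γ : GL D.Idx K)⁻¹
  have hhG : h ∈ S.Gbar := by
    rw [← hGK]
    exact mul_mem (map_group_le D σ ⟨_, γ.2, rfl⟩) (inv_mem γ.2)
  have hfrt : ∀ c, fr (S.tau hS hR hM c) = S.tau hS hR hM c ^ q := fun c => map_tau hS hR σ hσ c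
  have hfrγ : fr (γ : GL D.Idx K) = h * γ := by simp [h]
  have hconj : ∀ y : GL D.Idx F, h * ((γ : GL D.Idx K) * e y * (γ : GL D.Idx K)⁻¹) * h⁻¹ =
      fr ((γ : GL D.Idx K) * e y * (γ : GL D.Idx K)⁻¹) := fun y => by
    rw [map_mul, map_mul, map_inv, hfix, hfrγ]
    group
  have hht : h * t * h⁻¹ = t ^ q := by
    rw [← hfrt, ← htx, hconj, htx]
  have hmemH : ∀ c, S.tau hS hR hM c ∈ S.Hbar := fun c => by
    rw [← S.tau_range hS hR hM]; exact ⟨c, rfl⟩
  have hGt : ∀ {y}, y ∈ S.Hbar → ∃ c, S.tau hS hR hM c = y := fun {y} hy => by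
    rwa [← S.tau_range hS hR hM] at hy
  obtain ⟨b, hb, w, -, v', hv', hdec⟩ := S.mem_NF hS hR hhG
  have hn : S.nW w * t * (S.nW w)⁻¹ = t ^ q := by
    refine conj_nW_eq S hS hR hM hb hv' (hmemH t₀) (pow_mem (hmemH t₀) q) ?_
    rw [← hdec]
    exact mul_inv_eq_iff_eq_mul.1 hht
  have hveig : vr ∈ eigMod (wMat A w) (q : ZMod r)⁻¹ := by
    refine eigen_of_conj_nW S hS hR hM hdr' g hg hq0 ?_
    rw [← htv]
    exact hn
  have hζ : orderOf (q : ZMod r)⁻¹ = d := by
    rw [← hord, orderOf_eq_orderOf_iff]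
    intro k
    rw [inv_pow, inv_eq_one]
  have hreg : ∀ s < D.nroots, ∏ j : Fin D.rank, t₀ j ^ D.cartan j s ≠ 1 := fun s hs h1 => by
    apply (hspec r hrW _ hζ w vr hveig hv0).1 s hs
    rw [htv, prod_zpow_hom, ← map_one g] at h1
    simpa [pairMod, col] using congrArg Multiplicative.toAdd (hg h1)
  have hfix' : ∀ u : List (Fin D.rank), S.nW u * t * (S.nW u)⁻¹ = t → wMat A u = 1 := fun u hu => by
    refine (hspec r hrW _ hζ w vr hveig hv0).2.1 u ?_
    refine eigen_one_of_conj S hS hR hM hdr' g hg ?_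
    rw [← htv]
    exact hu
  have hCK : ∀ y ∈ S.Gbar, y * t = t * y → y ∈ S.Hbar := fun y hy hc =>
    mem_Hbar_of_commute S hS hR hM hA0 hreg hfix' hy hc
  have hnG : S.nW w ∈ S.Gbar := S.Nbar_le_Gbar hS hR (S.nW_mem_Nbar w)
  have hh1 : (S.nW w)⁻¹ * h ∈ S.Hbar := by
    refine hCK _ (mul_mem (inv_mem hnG) hhG) ?_
    have e1 : S.nW w * t = t ^ q * S.nW w := mul_inv_eq_iff_eq_mul.1 hn
    have e2 : h * t = t ^ q * h := mul_inv_eq_iff_eq_mul.1 hht
    calc (S.nW w)⁻¹ * h * t = (S.nW w)⁻¹ * (S.nW w * t) * ((S.nW w)⁻¹ * h) := by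
          rw [mul_assoc, e2, e1]; group
      _ = _ := by group
  have hact : ∀ z ∈ S.Hbar, h * z * h⁻¹ = S.nW w * z * (S.nW w)⁻¹ := fun z hz => by
    have e1 : ((S.nW w)⁻¹ * h) * z = z * ((S.nW w)⁻¹ * h) := S.Hbar_comm hS hR hM _ hh1 _ hz
    calc h * z * h⁻¹ = S.nW w * (((S.nW w)⁻¹ * h) * z) * h⁻¹ := by group
      _ = _ := by rw [e1]; group
  -- the universal group
  let U := stSys hS
  have hMU := stSys_HMul hS hR
  let Tu : (Fin D.rank → Kˣ) →* D.SteinbergGroup K := U.tau hS hR hMU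
  have hTu : Function.Injective Tu := hinjT K hS len hR
  have hθT : ∀ c, U.θ (Tu c) = S.tau hS hR hM c := θ_tau hS hR
  let φr := stFr hS σ
  have hθφ : ∀ z, U.θ (φr z) = fr (U.θ z) := θ_stFr hS σ
  have hφT : ∀ c, φr (Tu c) = Tu c ^ q := fun c => by
    rw [← map_pow]
    refine (stFr_tau hS σ hR c).trans (congrArg Tu (funext fun j => Units.ext ?_))
    rw [Pi.pow_apply, Units.val_pow_eq_pow_val]
    exact hσ _
  obtain ⟨γu, hγu⟩ : ∃ g, U.θ g = (γ : GL D.Idx K) := by
    have : (γ : GL D.Idx K) ∈ U.θ.range := by rw [stSys_θ_range hS]; exact γ.2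
    exact this
  have hHu : ∀ z : D.SteinbergGroup K, U.θ z ∈ S.Hbar → ∃ c, Tu c = z := fun z hz => by
    obtain ⟨c, hc⟩ := hGt hz
    have h1 : (Tu c)⁻¹ * z ∈ U.θ.ker := by
      rw [MonoidHom.mem_ker, map_mul, map_inv, hθT, hc, inv_mul_cancel]
    obtain ⟨c', hc'⟩ : ∃ c', Tu c' = (Tu c)⁻¹ * z := by
      have h2 := stSys_ker_le hS h1
      rw [← U.tau_range hS hR hMU] at h2
      exact h2
    exact ⟨c * c', by rw [map_mul, hc', mul_inv_cancel_left]⟩
  let hu : D.SteinbergGroup K := φr γu * γu⁻¹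
  obtain ⟨c₁, hc₁⟩ := hHu ((U.nW w)⁻¹ * hu) (by
    rw [map_mul, map_inv, show U.θ (U.nW w) = S.nW w from θ_nW hS hR w, map_mul, map_inv, hθφ, hγu]
    exact hh1)
  have hactu : ∀ c, hu * Tu c * hu⁻¹ = U.nW w * Tu c * (U.nW w)⁻¹ := fun c => by
    have e : hu = U.nW w * Tu c₁ := by rw [hc₁, mul_inv_cancel_left]
    have e2 : Tu c₁ * Tu c * (Tu c₁)⁻¹ = Tu c := by rw [← map_mul, mul_comm, map_mul, mul_inv_cancel_right]
    rw [e]
    conv_rhs => rw [← e2]
    group
  let Mr := wMat A w.reverse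
  have hMr : (wMat A w.reverse).charpoly = P := by
    refine (hspec r hrW (q : ZMod r) hord w.reverse vr ?_ hv0).2.2
    rw [mem_eigMod_iff_pairMod]
    intro c
    have hc := (mem_eigMod_iff_pairMod _ _ _).1 hveig (Mr *ᵥ c)
    rw [Matrix.mulVec_mulVec, wMat_mul_reverse A (cartanMat_self hR), Matrix.one_mulVec] at hc
    rw [hc, ← mul_assoc, mul_inv_cancel₀ hq0, one_mul]
  obtain ⟨hcyc, hcard⟩ := hker Mrᵀ ((Matrix.charpoly_transpose Mr).trans hMr)
  let N := kerMod ((q : ℤ) • 1 - Mrᵀ) m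
  let Φ : (Fin D.rank → Multiplicative (ZMod m)) →* D.SteinbergGroup K := Tu.comp (f.compLeft (Fin D.rank))
  have hΦ : Function.Injective Φ := hTu.comp hf.comp_left
  have hΦeq : ∀ y, Φ y = Tu (fun j => f (y j)) := fun y => rfl
  have hNiff : ∀ y, y ∈ N ↔ U.nW w * Φ y * (U.nW w)⁻¹ = Φ y ^ q := fun y => by
    show _ ↔ U.nW w * Tu (fun j => f (y j)) * (U.nW w)⁻¹ = Tu (fun j => f (y j)) ^ q
    rw [← map_pow, show U.nW w * Tu (fun j => f (y j)) * (U.nW w)⁻¹ = _ from nW_conj_tau U hS hR hMU w _,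
      hTu.eq_iff, funext_iff]
    show (∀ a, _ = (0 : ZMod m)) ↔ _
    refine forall_congr' fun a => ?_
    rw [prod_zpow_hom, Pi.pow_apply, ← map_pow, hf.eq_iff, ← ofAdd_toAdd (y a ^ q), Multiplicative.ofAdd.injective.eq_iff,
      toAdd_pow, nsmul_eq_mul]
    have e1 : ∑ b, ((((q : ℤ) • (1 : Matrix (Fin D.rank) (Fin D.rank) ℤ) - Mrᵀ) a b : ℤ) : ZMod m) *
        Multiplicative.toAdd (y b) = (q : ZMod m) * Multiplicative.toAdd (y a) -
          ∑ j, ((wMat A w.reverse j a : ℤ) : ZMod m) * Multiplicative.toAdd (y j) := by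
      simp only [Matrix.sub_apply, Int.cast_sub, sub_mul, Finset.sum_sub_distrib, Matrix.transpose_apply, Mr]
      congr 1
      rw [Finset.sum_eq_single a (fun b _ hb => by simp [Matrix.one_apply_ne hb.symm]) (by simp)]
      simp
    rw [e1, sub_eq_zero, eq_comm]
  let Ψ : N →* D.SteinbergGroup K := (MulAut.conj γu⁻¹).toMonoidHom.comp (Φ.comp N.subtype)
  have hΨ : ∀ y, Ψ y = γu⁻¹ * Φ y.1 * γu := fun y => by simp [Ψ, mul_assoc]
  have hΨfix : ∀ y, φr (Ψ y) = Ψ y := fun y => by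
    have e1 : φr (Φ y.1) = hu * Φ y.1 * hu⁻¹ := by
      rw [hΦeq, hφT, hactu, ← hΦeq]
      exact ((hNiff y.1).1 y.2).symm
    rw [hΨ, map_mul, map_mul, map_inv, e1]
    show (φr γu)⁻¹ * (φr γu * γu⁻¹ * Φ y.1 * (φr γu * γu⁻¹)⁻¹) * φr γu = _
    group
  have hθΦ : ∀ y, U.θ (Φ y) ∈ S.Hbar := fun y => by
    rw [hΦeq, hθT]
    exact hmemH _
  have hθΨ : ∀ y, U.θ (Ψ y) = (γ : GL D.Idx K)⁻¹ * U.θ (Φ y.1) * γ := fun y => by
    rw [hΨ, map_mul, map_mul, map_inv, hγu]
  let eF : ↥(D.group F) →* GL D.Idx K := e.comp (D.group F).subtype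
  have heF : Function.Injective eF := he.comp (D.group F).subtype_injective
  have hfixedGen : Known.ChevSubfield.fixedGen (D := D) σ ≤ eF.range := by
    rw [Known.ChevSubfield.fixedGen, Subgroup.closure_le]
    rintro g ⟨a, s, hs, hga⟩
    obtain ⟨s₀, rfl⟩ := hσim s hs
    by_cases ha : a < D.nroots
    · have hSF : Rules D F := Chev.rules_of_mem F hD
      refine ⟨⟨(glSys hSF).x a s₀, ?_⟩, Units.ext ?_⟩
      · rw [group_eq hSF]
        exact Subgroup.subset_closure ⟨a, ha, s₀, rfl⟩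
      · show (xGL D F a s₀ : Matrix D.Idx D.Idx F).map (algebraMap F K) = _
        rw [val_xGL hSF, x_map, hga]
    · refine ⟨1, ?_⟩
      rw [map_one]
      exact (Units.ext (by rw [hga, ChevalleyDatum.x, dif_neg ha, Units.val_one])).symm
  have hθfix : ∀ z, φr z = z → U.θ z ∈ eF.range := fun z hz => by
    refine hfixedGen ?_
    rw [← map_θ_stFix hS σ]
    exact Subgroup.mem_map_of_mem _ (mem_stFix_of_fixed hS σ hR hTu hz)
  have hlift : ∀ y : ↥(D.group F), ∃ z, φr z = z ∧ U.θ z = eF y := fun y => by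
    have h1 : eF y ∈ (stFix hS σ).map U.θ := by
      rw [map_θ_stFix hS σ]
      have h2 : (D.group F).map e ≤ Known.ChevSubfield.fixedGen (D := D) σ := by
        rw [ChevalleyDatum.group, MonoidHom.map_closure, Subgroup.closure_le]
        rintro _ ⟨g, ⟨a, s, hga⟩, rfl⟩
        refine Subgroup.subset_closure ⟨a, algebraMap F K s, (FiniteField.Extension.frob F p d).commutes s, ?_⟩
        show (g : Matrix D.Idx D.Idx F).map (algebraMap F K) = _
        rw [hga, show D.xMat F a s = D.x F a s by rw [ChevalleyDatum.x, dif_pos a.2], x_map]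
      exact h2 ⟨y, y.2, rfl⟩
    obtain ⟨z, hz, hz'⟩ := h1
    exact ⟨z, stFr_of_mem_stFix hS σ hz, hz'⟩
  let Ξ : N →* ↥(D.group F) :=
    (MonoidHom.ofInjective heF).symm.toMonoidHom.comp
      ((U.θ.comp Ψ).codRestrict eF.range fun y => hθfix _ (hΨfix y))
  have hΞ : ∀ y, eF (Ξ y) = U.θ (Ψ y) := fun y => by
    show eF ((MonoidHom.ofInjective heF).symm _) = _
    rw [← MonoidHom.ofInjective_apply heF, MulEquiv.apply_symm_apply]
    rfl
  have hxt : eF x = (γ : GL D.Idx K)⁻¹ * t * γ := by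
    show e x.1 = _
    rw [← htx]; group
  let H : Subgroup ↥(D.group F) := Subgroup.centralizer {x}
  have hrange : Ξ.range = H := by
    ext y
    constructor
    · rintro ⟨z, rfl⟩
      refine Subgroup.mem_centralizer_iff.2 fun u hu' => ?_
      rw [Set.mem_singleton_iff.1 hu']
      refine heF ?_
      rw [map_mul, map_mul, hΞ, hθΨ, hxt]
      have e3 : U.θ (Φ z.1) * t = t * U.θ (Φ z.1) := S.Hbar_comm hS hR hM _ (hθΦ _) _ (hmemH t₀)
      calc _ = (γ : GL D.Idx K)⁻¹ * (t * U.θ (Φ z.1)) * γ := by group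
        _ = _ := by rw [← e3]; group
    · intro hy
      have hc' : eF x * eF y = eF y * eF x := by
        rw [← map_mul, ← map_mul, Subgroup.mem_centralizer_iff.1 hy x rfl]
      have hH : (γ : GL D.Idx K) * eF y * (γ : GL D.Idx K)⁻¹ ∈ S.Hbar := by
        refine hCK _ ?_ ?_
        · rw [← hGK]
          exact mul_mem (mul_mem γ.2 (heG y)) (inv_mem γ.2)
        · rw [← htx]
          show (γ : GL D.Idx K) * eF y * (γ : GL D.Idx K)⁻¹ * ((γ : GL D.Idx K) * eF x * (γ : GL D.Idx K)⁻¹) =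
            (γ : GL D.Idx K) * eF x * (γ : GL D.Idx K)⁻¹ * ((γ : GL D.Idx K) * eF y * (γ : GL D.Idx K)⁻¹)
          calc _ = (γ : GL D.Idx K) * (eF y * eF x) * (γ : GL D.Idx K)⁻¹ := by group
            _ = _ := by rw [← hc']; group
      obtain ⟨z, hz, hzy⟩ := hlift y
      obtain ⟨c, hc⟩ := hHu (γu * z * γu⁻¹) (by rwa [map_mul, map_mul, map_inv, hγu, hzy])
      choose y' hy' using fun j => hfsurj (c j)
      have hΦy : Φ y' = γu * z * γu⁻¹ := (congrArg Tu (funext hy')).trans hc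
      have hyN : y' ∈ N := by
        rw [hNiff]
        show U.nW w * Tu (f.compLeft (Fin D.rank) y') * (U.nW w)⁻¹ = _
        rw [← hactu, show Φ y' ^ q = φr (Φ y') by rw [hΦeq, hφT]]
        show hu * Φ y' * hu⁻¹ = _
        rw [hΦy, map_mul, map_mul, map_inv, hz]
        show φr γu * γu⁻¹ * (γu * z * γu⁻¹) * (φr γu * γu⁻¹)⁻¹ = _
        group
      refine ⟨⟨y', hyN⟩, heF ?_⟩
      rw [hΞ, hΨ, hΦy, ← hzy, show γu⁻¹ * (γu * z * γu⁻¹) * γu = z by group]
  haveI := hcyc
  have hkerΞ : Nat.card Ξ.ker = Nat.card (rootKer D F) := by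
    have hmemker : ∀ y : N, y ∈ Ξ.ker ↔ (fun j => f (y.1 j)) ∈ rootKer D K := fun y => by
      rw [MonoidHom.mem_ker, ← heF.eq_iff, map_one, hΞ, hθΨ]
      have e5 : U.θ (Φ y.1) = 1 ↔ (fun j => f (y.1 j)) ∈ rootKer D K := by
        rw [hΦeq]
        exact U.θ_tau_eq_one_iff hS hR hMU _
      rw [← e5]
      constructor
      · intro h1
        have := congrArg (fun z => (γ : GL D.Idx K) * z * (γ : GL D.Idx K)⁻¹) h1
        simpa [mul_assoc] using this
      · intro h1
        rw [h1]; group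
    let ιF : (Fin D.rank → Fˣ) → (Fin D.rank → Kˣ) := fun c j => Units.map (algebraMap F K).toMonoidHom (c j)
    have hιinj : Function.Injective ιF := fun a b h => funext fun j =>
      Units.ext ((algebraMap F K).injective (congrArg Units.val (congrFun h j)))
    have hιker : ∀ c, c ∈ rootKer D F ↔ ιF c ∈ rootKer D K := fun c => by
      refine forall_congr' fun k => ?_
      simp only [ιF, ← map_zpow, ← map_prod]
      refine ⟨fun h => by rw [h, map_one], fun h => Units.ext ((algebraMap F K).injective ?_)⟩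
      rw [Units.val_one, map_one]
      exact (congrArg Units.val h :)
    have hcent : ∀ c, c ∈ rootKer D K → ∀ g : D.SteinbergGroup K, g * Tu c * g⁻¹ = Tu c := fun c hc g => by
      have h1 : Tu c ∈ Subgroup.center (D.SteinbergGroup K) := by
        rw [center_le_tau_rootKer hS hR]; exact ⟨c, hc, rfl⟩
      rw [Subgroup.mem_center_iff.1 h1 g, mul_inv_cancel_right]
    have hpre : ∀ c : Fin D.rank → Fˣ, c ∈ rootKer D F →
        ∃ y : Ξ.ker, (fun j => f (y.1.1 j)) = ιF c := fun c hc => by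
      choose y' hy' using fun j => hfsurj (ιF c j)
      have hy'' : (fun j => f (y' j)) = ιF c := funext hy'
      have hyN : y' ∈ N := by
        rw [hNiff]
        show U.nW w * Tu (fun j => f (y' j)) * (U.nW w)⁻¹ = Tu (fun j => f (y' j)) ^ q
        rw [hy'', hcent _ ((hιker c).1 hc), ← map_pow]
        refine congrArg Tu (funext fun j => Units.ext ?_)
        rw [Pi.pow_apply, Units.val_pow_eq_pow_val, ← hσ]
        exact ((FiniteField.Extension.frob F p d).commutes _).symm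
      exact ⟨⟨⟨y', hyN⟩, (hmemker _).2 (by show (fun j => f (y' j)) ∈ _; rw [hy'']; exact (hιker c).1 hc)⟩, hy''⟩
    let G₀ : rootKer D F → Ξ.ker := fun c => (hpre c.1 c.2).choose
    have hG₀ : ∀ c, (fun j => f ((G₀ c).1.1 j)) = ιF c.1 := fun c => (hpre c.1 c.2).choose_spec
    refine (Nat.card_eq_of_bijective G₀ ⟨fun a b h => Subtype.ext (hιinj ?_), fun y => ?_⟩).symm
    · rw [← hG₀, ← hG₀, h]
    · have hc := (hmemker y.1).1 y.2
      have h1 : Tu (fun j => f (y.1.1 j)) ^ q = Tu (fun j => f (y.1.1 j)) :=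
        ((hNiff y.1.1).1 y.1.2).symm.trans (hcent _ hc _)
      rw [← map_pow] at h1
      choose b hb using fun j => hσim (f (y.1.1 j) : K) (by
        rw [hσ, ← Units.val_pow_eq_pow_val]
        exact congrArg Units.val (congrFun (hTu h1) j))
      let c : Fin D.rank → Fˣ := fun j => Units.mk0 (b j) fun h0 => (f (y.1.1 j)).ne_zero (by
        rw [← hb j, h0, map_zero])
      have hcy : ιF c = fun j => f (y.1.1 j) := funext fun j => Units.ext (hb j)
      refine ⟨⟨c, (hιker c).2 (by rw [hcy]; exact hc)⟩, Subtype.ext (Subtype.ext (funext fun j => hf ?_))⟩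
      exact (congrFun (hG₀ ⟨c, (hιker c).2 (by rw [hcy]; exact hc)⟩) j).trans (congrFun hcy j)
  refine ⟨H, hrange ▸ isCyclic_of_surjective Ξ.rangeRestrict Ξ.rangeRestrict_surjective, ?_, le_antisymm ?_ ?_⟩
  · rw [← hkerΞ, ← hrange, ← hcard, ← Nat.card_congr (QuotientGroup.quotientKerEquivRange Ξ).toEquiv]
    exact (Subgroup.card_eq_card_quotient_mul_card_subgroup _).symm
  · exact Subgroup.centralizer_le (Set.singleton_subset_iff.2 (Subgroup.mem_centralizer_iff.2 fun u hu' => by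
      rw [Set.mem_singleton_iff.1 hu']))
  · intro y hy
    refine Subgroup.mem_centralizer_iff.2 fun u hu' => ?_
    rw [SetLike.mem_coe, ← hrange] at hu'
    rw [← hrange] at hy
    obtain ⟨a, rfl⟩ := hu'
    obtain ⟨b, rfl⟩ := hy
    rw [← map_mul, ← map_mul, mul_comm]

end Cfsg.Agent.LieTori
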