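import Cfsg.Agent.LieTori.RegularTorus
import Cfsg.Agent.LieTori.SylowInst
import Mathlib.RingTheory.Polynomial.Cyclotomic.Expand

/-! Cyclotomic data for the self-centralising tori of `F4` and `E8` (owner: helper35). -/

set_option autoImplicit false
set_option linter.style.haveILetI false

namespace Cfsg.Agent.LieTori

open Polynomial

theorem cyclotomic_eight_eval (q : ℕ) : ((cyclotomic 8 ℤ).eval (q : ℤ)).natAbs = q ^ 4 + 1 := by
  have h : cyclotomic 8 ℤ = X ^ 4 + 1 := by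
    rw [show 8 = 2 ^ (2 + 1) from rfl, cyclotomic_prime_pow_eq_geom_sum Nat.prime_two]
    norm_num [Finset.sum_range_succ]
    ring
  rw [h, eval_add, eval_pow, eval_X, eval_one, show (q : ℤ) ^ 4 + 1 = ((q ^ 4 + 1 : ℕ) : ℤ) by push_cast; rfl,
    Int.natAbs_natCast]

theorem cyclotomic_fifteen :
    cyclotomic 15 ℤ = X ^ 8 - X ^ 7 + X ^ 5 - X ^ 4 + X ^ 3 - X + 1 := by
  have h := cyclotomic_expand_eq_cyclotomic_mul (p := 5) (n := 3) Nat.prime_five (by norm_num) ℤ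
  rw [show 3 * 5 = 15 from rfl, cyclotomic_three] at h
  simp only [map_add, map_pow, expand_X, map_one] at h
  refine mul_right_cancel₀ (b := (X ^ 2 + X + 1 : ℤ[X])) ?_ ?_
  · rw [← cyclotomic_three]; exact cyclotomic_ne_zero 3 ℤ
  · rw [← h]; ring

theorem cyclotomic_thirty :
    cyclotomic 30 ℤ = X ^ 8 + X ^ 7 - X ^ 5 - X ^ 4 - X ^ 3 + X + 1 := by
  have h := cyclotomic_expand_eq_cyclotomic_mul (p := 2) (n := 15) Nat.prime_two (by norm_num) ℤ
  rw [show 15 * 2 = 30 from rfl, cyclotomic_fifteen] at h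
  simp only [map_add, map_sub, map_pow, expand_X, map_one] at h
  refine mul_right_cancel₀ (b := (X ^ 8 - X ^ 7 + X ^ 5 - X ^ 4 + X ^ 3 - X + 1 : ℤ[X])) ?_ ?_
  · rw [← cyclotomic_fifteen]; exact cyclotomic_ne_zero 15 ℤ
  · rw [← h]; ring

theorem cyclotomic_thirty_eval {q : ℕ} (hq : 2 ≤ q) :
    ((cyclotomic 30 ℤ).eval (q : ℤ)).natAbs = q ^ 8 + q ^ 7 - q ^ 5 - q ^ 4 - q ^ 3 + q + 1 := by
  have h5 : q ^ 5 ≤ q ^ 7 := Nat.pow_le_pow_right (by omega) (by norm_num)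
  have h4 : q ^ 4 ≤ q ^ 7 := Nat.pow_le_pow_right (by omega) (by norm_num)
  have h3 : q ^ 3 ≤ q ^ 7 := Nat.pow_le_pow_right (by omega) (by norm_num)
  have h8 : 2 * q ^ 7 ≤ q ^ 8 := by rw [pow_succ q 7, mul_comm]; exact Nat.mul_le_mul_left _ hq
  have e : ((q ^ 8 + q ^ 7 - q ^ 5 - q ^ 4 - q ^ 3 + q + 1 : ℕ) : ℤ) = (cyclotomic 30 ℤ).eval (q : ℤ) := by
    rw [cyclotomic_thirty]
    simp only [eval_add, eval_sub, eval_pow, eval_X, eval_one]
    rw [Nat.cast_add, Nat.cast_add, Nat.cast_sub (by omega), Nat.cast_sub (by omega), Nat.cast_sub (by omega),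
      Nat.cast_add]
    push_cast
    rfl
  rw [← e, Int.natAbs_natCast]

theorem primes_F4 : ∀ r : ℕ, r.Prime → r ∣ [2, 6, 8, 12].prod → r ≤ 8 := fun r hr h => by
  rw [show [2, 6, 8, 12].prod = 2 ^ 7 * 3 ^ 2 from by norm_num] at h
  rcases (Nat.Prime.dvd_mul hr).1 h with h | h
  · exact (Nat.le_of_dvd (by norm_num) (hr.dvd_of_dvd_pow h)).trans (by norm_num)
  · exact (Nat.le_of_dvd (by norm_num) (hr.dvd_of_dvd_pow h)).trans (by norm_num)

theorem primes_E8 : ∀ r : ℕ, r.Prime → r ∣ [2, 8, 12, 14, 18, 20, 24, 30].prod → r ≤ 30 := fun r hr h => by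
  obtain ⟨e, he, hre⟩ := (Prime.dvd_prod_iff hr.prime).1 h
  simp only [List.mem_cons, List.not_mem_nil, or_false] at he
  exact (Nat.le_of_dvd (by omega) hre).trans (by omega)

end Cfsg.Agent.LieTori
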