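import Cfsg.Agent.LieTori.TorusAct
import Cfsg.Agent.ChevGrp.Steinberg
import Cfsg.Agent.Known.ChevSubfield

/-!
The action of a field endomorphism on the universal Chevalley group and its fixed points, when the torus of
the universal group is faithful (owner: helper35).
-/

set_option autoImplicit false

namespace Cfsg.Agent.LieTori

open Cfsg.Lie Cfsg.Agent.ChevGrp Matrix
open scoped MatrixGroups

variable {D : ChevalleyDatum} {K : Type*} [Field K] (hS : Rules D K) (σ : K →+* K) {len : ℕ → ℕ}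

include hS in
theorem exists_stFr :
    ∃ φ : D.SteinbergGroup K →* D.SteinbergGroup K,
      ∀ r < D.nroots, ∀ t : K, φ ((stSys hS).x r t) = (stSys hS).x r (σ t) := by
  obtain ⟨len, hR⟩ := hS.root
  let S := stSys hS
  let f : Fin D.nroots × K → D.SteinbergGroup K := fun p => S.x p.1 (σ p.2)
  let g : ℕ → K → D.SteinbergGroup K := fun r t => if r < D.nroots then S.x r (σ t) else 1
  have hX : ∀ (r : ℕ) (t : K), FreeGroup.lift f (D.stX r t) = g r t := fun r t => by
    by_cases hr : r < D.nroots <;> simp [g, hr, ChevalleyDatum.stX, f]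
  have hkill : ∀ z ∈ D.steinbergRels K, FreeGroup.lift f z = 1 := by
    rintro z ((⟨r, t₁, t₂, hr, rfl⟩ | ⟨r, s, t, u, hr, hs, h1, h2, rfl⟩) | ⟨r, t₁, t₂, hr, h1, h2, rfl⟩)
    · simp only [map_mul, map_inv, hX, g, hr, if_true, map_add]
      exact mul_inv_eq_one.2 (S.x_add r hr _ _)
    · simp only [map_mul, map_inv, hX, stWord_lift _ _ hX]
      have e : ((D.commWord K r s t u).map fun p => g p.1 p.2).prod =
          ((D.commWord K r s (σ t) (σ u)).map fun p => S.x p.1 p.2).prod := by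
        simp only [ChevalleyDatum.commWord, List.map_map]
        refine congrArg List.prod (List.map_congr_left fun c hc => ?_)
        simp [g, (hR.commTerms_vec r hr s hs h1 h2 c hc).1, map_neg, map_intCast]
      rw [e]
      simp only [g, hr, hs, if_true]
      rw [mul_inv_eq_one, mul_assoc, mul_assoc, S.comm r hr s hs h1 h2]
      simp [mul_assoc]
    · have hh : ∀ t : K, FreeGroup.lift f (D.stH r t) = S.hEl r (σ t) := fun t => by
        rw [ChevalleyDatum.stH, stWord_lift _ _ hX]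
        simp [ChevalleyDatum.hWord, ChevalleyDatum.nWord, Sys.hEl, Sys.nEl, g, hr, hR.neg_lt r hr, mul_assoc]
      simp only [map_mul, map_inv, hh]
      exact mul_inv_eq_one.2 (S.hEl_mul hS hR (stSys_HMul hS hR) hr ((map_ne_zero σ).2 h1) ((map_ne_zero σ).2 h2))
  refine ⟨PresentedGroup.toGroup hkill, fun r hr t => ?_⟩
  show PresentedGroup.toGroup hkill (D.stGen K r t) = _
  simp only [ChevalleyDatum.stGen, ChevalleyDatum.stX, dif_pos hr]
  exact PresentedGroup.toGroup.of _

/-- The endomorphism of the universal group given by a field endomorphism. -/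
noncomputable def stFr : D.SteinbergGroup K →* D.SteinbergGroup K := (exists_stFr hS σ).choose

theorem stFr_x {r : ℕ} (hr : r < D.nroots) (t : K) :
    stFr hS σ ((stSys hS).x r t) = (stSys hS).x r (σ t) := (exists_stFr hS σ).choose_spec r hr t

theorem θ_stFr (g : D.SteinbergGroup K) :
    (stSys hS).θ (stFr hS σ g) = Known.ChevSubfield.glσ σ ((stSys hS).θ g) := by
  have e : ((stSys hS).θ).comp (stFr hS σ) = (Known.ChevSubfield.glσ σ).comp (stSys hS).θ := by
    refine PresentedGroup.ext fun p => ?_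
    have hx : PresentedGroup.of p = (stSys hS).x p.1 p.2 := by
      show _ = D.stGen K p.1 p.2
      simp [ChevalleyDatum.stGen, ChevalleyDatum.stX, PresentedGroup.of]
    have key : ∀ t, (stSys hS).θ ((stSys hS).x p.1 t) = (glSys hS).x p.1 t := fun t =>
      Units.ext (by rw [(stSys hS).θ_x _ p.1.2 t]; exact (val_xGL hS _ t).symm)
    rw [MonoidHom.comp_apply, MonoidHom.comp_apply, hx, stFr_x hS σ p.1.2, key, key,
      Known.ChevSubfield.glσ_x hS σ]
  exact DFunLike.congr_fun e g

theorem stFr_hEl {r : ℕ} (hR : RootTable D len) (hr : r < D.nroots) (t : K) :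
    stFr hS σ ((stSys hS).hEl r t) = (stSys hS).hEl r (σ t) := by
  simp [Sys.hEl, Sys.nEl, stFr_x hS σ hr, stFr_x hS σ (hR.neg_lt r hr), map_inv₀]

theorem stFr_tau (hR : RootTable D len) (c : Fin D.rank → Kˣ) :
    stFr hS σ ((stSys hS).tau hS hR (stSys_HMul hS hR) c) =
      (stSys hS).tau hS hR (stSys_HMul hS hR) (fun j => Units.map σ.toMonoidHom (c j)) := by
  have e : (stFr hS σ).comp ((stSys hS).tau hS hR (stSys_HMul hS hR)) =
      ((stSys hS).tau hS hR (stSys_HMul hS hR)).comp ((Units.map σ.toMonoidHom).compLeft (Fin D.rank)) := by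
    refine MonoidHom.pi_ext fun i u => ?_
    have e1 : ∀ v : Kˣ, (stSys hS).tau hS hR (stSys_HMul hS hR) (Pi.mulSingle i v) =
        (stSys hS).hEl (D.simple i) (v : K) := fun v => by
      rw [Sys.tau, MonoidHom.noncommPiCoprod_mulSingle]
      rfl
    have e2 : (Units.map σ.toMonoidHom).compLeft (Fin D.rank) (Pi.mulSingle i u) =
        Pi.mulSingle i (Units.map σ.toMonoidHom u) :=
      funext fun j => Pi.apply_mulSingle (fun _ => Units.map σ.toMonoidHom) (fun _ => map_one _) i u j
    rw [MonoidHom.comp_apply, MonoidHom.comp_apply, e1, e2, e1, stFr_hEl hS σ hR (hR.simple_lt i i.2)]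
    rfl
  exact DFunLike.congr_fun e c

/-- The subgroup generated by the root elements with fixed parameter. -/
def stFix : Subgroup (D.SteinbergGroup K) :=
  Subgroup.closure {g | ∃ r < D.nroots, ∃ t : K, σ t = t ∧ g = (stSys hS).x r t}

theorem stFr_of_mem_stFix {g : D.SteinbergGroup K} (hg : g ∈ stFix hS σ) : stFr hS σ g = g := by
  refine Subgroup.closure_induction (p := fun g _ => stFr hS σ g = g) ?_ (map_one _) ?_ ?_ hg
  · rintro _ ⟨r, hr, t, ht, rfl⟩
    rw [stFr_x hS σ hr, ht]
  · intro a b _ _ ha hb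
    rw [map_mul, ha, hb]
  · intro a _ ha
    rw [map_inv, ha]

theorem map_θ_stFix : (stFix hS σ).map (stSys hS).θ = Known.ChevSubfield.fixedGen (D := D) σ := by
  rw [stFix, MonoidHom.map_closure, Known.ChevSubfield.fixedGen]
  refine le_antisymm (Subgroup.closure_mono ?_) ((Subgroup.closure_le _).2 ?_)
  · rintro _ ⟨_, ⟨r, hr, t, ht, rfl⟩, rfl⟩
    exact ⟨r, t, ht, (stSys hS).θ_x r hr t⟩
  · rintro g ⟨r, t, ht, hg⟩
    by_cases hr : r < D.nroots
    · exact Subgroup.subset_closure
        ⟨_, ⟨r, hr, t, ht, rfl⟩, Units.ext (((stSys hS).θ_x r hr t).trans hg.symm)⟩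
    · rw [show g = 1 from Units.ext (by rw [hg, ChevalleyDatum.x, dif_neg hr, Units.val_one])]
      exact one_mem _

theorem tau_mem_stFix (hR : RootTable D len) {c : Fin D.rank → Kˣ} (hc : ∀ j, σ (c j : K) = c j) :
    (stSys hS).tau hS hR (stSys_HMul hS hR) c ∈ stFix hS σ := by
  rw [Sys.tau, MonoidHom.noncommPiCoprod_apply]
  refine Subgroup.noncommProd_mem _ _ fun i _ => ?_
  have hx : ∀ r < D.nroots, ∀ t : K, σ t = t → (stSys hS).x r t ∈ stFix hS σ := fun r hr t ht =>
    Subgroup.subset_closure ⟨r, hr, t, ht, rfl⟩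
  have hn : ∀ t : K, σ t = t → (stSys hS).nEl (D.simple i) t ∈ stFix hS σ := fun t ht =>
    mul_mem (mul_mem (hx _ (hR.simple_lt i i.2) _ ht)
      (hx _ (hR.neg_lt _ (hR.simple_lt i i.2)) _ (by rw [map_neg, map_inv₀, ht]))) (hx _ (hR.simple_lt i i.2) _ ht)
  exact mul_mem (hn _ (hc i)) (hn _ (by rw [map_neg, map_one]))

/-- Every fixed point of the universal group lies in the subgroup of the small field. -/
theorem mem_stFix_of_fixed (hR : RootTable D len)
    (hinj : Function.Injective ((stSys hS).tau hS hR (stSys_HMul hS hR))) {g : D.SteinbergGroup K}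
    (hg : stFr hS σ g = g) : g ∈ stFix hS σ := by
  set S := stSys hS
  set T := S.tau hS hR (stSys_HMul hS hR)
  have hgl : ∀ c, S.θ (T c) = (glSys hS).tau hS hR (glSys_HMul hS hR) c := fun c => by
    exact Units.ext ((S.mat_tau hS hR _ c).trans ((glSys hS).mat_tau hS hR _ c).symm)
  have h1 : S.θ g ∈ D.group K := by rw [← stSys_θ_range hS]; exact ⟨g, rfl⟩
  have h2 := Known.ChevSubfield.mem_fixed_decomp hS hR h1
    (show Known.ChevSubfield.glσ σ (S.θ g) = S.θ g by rw [← θ_stFr, hg])
  have h3 : ∀ z ∈ (glSys hS).Hbar ⊓ MonoidHom.eqLocus (Known.ChevSubfield.glσ σ) (MonoidHom.id (GL D.Idx K)),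
      z ∈ Subgroup.normalizer (Known.ChevSubfield.fixedGen (D := D) σ : Set (GL D.Idx K)) := fun z hz =>
    Known.ChevSubfield.fixed_torus_normalizes hS hR hz
  rw [← SetLike.mem_coe, Subgroup.coe_mul_of_right_le_normalizer_left _ _ h3, Set.mem_mul] at h2
  obtain ⟨f, hf, z, ⟨hz, -⟩, hfz⟩ := h2
  rw [SetLike.mem_coe, ← map_θ_stFix hS] at hf
  obtain ⟨f₀, hf₀, rfl⟩ := hf
  rw [← (glSys hS).tau_range hS hR (glSys_HMul hS hR)] at hz
  obtain ⟨c, rfl⟩ := hz
  have h4 : (T c)⁻¹ * f₀⁻¹ * g ∈ S.θ.ker := by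
    rw [MonoidHom.mem_ker, map_mul, map_mul, map_inv, map_inv, hgl, ← hfz]; show _ * (S.θ f₀)⁻¹ * (S.θ f₀ * _) = 1
    group
  obtain ⟨c', hc'⟩ : ∃ c', T c' = (T c)⁻¹ * f₀⁻¹ * g := by
    have := stSys_ker_le hS h4
    rw [← S.tau_range hS hR (stSys_HMul hS hR)] at this
    exact this
  have h5 : g = f₀ * T (c * c') := by rw [map_mul, hc']; group
  have h6 : stFr hS σ (T (c * c')) = T (c * c') := by
    rw [h5, map_mul, stFr_of_mem_stFix hS σ hf₀] at hg
    exact mul_left_cancel hg
  rw [stFr_tau hS σ hR] at h6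
  have h7 := hinj h6
  rw [h5]
  exact mul_mem hf₀ (tau_mem_stFix hS σ hR fun j => congrArg Units.val (congrFun h7 j))

end Cfsg.Agent.LieTori
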